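import Mathlib
import Cfsg.Agent.Lib.Helper36.B2Data

/-!
`B₂(2) ≅ S₆`: the adjoint Chevalley group of type `B₂` over a field with two elements consists
of `720` explicit matrices, permutes six row vectors faithfully, and induces every adjacent
transposition on them.
-/

set_option autoImplicit false

namespace Cfsg.Agent.Lib.Helper36

open Cfsg.Lie Matrix

section

variable {F : Type*} [Field F] [Fintype F]

theorem b2_two_eq_zero (hF : Fintype.card F = 2) : (2 : F) = 0 := by
  have h := Nat.cast_card_eq_zero F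
  rw [hF] at h
  exact_mod_cast h

theorem b2_eq_zero_or_one (hF : Fintype.card F = 2) (t : F) : t = 0 ∨ t = 1 := by
  classical
  by_contra h
  rw [not_or] at h
  have h1 : ({0, 1, t} : Finset F).card ≤ Fintype.card F := Finset.card_le_univ _
  rw [hF, Finset.card_insert_of_notMem, Finset.card_insert_of_notMem, Finset.card_singleton] at h1
  · omega
  · simp [Ne.symm h.2]
  · simp [Ne.symm h.1]

theorem xMat_one_eq (hF : Fintype.card F = 2) (r : Fin chevB2.nroots) :
    chevB2.xMat F r 1 = toMat F (b2Gc r.val) := by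
  ext row col
  have h := xMat_eq_cast (F := F) r 1 row col
  rw [Int.cast_one] at h
  rw [h, cast_int_char2 (b2_two_eq_zero hF), b2_gen_one r row col]
  rfl

omit [Fintype F] in
theorem xMat_zero_eq (r : Fin chevB2.nroots) : chevB2.xMat F r 0 = 1 := by
  ext row col
  have h := xMat_eq_cast (F := F) r 0 row col
  rw [Int.cast_zero] at h
  rw [h, b2_gen_zero r row col, Matrix.one_apply]
  split_ifs <;> simp

omit [Fintype F] in
theorem toMat_id : toMat F b2Id = 1 := toMat_one b2_id

omit [Fintype F] in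
theorem toMat_mats_zero : toMat F (b2Mats 0) = 1 := by
  rw [b2_mats_zero]
  exact toMat_id

theorem toMat_gc_sq (hF : Fintype.card F = 2) {r : ℕ} (hr : r < 8) :
    toMat F (b2Gc r) * toMat F (b2Gc r) = 1 := by
  have h := b2All_iff.mp b2_sq r hr
  rw [toMat_mul (b2_two_eq_zero hF) h, toMat_id]

theorem gc_mul_mats (hF : Fintype.card F = 2) {r : ℕ} (hr : r < 8) {k : ℕ} (hk : k < 720) :
    ∃ k' < 720, toMat F (b2Gc r) * toMat F (b2Mats k) = toMat F (b2Mats k') := by
  have h := b2All_iff.mp (b2All_iff.mp b2_clos k hk) r hr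
  rw [Bool.and_eq_true, decide_eq_true_eq] at h
  exact ⟨_, h.1, toMat_mul (b2_two_eq_zero hF) h.2⟩

/-- The generators of the group are the identity and the eight matrices `x_r(1)`. -/
theorem b2_gen_cases (hF : Fintype.card F = 2) (g : GL B2Idx F)
    (hg : ∃ (r : Fin chevB2.nroots) (t : F), (g : Matrix B2Idx B2Idx F) = chevB2.xMat F r t) :
    g = 1 ∨ ∃ r < 8, (g : Matrix B2Idx B2Idx F) = toMat F (b2Gc r) := by
  obtain ⟨r, t, h⟩ := hg
  rcases b2_eq_zero_or_one hF t with rfl | rfl
  · left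
    apply Units.ext
    rw [h, xMat_zero_eq]
    rfl
  · right
    exact ⟨r.val, r.isLt, by rw [h, xMat_one_eq hF]⟩

/-- Every element of the group is one of the `720` listed matrices. -/
theorem b2_mem_mats (hF : Fintype.card F = 2) (g : GL B2Idx F) (hg : g ∈ chevB2.group F) :
    ∃ k < 720, (g : Matrix B2Idx B2Idx F) = toMat F (b2Mats k) := by
  have key : (∀ k < 720, ∃ k' < 720,
      (g : Matrix B2Idx B2Idx F) * toMat F (b2Mats k) = toMat F (b2Mats k')) ∧
      (∀ k < 720, ∃ k' < 720,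
        ((g⁻¹ : GL B2Idx F) : Matrix B2Idx B2Idx F) * toMat F (b2Mats k) = toMat F (b2Mats k')) := by
    unfold ChevalleyDatum.group at hg
    induction hg using Subgroup.closure_induction with
    | mem x hx =>
      rcases b2_gen_cases hF x hx with rfl | ⟨r, hr, hx'⟩
      · refine ⟨fun k hk => ⟨k, hk, ?_⟩, fun k hk => ⟨k, hk, ?_⟩⟩
        · rw [Units.val_one, one_mul]
        · rw [inv_one, Units.val_one, one_mul]
      · have hinv : x⁻¹ = x := by
          rw [inv_eq_iff_mul_eq_one]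
          apply Units.ext
          rw [Units.val_mul, hx', toMat_gc_sq hF hr]
          rfl
        rw [hinv, hx']
        exact ⟨fun k hk => gc_mul_mats hF hr hk, fun k hk => gc_mul_mats hF hr hk⟩
    | one =>
      refine ⟨fun k hk => ⟨k, hk, ?_⟩, fun k hk => ⟨k, hk, ?_⟩⟩
      · rw [Units.val_one, one_mul]
      · rw [inv_one, Units.val_one, one_mul]
    | mul x y _ _ hx hy =>
      refine ⟨fun k hk => ?_, fun k hk => ?_⟩
      · obtain ⟨k1, hk1, e1⟩ := hy.1 k hk
        obtain ⟨k2, hk2, e2⟩ := hx.1 k1 hk1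
        exact ⟨k2, hk2, by rw [Units.val_mul, mul_assoc, e1, e2]⟩
      · obtain ⟨k1, hk1, e1⟩ := hx.2 k hk
        obtain ⟨k2, hk2, e2⟩ := hy.2 k1 hk1
        exact ⟨k2, hk2, by rw [_root_.mul_inv_rev, Units.val_mul, mul_assoc, e1, e2]⟩
    | inv x _ hx =>
      exact ⟨hx.2, by rw [inv_inv]; exact hx.1⟩
  obtain ⟨k', hk', e⟩ := key.1 0 (by norm_num)
  rw [toMat_mats_zero, mul_one] at e
  exact ⟨k', hk', e⟩

/-! ### The action on six row vectors -/

variable (F) in
/-- The six row vectors. -/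
def b2Vec (i : Fin 6) : B2Idx → F := toVec F (b2V i.val)

omit [Fintype F] in
theorem b2Vec_injective : Function.Injective (b2Vec F) := by
  intro i j h
  have h1 := toVec_inj h
  have h2 := b2All_iff.mp (b2All_iff.mp b2_vinj i.val i.isLt) j.val j.isLt
  rw [Bool.or_eq_true, beq_iff_eq, Bool.not_eq_true', beq_eq_false_iff_ne] at h2
  rcases h2 with h2 | h2
  · exact Fin.ext h2
  · exact absurd h1 h2

theorem b2Vec_mats (hF : Fintype.card F = 2) {k : ℕ} (hk : k < 720) (i : Fin 6) :
    b2Pm (6 * k + i.val) < 6 ∧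
      b2Vec F i ᵥ* toMat F (b2Mats k) = toVec F (b2V (b2Pm (6 * k + i.val))) := by
  have h := b2All_iff.mp (b2All_iff.mp b2_act k hk) i.val i.isLt
  rw [Bool.and_eq_true, decide_eq_true_eq, beq_iff_eq] at h
  refine ⟨h.1, ?_⟩
  rw [b2Vec, toVec_vecMul (b2_two_eq_zero hF), h.2]

theorem b2_exists_act (hF : Fintype.card F = 2) (g : GL B2Idx F) (hg : g ∈ chevB2.group F)
    (i : Fin 6) : ∃ j : Fin 6, b2Vec F i ᵥ* (g : Matrix B2Idx B2Idx F) = b2Vec F j := by
  obtain ⟨k, hk, e⟩ := b2_mem_mats hF g hg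
  obtain ⟨h1, h2⟩ := b2Vec_mats hF hk i
  exact ⟨⟨_, h1⟩, by rw [e, h2]; rfl⟩

/-- The map on indices induced by a group element (a right action). -/
noncomputable def b2f (hF : Fintype.card F = 2) (g : ↥(chevB2.group F)) (i : Fin 6) : Fin 6 :=
  Classical.choose (b2_exists_act hF g.1 g.2 i)

theorem b2f_spec (hF : Fintype.card F = 2) (g : ↥(chevB2.group F)) (i : Fin 6) :
    b2Vec F i ᵥ* ((g : GL B2Idx F) : Matrix B2Idx B2Idx F) = b2Vec F (b2f hF g i) :=
  Classical.choose_spec (b2_exists_act hF g.1 g.2 i)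

theorem b2f_mul (hF : Fintype.card F = 2) (g h : ↥(chevB2.group F)) (i : Fin 6) :
    b2f hF (g * h) i = b2f hF h (b2f hF g i) := by
  apply b2Vec_injective (F := F)
  rw [← b2f_spec, ← b2f_spec, ← b2f_spec, Matrix.vecMul_vecMul]
  rfl

theorem b2f_one (hF : Fintype.card F = 2) (i : Fin 6) : b2f hF (1 : ↥(chevB2.group F)) i = i := by
  apply b2Vec_injective (F := F)
  rw [← b2f_spec]
  exact Matrix.vecMul_one _

/-- The permutation representation on the six vectors. -/
noncomputable def b2Rep (hF : Fintype.card F = 2) : ↥(chevB2.group F) →* Equiv.Perm (Fin 6) where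
  toFun g :=
    { toFun := b2f hF g⁻¹
      invFun := b2f hF g
      left_inv := fun i => by rw [← b2f_mul, inv_mul_cancel, b2f_one]
      right_inv := fun i => by rw [← b2f_mul, mul_inv_cancel, b2f_one] }
  map_one' := by
    apply Equiv.ext
    intro i
    show b2f hF (1 : ↥(chevB2.group F))⁻¹ i = i
    rw [inv_one, b2f_one]
  map_mul' g h := by
    apply Equiv.ext
    intro i
    show b2f hF (g * h)⁻¹ i = b2f hF g⁻¹ (b2f hF h⁻¹ i)
    rw [_root_.mul_inv_rev, b2f_mul]

theorem b2Rep_apply (hF : Fintype.card F = 2) (g : ↥(chevB2.group F)) (i : Fin 6) :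
    b2Rep hF g i = b2f hF g⁻¹ i := rfl

theorem b2Rep_injective (hF : Fintype.card F = 2) : Function.Injective (b2Rep hF (F := F)) := by
  rw [injective_iff_map_eq_one]
  intro g hg
  have hfix : ∀ i : Fin 6, b2f hF g⁻¹ i = i := fun i => by
    rw [← b2Rep_apply, hg]
    rfl
  obtain ⟨k, hk, e⟩ := b2_mem_mats hF (g⁻¹ : ↥(chevB2.group F)).1 (g⁻¹ : ↥(chevB2.group F)).2
  have hk0 : k = 0 := by
    have h := b2All_iff.mp b2_ker k hk
    rw [Bool.or_eq_true, beq_iff_eq, Bool.not_eq_true'] at h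
    rcases h with h | h
    · exact h
    · exfalso
      have h' : b2All (fun i => b2Pm (6 * k + i) == i) 6 = true := by
        rw [b2All_iff]
        intro i hi
        rw [beq_iff_eq]
        obtain ⟨h1, h2⟩ := b2Vec_mats hF hk (⟨i, hi⟩ : Fin 6)
        have h3 := b2f_spec hF g⁻¹ ⟨i, hi⟩
        rw [hfix, e, h2] at h3
        have h4 : (⟨_, h1⟩ : Fin 6) = ⟨i, hi⟩ := b2Vec_injective (F := F) h3
        exact congrArg Fin.val h4
      rw [h'] at h
      exact Bool.noConfusion h
  rw [hk0, toMat_mats_zero] at e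
  have h1 : g⁻¹ = 1 := Subtype.ext (Units.ext e)
  exact inv_eq_one.mp h1

/-! ### Surjectivity -/

/-- The root element `x_r(1)` as an element of the group. -/
noncomputable def b2X (hF : Fintype.card F = 2) (r : Fin 8) : ↥(chevB2.group F) :=
  ⟨⟨toMat F (b2Gc r.val), toMat F (b2Gc r.val), toMat_gc_sq hF r.isLt, toMat_gc_sq hF r.isLt⟩,
    Subgroup.subset_closure ⟨r, 1, (xMat_one_eq hF r).symm⟩⟩

/-- The action of the generators on the indices. -/
def b2Gp (r : Fin 8) (i : Fin 6) : Fin 6 := ⟨b2GpN r.val i.val % 6, Nat.mod_lt _ (by norm_num)⟩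

theorem b2f_X (hF : Fintype.card F = 2) (r : Fin 8) (i : Fin 6) :
    b2f hF (b2X hF r) i = b2Gp r i := by
  apply b2Vec_injective (F := F)
  rw [← b2f_spec]
  have h := b2All_iff.mp (b2All_iff.mp b2_gp r.val r.isLt) i.val i.isLt
  rw [Bool.and_eq_true, decide_eq_true_eq, beq_iff_eq] at h
  show b2Vec F i ᵥ* toMat F (b2Gc r.val) = _
  rw [b2Vec, toVec_vecMul (b2_two_eq_zero hF), h.2, b2Vec, b2Gp]
  simp only [Nat.mod_eq_of_lt h.1]

theorem b2f_word (hF : Fintype.card F = 2) (w : List (Fin 8)) (i : Fin 6) :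
    b2f hF (w.map (b2X hF (F := F))).prod i = w.foldl (fun j r => b2Gp r j) i := by
  induction w generalizing i with
  | nil => exact b2f_one hF i
  | cons r w ih =>
    rw [List.map_cons, List.prod_cons, b2f_mul, b2f_X, ih, List.foldl_cons]

/-- Words in the generators inducing the adjacent transpositions. -/
def b2Word (t : Fin 5) : List (Fin 8) :=
  match t with
  | 0 => [0]
  | 1 => [3, 2, 7, 2, 3]
  | 2 => [3]
  | 3 => [3, 4, 3]
  | 4 => [3, 1, 0]

theorem b2Word_act : ∀ (t : Fin 5) (i : Fin 6),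
    (b2Word t).foldl (fun j r => b2Gp r j) i = Equiv.swap t.castSucc t.succ i := by
  decide

theorem b2Rep_surjective (hF : Fintype.card F = 2) : Function.Surjective (b2Rep hF (F := F)) := by
  intro σ
  have h1 : Submonoid.closure (Set.range fun i : Fin 5 => Equiv.swap i.castSucc i.succ) ≤
      (b2Rep hF (F := F)).range.toSubmonoid := by
    rw [Submonoid.closure_le]
    rintro _ ⟨t, rfl⟩
    refine ⟨((b2Word t).map (b2X hF (F := F))).prod⁻¹, ?_⟩
    apply Equiv.ext
    intro i
    rw [b2Rep_apply, inv_inv, b2f_word, b2Word_act]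
  rw [Equiv.Perm.mclosure_swap_castSucc_succ] at h1
  exact h1 (Submonoid.mem_top σ)

/-- `B₂(2) ≅ S₆`. -/
theorem b2_two_equiv (hF : Fintype.card F = 2) :
    Nonempty (↥(chevB2.group F) ≃* Equiv.Perm (Fin 6)) :=
  ⟨MulEquiv.ofBijective (b2Rep hF) ⟨b2Rep_injective hF, b2Rep_surjective hF⟩⟩

end

end Cfsg.Agent.Lib.Helper36
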