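import Cfsg.Agent.Lib.Helper36.ChevDynCommon

/-!
# Piece PE of the Chevalley root datum: the rank one relations
-/

set_option autoImplicit false

namespace Cfsg.Agent.Lib.Helper36.ChevDynP

open Cfsg.Lie Cfsg.Agent.Lib.Helper27.PslnOut Cfsg.Agent.Lib.Helper27.DynOut
  Cfsg.Agent.Lib.Helper27.ChevDyn
open Cfsg.Agent.Lib.Helper24

variable {F : Type*} [Field F] (D : ChevalleyDatum)

theorem sX_val (t : F) :
    ((sX t : Matrix.SpecialLinearGroup (Fin 2) F) : Matrix (Fin 2) (Fin 2) F) = !![1, t; 0, 1] :=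
  rfl

theorem sY_val (t : F) :
    ((sY t : Matrix.SpecialLinearGroup (Fin 2) F) : Matrix (Fin 2) (Fin 2) F) = !![1, 0; t, 1] :=
  rfl

theorem mk2_congr {R : Type*} {a b c d a' b' c' d' : R} (h1 : a = a') (h2 : b = b') (h3 : c = c')
    (h4 : d = d') : !![a, b; c, d] = !![a', b'; c', d'] := by
  subst h1 h2 h3 h4; rfl

/-- `n(c) x(a) = y(-c⁻² a) n(c)` in `SL₂` -/
theorem sl2_id1 (c : F) (hc : c ≠ 0) (a : F) :
    sX c * sY (-c⁻¹) * sX c * sX a = sY (-(c⁻¹) ^ 2 * a) * (sX c * sY (-c⁻¹) * sX c) := by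
  apply Subtype.ext
  simp only [Matrix.SpecialLinearGroup.coe_mul, sX_val, sY_val, Matrix.mul_fin_two]
  apply mk2_congr <;> first | ring1 | (field_simp; ring1)

/-- `g x(a) = y(t) x(a m²) y(-t) g` for `g = x(c) y(c') x(c)`, `m = 1 + c c' ≠ 0`, `t = c' / m` -/
theorem sl2_id2 (c c' a : F) (hm : 1 + c * c' ≠ 0) :
    sX c * sY c' * sX c * sX a =
      sY (c' / (1 + c * c')) * sX (a * (1 + c * c') ^ 2) * sY (-(c' / (1 + c * c'))) *
        (sX c * sY c' * sX c) := by
  have hm' : 1 + c' * c ≠ 0 := by rwa [mul_comm c' c]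
  apply Subtype.ext
  simp only [Matrix.SpecialLinearGroup.coe_mul, sX_val, sY_val, Matrix.mul_fin_two]
  apply mk2_congr <;> first | ring1 | (field_simp; ring1)

/-- PE -/
theorem pieceE (hD : D ∈ lst) :
    (∀ (i : Fin D.rank) (c : F), c ≠ 0 → ∀ a : F, ∃ b : F,
      nn (xs D) (ys D) i c * xs D i a * (nn (xs D) (ys D) i c)⁻¹ = ys D i b) ∧
    (∀ (i : Fin D.rank) (c c' a b : F), a ≠ 0 →
      (xs D i c * ys D i c' * xs D i c) * xs D i a * (xs D i c * ys D i c' * xs D i c)⁻¹ = ys D i b →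
      c * c' = -1) := by
  have hD' : D ∈ chevList := hD
  constructor
  · intro i c hc a
    obtain ⟨φ, hx, hy⟩ := exists_phi (F := F) D hD i
    refine ⟨-(c⁻¹) ^ 2 * a, ?_⟩
    rw [mul_inv_eq_iff_eq_mul]
    apply Subtype.ext
    unfold nn
    simp only [Subgroup.coe_mul, hx, hy, ← map_mul]
    rw [sl2_id1 c hc a]
  · intro i c c' a b ha h
    by_contra hcc
    have hm : 1 + c * c' ≠ 0 := fun h0 => hcc (by linear_combination h0)
    obtain ⟨φ, hx, hy⟩ := exists_phi (F := F) D hD i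
    obtain ⟨hpos, hneg, hn, hne⟩ := simple_facts D hD i
    rw [mul_inv_eq_iff_eq_mul] at h
    have h2 := congrArg Subtype.val h
    simp only [Subgroup.coe_mul, hx, hy, ← map_mul] at h2
    rw [sl2_id2 c c' a hm, map_mul, map_mul φ (sY b)] at h2
    have h3 := mul_right_cancel h2
    rw [map_mul, map_mul] at h3
    -- `φ (sX a'')` lies in `U` and in `V`
    set a'' : F := a * (1 + c * c') ^ 2 with ha''
    set t : F := c' / (1 + c * c') with ht
    have hV : ∀ u : F, φ (sY u) ∈ D.negUnipotent F := by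
      intro u
      rw [← hy u]
      unfold ChevalleyDatum.negUnipotent
      exact Subgroup.subset_closure ⟨D.neg (D.simple i), u, hneg, xgv D hD _ u⟩
    have hU : φ (sX a'') ∈ D.posUnipotent F := by
      rw [← hx a'']
      unfold ChevalleyDatum.posUnipotent
      exact Subgroup.subset_closure ⟨D.simple i, a'', hpos, xgv D hD _ a''⟩
    have h4 : φ (sX a'') = (φ (sY t))⁻¹ * φ (sY b) * (φ (sY (-t)))⁻¹ := by
      rw [← h3]; group
    have hV' : φ (sX a'') ∈ D.negUnipotent F := by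
      rw [h4]
      exact Subgroup.mul_mem _ (Subgroup.mul_mem _ (Subgroup.inv_mem _ (hV t)) (hV b))
        (Subgroup.inv_mem _ (hV (-t)))
    have hB : φ (sX a'') ∈ D.borelSubgroup F ⊓ D.negUnipotent F :=
      ⟨(le_sup_left : D.posUnipotent F ≤ D.borelSubgroup F) hU, hV'⟩
    rw [borel_inf_negUnipotent D hD', Subgroup.mem_bot] at hB
    have h5 : D.x F (D.simple i) a'' = 1 := by
      rw [← xgv D hD (D.simple i) a'']
      have : ((xs D i a'' : ↥(D.group F)) : GL D.Idx F) = 1 := by rw [hx a'', hB]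
      unfold xs at this
      rw [this, Units.val_one]
    have h6 := eq_zero_of_xs_eq_one D hD i a'' h5
    rw [ha''] at h6
    rcases mul_eq_zero.1 h6 with h7 | h7
    · exact ha h7
    · exact hm (pow_eq_zero_iff (two_ne_zero) |>.1 h7)

end Cfsg.Agent.Lib.Helper36.ChevDynP
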