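import Cfsg.Agent.Lib.Helper36.ChevDynCommon
import Cfsg.Agent.S1032
import Cfsg.Agent.S1076

/-!
# Piece PF of the Chevalley root datum: the torus action
-/

set_option autoImplicit false

namespace Cfsg.Agent.Lib.Helper36.ChevDynP

open Cfsg.Lie Cfsg.Agent.Lib.Helper27.PslnOut Cfsg.Agent.Lib.Helper27.DynOut
  Cfsg.Agent.Lib.Helper27.ChevDyn
open Cfsg.Agent.Lib.Helper24

variable {F : Type*} [Field F] (D : ChevalleyDatum)

/-- the Cartan integer computed from bonds and lengths is the Cartan integer of the datum -/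
theorem cart_eq (hD : D ∈ lst) (i j : Fin D.rank) :
    cart (bondD D) (longD D) i j = D.cartan i (D.simple j) := by
  simp only [lst, List.mem_cons, List.not_mem_nil, or_false] at hD
  rcases hD with rfl | rfl | rfl | rfl | rfl | rfl | rfl <;> revert i j <;> decide +kernel

/-- the matrix of `n_i(c) n_i(d)⁻¹` is `h_{p_i}(c / d)` -/
theorem nn_div_val (hD : D ∈ lst) (i : Fin D.rank) (c d : F) (hc : c ≠ 0) (hd : d ≠ 0) :
    (((nn (xs D) (ys D) i c * (nn (xs D) (ys D) i d)⁻¹ : ↥(D.group F)) : GL D.Idx F) :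
      Matrix D.Idx D.Idx F) = D.hMat F (D.simple i) (c / d) := by
  have hp : D.simple i < D.nroots := simple_lt' D hD i
  have he : c / d ≠ 0 := div_ne_zero hc hd
  have h1 : D.nMat F (D.simple i) c = D.hMat F (D.simple i) (c / d) * D.nMat F (D.simple i) d := by
    rw [nMat_eq_hMat_mul36 D hD _ hp c, nMat_eq_hMat_mul36 D hD _ hp d, ← Matrix.mul_assoc,
      Cfsg.Agent.S1076.result D hD _ hp _ _ he hd, div_mul_cancel₀ c hd]
  rw [Subgroup.coe_mul, Units.val_mul, nn_val D hD, h1, Matrix.mul_assoc, ← nn_val D hD i d,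
    Subgroup.coe_inv, ← Units.val_mul, mul_inv_cancel, Units.val_one, Matrix.mul_one]

/-- PF -/
theorem pieceF (hD : D ∈ lst) :
    ∀ (i j : Fin D.rank) (c d : F), c ≠ 0 → d ≠ 0 → ∀ b : F,
      (nn (xs D) (ys D) i c * (nn (xs D) (ys D) i d)⁻¹) * xs D j b *
        (nn (xs D) (ys D) i c * (nn (xs D) (ys D) i d)⁻¹)⁻¹ =
      xs D j ((c / d) ^ (cart (bondD D) (longD D) i j) * b) := by
  intro i j c d hc hd b
  have hs : D.simple j < D.nroots := simple_lt' D hD j
  have he : c / d ≠ 0 := div_ne_zero hc hd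
  have hg := nn_div_val D hD i c d hc hd
  generalize nn (xs D) (ys D) i c * (nn (xs D) (ys D) i d)⁻¹ = g at hg ⊢
  rw [mul_inv_eq_iff_eq_mul]
  apply Subtype.ext
  apply Units.ext
  rw [Subgroup.coe_mul, Subgroup.coe_mul, Units.val_mul, Units.val_mul, hg]
  unfold xs
  rw [xgv D hD, xgv D hD, cart_eq D hD]
  exact Cfsg.Agent.S1032.result D hD i (D.simple j) i.2 hs (c / d) he b

end Cfsg.Agent.Lib.Helper36.ChevDynP
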