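import Cfsg.Agent.Lib.Helper36.A5L11Data
import Cfsg.Agent.Lib.Helper19.A5P

/-!
The subgroups isomorphic to `A₅` in a quotient of `SL(2, 11)` by `{1, -1}`: there are `22` of
them, in two conjugacy classes.
-/

set_option autoImplicit false
open scoped Pointwise

namespace Cfsg.Agent.Lib.Helper36.A5L11

open Cfsg.Agent.Lib.Helper19

theorem all_range {n : ℕ} {f : ℕ → Bool} (h : (List.range n).all f = true) {i : ℕ} (hi : i < n) :
    f i = true := List.all_eq_true.1 h i (List.mem_range.2 hi)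

theorem card_A5 : Nat.card (alternatingGroup (Fin 5)) = 60 := by
  rw [nat_card_alternatingGroup]
  simp
  decide

theorem f1 {i : ℕ} (hi : i < 22) : Valid (cA i) ∧ Valid (cX i) ∧
    isPM1 (cmul (cA i) (cA i)) = true ∧ isPM1 (pow5 (cX i)) = true ∧
    isPM1 (cube (cmul (cA i) (cX i))) = true ∧ isPM1 (cX i) = false := by
  have h := all_range chk1 hi
  simp only [Bool.and_eq_true, Bool.not_eq_true', valid_iff] at h
  exact ⟨h.1.1.1.1.1, h.1.1.1.1.2, h.1.1.1.2, h.1.1.2, h.1.2, h.2⟩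

theorem f2 {i : ℕ} (hi : i < 22) : (∀ n ∈ cS i, Valid n) ∧ memL (cS i) 1332 = true ∧
    (cS i).length = 60 ∧
    ∀ n ∈ cS i, memL (cS i) (cmul n (cA i)) = true ∧ memL (cS i) (cmul n (cX i)) = true := by
  have h := all_range chk2 hi
  simp only [Bool.and_eq_true, List.all_eq_true, valid_iff, Nat.beq_eq] at h
  exact ⟨h.1.1.1, h.1.1.2, h.1.2, h.2⟩

theorem fLv : (∀ n ∈ cLA, Valid n) ∧ ∀ t ∈ cLX, Valid t.1 ∧ t.2.1 < 22 ∧ t.2.2 < 22 ∧
    memL (cS t.2.1) t.1 = true ∧ memL (cS t.2.2) t.1 = true := by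
  have h := chkLv
  simp only [Bool.and_eq_true, List.all_eq_true, valid_iff, Nat.blt_eq] at h
  exact ⟨h.1, fun t ht => ⟨(h.2 t ht).1.1.1.1, (h.2 t ht).1.1.1.2, (h.2 t ht).1.1.2,
    (h.2 t ht).1.2, (h.2 t ht).2⟩⟩

section Main

variable {G : Type*} [Group G] {φ : S11 →* G}

/-- The `i`-th subgroup. -/
noncomputable def Hs (φ : S11 →* G) (i : ℕ) : Subgroup G :=
  Subgroup.closure {psi φ (cA i), psi φ (cX i)}

theorem rels (h : Hyp φ) {i : ℕ} (hi : i < 22) :
    psi φ (cA i) * psi φ (cA i) = 1 ∧ psi φ (cX i) ^ 5 = 1 ∧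
    psi φ (cA i) * psi φ (cX i) * psi φ (cA i) * psi φ (cX i) * psi φ (cA i) * psi φ (cX i) = 1 ∧
    psi φ (cX i) ≠ 1 := by
  obtain ⟨vA, vX, e1, e2, e3, e4⟩ := f1 hi
  refine ⟨?_, ?_, ?_, ?_⟩
  · have := (isPM1_iff h (vA.cmul vA)).1 e1
    rwa [psi_mul vA vA] at this
  · have := (isPM1_iff h vX.pow5).1 e2
    rwa [psi_pow5 vX] at this
  · have := (isPM1_iff h (vA.cmul vX).cube).1 e3
    rw [psi_cube (vA.cmul vX), psi_mul vA vX] at this
    simpa [mul_assoc] using this
  · intro e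
    have := (isPM1_iff h vX).2 e
    rw [e4] at this
    exact Bool.false_ne_true this

theorem Hs_iso (h : Hyp φ) {i : ℕ} (hi : i < 22) :
    Nonempty (Hs φ i ≃* alternatingGroup (Fin 5)) := by
  obtain ⟨r1, r2, r3, r4⟩ := rels h hi
  exact A5P.a5_of_rel _ _ r1 r2 r3 r4

theorem Hs_card (h : Hyp φ) {i : ℕ} (hi : i < 22) : Nat.card (Hs φ i) = 60 := by
  obtain ⟨e⟩ := Hs_iso h hi
  rw [Nat.card_congr e.toEquiv, card_A5]

theorem Hs_sub (h : Hyp φ) {i : ℕ} (hi : i < 22) {g : G} (hg : g ∈ Hs φ i) :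
    ∃ n ∈ cS i, psi φ n = g := by
  obtain ⟨vS, h1, -, hcl⟩ := f2 hi
  obtain ⟨vA, vX, -⟩ := f1 hi
  obtain ⟨r1, r2, -, -⟩ := rels h hi
  have stepA : ∀ g : G, (∃ n ∈ cS i, psi φ n = g) → ∃ n ∈ cS i, psi φ n = g * psi φ (cA i) := by
    rintro g ⟨n, hn, rfl⟩
    obtain ⟨n', hn', e⟩ := (memL_iff h vS ((vS n hn).cmul vA)).1 (hcl n hn).1
    exact ⟨n', hn', by rw [e, psi_mul (vS n hn) vA]⟩
  have stepX : ∀ g : G, (∃ n ∈ cS i, psi φ n = g) → ∃ n ∈ cS i, psi φ n = g * psi φ (cX i) := by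
    rintro g ⟨n, hn, rfl⟩
    obtain ⟨n', hn', e⟩ := (memL_iff h vS ((vS n hn).cmul vX)).1 (hcl n hn).2
    exact ⟨n', hn', by rw [e, psi_mul (vS n hn) vX]⟩
  have hAinv : (psi φ (cA i))⁻¹ = psi φ (cA i) := inv_eq_of_mul_eq_one_right r1
  have hXinv : (psi φ (cX i))⁻¹ =
      psi φ (cX i) * psi φ (cX i) * psi φ (cX i) * psi φ (cX i) := by
    apply inv_eq_of_mul_eq_one_right
    have e5 : psi φ (cX i) * (psi φ (cX i) * psi φ (cX i) * psi φ (cX i) * psi φ (cX i)) =
        psi φ (cX i) ^ 5 := by simp [pow_succ, mul_assoc]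
    rw [e5, r2]
  have hg' : g ∈ Subgroup.closure {psi φ (cA i), psi φ (cX i)} := hg
  induction hg' using Subgroup.closure_induction_right with
  | one =>
    obtain ⟨n, hn, e⟩ := (memL_iff h vS valid_one).1 h1
    exact ⟨n, hn, by rw [e, psi_one]⟩
  | mul_right x hx y hy ih =>
    rcases hy with rfl | hy
    · exact stepA x (ih hx)
    · have e : y = psi φ (cX i) := hy
      rw [e]
      exact stepX x (ih hx)
  | mul_inv_cancel x hx y hy ih =>
    rcases hy with rfl | hy
    · rw [hAinv]; exact stepA x (ih hx)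
    · have e : y = psi φ (cX i) := hy
      rw [e, hXinv]
      have := stepX _ (stepX _ (stepX _ (stepX x (ih hx))))
      simpa [mul_assoc] using this

theorem Hs_mem_iff (h : Hyp φ) {i : ℕ} (hi : i < 22) {c : ℕ} (hc : Valid c) :
    psi φ c ∈ Hs φ i ↔ memL (cS i) c = true := by
  obtain ⟨vS, -, hlen, -⟩ := f2 hi
  rw [memL_iff h vS hc]
  constructor
  · exact fun hg => Hs_sub h hi hg
  · rintro ⟨n, hn, e⟩
    rw [← e]
    have hsub : (Hs φ i : Set G) ⊆ (fun n => psi φ n) '' {n | n ∈ cS i} := by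
      intro g hg
      obtain ⟨n, hn, e⟩ := Hs_sub h hi hg
      exact ⟨n, hn, e⟩
    have hfin : ({n | n ∈ cS i} : Set ℕ).Finite := List.finite_toSet (cS i)
    have hcard : ((fun n => psi φ n) '' {n | n ∈ cS i}).ncard ≤ (Hs φ i : Set G).ncard := by
      calc ((fun n => psi φ n) '' {n | n ∈ cS i}).ncard
          ≤ ({n | n ∈ cS i} : Set ℕ).ncard := Set.ncard_image_le hfin
        _ ≤ 60 := by
          have e1 : ({n | n ∈ cS i} : Set ℕ) = ↑(cS i).toFinset := by ext; simp
          rw [e1, Set.ncard_coe_finset]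
          exact (List.toFinset_card_le _).trans hlen.le
        _ = (Hs φ i : Set G).ncard := by
          rw [← Hs_card h hi]
          exact Nat.card_coe_set_eq _
    have heq := Set.eq_of_subset_of_ncard_le hsub hcard (hfin.image _)
    have hm : psi φ n ∈ (fun n => psi φ n) '' {n | n ∈ cS i} := ⟨n, hn, rfl⟩
    rw [← heq] at hm
    exact hm

theorem complete (h : Hyp φ) (L : Subgroup G) (hL : Nonempty (L ≃* alternatingGroup (Fin 5))) :
    ∃ i, i < 22 ∧ L = Hs φ i := by
  obtain ⟨f⟩ := hL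
  have ra : f.symm A5P.a0 * f.symm A5P.a0 = 1 := by
    rw [← map_mul]
    have : A5P.a0 * A5P.a0 = 1 := by decide
    rw [this, map_one]
  have rx : f.symm A5P.x0 ^ 5 = 1 := by
    rw [← map_pow]
    have : A5P.x0 ^ 5 = 1 := by decide
    rw [this, map_one]
  have r3 : f.symm A5P.a0 * f.symm A5P.x0 * f.symm A5P.a0 * f.symm A5P.x0 * f.symm A5P.a0 *
      f.symm A5P.x0 = 1 := by
    simp only [← map_mul]
    have : A5P.a0 * A5P.x0 * A5P.a0 * A5P.x0 * A5P.a0 * A5P.x0 = 1 := by decide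
    rw [this, map_one]
  have rne : f.symm A5P.x0 ≠ 1 := by
    intro e
    have h1 : A5P.x0 = 1 := f.symm.injective (e.trans (map_one f.symm).symm)
    revert h1
    decide
  have hgen : Subgroup.closure {f.symm A5P.a0, f.symm A5P.x0} = (⊤ : Subgroup L) := by
    have h2 : (Subgroup.closure {A5P.a0, A5P.x0}).map f.symm.toMonoidHom = ⊤ := by
      rw [A5P.a0_gen]
      exact Subgroup.map_top_of_surjective _ f.symm.surjective
    rw [MonoidHom.map_closure, Set.image_pair] at h2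
    exact h2
  have hLc : L = Subgroup.closure {((f.symm A5P.a0 : L) : G), ((f.symm A5P.x0 : L) : G)} := by
    calc L = (⊤ : Subgroup L).map L.subtype := by
          rw [← MonoidHom.range_eq_map, Subgroup.range_subtype]
      _ = (Subgroup.closure {f.symm A5P.a0, f.symm A5P.x0}).map L.subtype := by rw [hgen]
      _ = Subgroup.closure {((f.symm A5P.a0 : L) : G), ((f.symm A5P.x0 : L) : G)} := by
          rw [MonoidHom.map_closure, Set.image_pair]
          rfl
  have ra' : ((f.symm A5P.a0 : L) : G) * ((f.symm A5P.a0 : L) : G) = 1 := by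
    have := congrArg (Subtype.val) ra
    simpa using this
  have rx' : ((f.symm A5P.x0 : L) : G) ^ 5 = 1 := by
    have := congrArg (Subtype.val) rx
    simpa using this
  have r3' : ((f.symm A5P.a0 : L) : G) * ((f.symm A5P.x0 : L) : G) * ((f.symm A5P.a0 : L) : G) *
      ((f.symm A5P.x0 : L) : G) * ((f.symm A5P.a0 : L) : G) * ((f.symm A5P.x0 : L) : G) = 1 := by
    have := congrArg (Subtype.val) r3
    simpa using this
  have rne' : ((f.symm A5P.x0 : L) : G) ≠ 1 := fun e => rne (Subtype.ext e)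
  generalize ((f.symm A5P.a0 : L) : G) = a at hLc ra' rx' r3' rne'
  generalize ((f.symm A5P.x0 : L) : G) = x at hLc ra' rx' r3' rne'
  obtain ⟨m, vm, rfl⟩ := psi_surj h a
  obtain ⟨n, vn, rfl⟩ := psi_surj h x
  obtain ⟨vLA, vLX⟩ := fLv
  -- normalise the involution
  have hm1 : isPM1 (cmul m m) = true := (isPM1_iff h (vm.cmul vm)).2 (by rw [psi_mul vm vm, ra'])
  have hmA := all_range chkLA vm.2
  rw [(valid_iff m).2 vm, hm1] at hmA
  simp only [Bool.and_self, Bool.not_true, Bool.false_or] at hmA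
  obtain ⟨m', hm', em⟩ := (memL_iff h vLA vm).1 hmA
  -- normalise the element of order five
  have hn1 : isPM1 (pow5 n) = true := (isPM1_iff h vn.pow5).2 (by rw [psi_pow5 vn, rx'])
  have hn2 : isPM1 n = false := by
    rcases hb : isPM1 n with _ | _
    · rfl
    · exact absurd ((isPM1_iff h vn).1 hb) rne'
  have hnX := all_range chkLX vn.2
  rw [(valid_iff n).2 vn, hn1, hn2] at hnX
  simp only [Bool.and_self, Bool.not_true, Bool.not_false, Bool.false_or, List.any_eq_true] at hnX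
  obtain ⟨t, ht, et⟩ := hnX
  obtain ⟨vt, ht1, ht2, hm1t, hm2t⟩ := vLX t ht
  have et' : psi φ t.1 = psi φ n := (eqpm_iff h vn vt).1 et
  have vm' : Valid m' := vLA m' hm'
  -- the third relation
  have h3 : isPM1 (cube (cmul m' t.1)) = true := by
    rw [isPM1_iff h (vm'.cmul vt).cube, psi_cube (vm'.cmul vt), psi_mul vm' vt, em, et']
    simpa [mul_assoc] using r3'
  have hc3 := List.all_eq_true.1 (List.all_eq_true.1 chk3 m' hm') t ht
  rw [h3] at hc3
  simp only [Bool.not_true, Bool.false_or, Bool.or_eq_true] at hc3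
  have fin : ∀ i, i < 22 → memL (cS i) m' = true → memL (cS i) t.1 = true → L = Hs φ i := by
    intro i hi hA hX
    have hAm : psi φ m ∈ Hs φ i := by rw [← em]; exact (Hs_mem_iff h hi vm').2 hA
    have hXm : psi φ n ∈ Hs φ i := by rw [← et']; exact (Hs_mem_iff h hi vt).2 hX
    have hle : L ≤ Hs φ i := by
      rw [hLc, Subgroup.closure_le]
      rintro y (rfl | hy)
      · exact hAm
      · have e : y = psi φ n := hy
        rw [e]; exact hXm
    have : Finite (Hs φ i) := Nat.finite_of_card_ne_zero (by rw [Hs_card h hi]; norm_num)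
    exact Subgroup.eq_of_le_of_card_ge hle
      (by rw [Hs_card h hi, Nat.card_congr f.toEquiv, card_A5])
  rcases hc3 with hc | hc
  · exact ⟨t.2.1, ht1, fin _ ht1 hc hm1t⟩
  · exact ⟨t.2.2, ht2, fin _ ht2 hc hm2t⟩

theorem distinct (h : Hyp φ) {i j : ℕ} (hi : i < 22) (hj : j < 22) (e : Hs φ i = Hs φ j) :
    i = j := by
  have h1 := all_range chkD hi
  beta_reduce at h1
  have hd := all_range h1 hj
  beta_reduce at hd
  obtain ⟨vA, vX, -⟩ := f1 hi
  have hA : psi φ (cA i) ∈ Hs φ j := by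
    rw [← e]; exact Subgroup.subset_closure (by simp)
  have hX : psi φ (cX i) ∈ Hs φ j := by
    rw [← e]; exact Subgroup.subset_closure (by simp)
  rw [Hs_mem_iff h hj vA] at hA
  rw [Hs_mem_iff h hj vX] at hX
  rw [hA, hX] at hd
  simpa [Nat.beq_eq] using hd

theorem conj_mem (g a : G) (H : Subgroup G) (ha : a ∈ H) : g * a * g⁻¹ ∈ MulAut.conj g • H :=
  Subgroup.smul_mem_pointwise_smul a (MulAut.conj g) H ha

theorem nonconj (h : Hyp φ) (g : G) : MulAut.conj g • Hs φ 0 ≠ Hs φ 1 := by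
  intro e
  obtain ⟨n, vn, rfl⟩ := psi_surj h g
  have hc := all_range chkN vn.2
  beta_reduce at hc
  obtain ⟨vA, vX, -⟩ := f1 (show 0 < 22 by norm_num)
  have hA : psi φ (cconj n (cA 0)) ∈ Hs φ 1 := by
    rw [← e, psi_cconj vn vA]
    exact conj_mem _ _ _ (Subgroup.subset_closure (by simp))
  have hX : psi φ (cconj n (cX 0)) ∈ Hs φ 1 := by
    rw [← e, psi_cconj vn vX]
    exact conj_mem _ _ _ (Subgroup.subset_closure (by simp))
  rw [Hs_mem_iff h (by norm_num) (vn.cconj vA)] at hA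
  rw [Hs_mem_iff h (by norm_num) (vn.cconj vX)] at hX
  rw [(valid_iff n).2 vn, hA, hX] at hc
  exact Bool.false_ne_true hc

theorem conj_to (h : Hyp φ) {i : ℕ} (hi : i < 22) :
    ∃ g : G, MulAut.conj g • Hs φ i = Hs φ 0 ∨ MulAut.conj g • Hs φ i = Hs φ 1 := by
  have hc := all_range chkC hi
  simp only [Bool.and_eq_true, Bool.or_eq_true, Nat.beq_eq, valid_iff] at hc
  obtain ⟨⟨⟨vg, ht⟩, hA⟩, hX⟩ := hc
  obtain ⟨vA, vX, -⟩ := f1 hi
  have ht22 : ct i < 22 := by rcases ht with e | e <;> rw [e] <;> norm_num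
  have key : MulAut.conj (psi φ (cg i)) • Hs φ i = Hs φ (ct i) := by
    have hle : MulAut.conj (psi φ (cg i)) • Hs φ i ≤ Hs φ (ct i) := by
      have e1 : Hs φ i = Subgroup.closure {psi φ (cA i), psi φ (cX i)} := rfl
      rw [e1, Subgroup.smul_closure, Subgroup.closure_le]
      rintro _ ⟨y, hy, rfl⟩
      rcases hy with rfl | hy
      · have := (Hs_mem_iff h ht22 (vg.cconj vA)).2 hA
        rw [psi_cconj vg vA] at this
        exact this
      · have e : y = psi φ (cX i) := hy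
        rw [e]
        have := (Hs_mem_iff h ht22 (vg.cconj vX)).2 hX
        rw [psi_cconj vg vX] at this
        exact this
    have : Finite (Hs φ (ct i)) := Nat.finite_of_card_ne_zero (by rw [Hs_card h ht22]; norm_num)
    exact Subgroup.eq_of_le_of_card_ge hle
      (by rw [Hs_card h ht22, ← Nat.card_congr (Subgroup.equivSMul _ _).toEquiv, Hs_card h hi])
  rcases ht with e | e
  · exact ⟨_, Or.inl (by rw [key, e])⟩
  · exact ⟨_, Or.inr (by rw [key, e])⟩

/-- A quotient of `SL(2, 11)` by `{1, -1}` has exactly `22` subgroups isomorphic to `A₅`, in two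
conjugacy classes. -/
theorem main (h : Hyp φ) :
    Nat.card {H : Subgroup G // Nonempty (H ≃* alternatingGroup (Fin 5))} = 22 ∧
    ∃ H K : Subgroup G, Nonempty (H ≃* alternatingGroup (Fin 5)) ∧
      Nonempty (K ≃* alternatingGroup (Fin 5)) ∧
      (∀ g : G, MulAut.conj g • H ≠ K) ∧
      ∀ L : Subgroup G, Nonempty (L ≃* alternatingGroup (Fin 5)) →
        ∃ g : G, MulAut.conj g • L = H ∨ MulAut.conj g • L = K := by
  refine ⟨?_, Hs φ 0, Hs φ 1, Hs_iso h (by norm_num), Hs_iso h (by norm_num), nonconj h, ?_⟩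
  · let f : Fin 22 → {H : Subgroup G // Nonempty (H ≃* alternatingGroup (Fin 5))} :=
      fun i => ⟨Hs φ i, Hs_iso h i.2⟩
    have hf : Function.Bijective f := by
      constructor
      · intro i j e
        exact Fin.ext (distinct h i.2 j.2 (congrArg Subtype.val e))
      · rintro ⟨L, hL⟩
        obtain ⟨i, hi, rfl⟩ := complete h L hL
        exact ⟨⟨i, hi⟩, rfl⟩
    rw [← Nat.card_congr (Equiv.ofBijective f hf), Nat.card_fin]
  · intro L hL
    obtain ⟨i, hi, rfl⟩ := complete h L hL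
    exact conj_to h hi

end Main

end Cfsg.Agent.Lib.Helper36.A5L11
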