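import Mathlib

/-!
Codes for `SL(2, 11)`: a matrix `!![a, b; c, d]` over `ZMod 11` is the numeral
`a + 11 b + 121 c + 1331 d`.  Products, negation and inverses are computed on codes; the lemmas
here say what these computations mean in a quotient `φ : SL(2, 11) →* G` with kernel `{1, -1}`.
-/

set_option autoImplicit false

namespace Cfsg.Agent.Lib.Helper36.A5L11

open Matrix

/-- `SL(2, 11)`. -/
abbrev S11 := Matrix.SpecialLinearGroup (Fin 2) (ZMod 11)

/-- The digits of a code. -/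
def d0 (n : ℕ) : ℕ := n % 11
/-- The digits of a code. -/
def d1 (n : ℕ) : ℕ := n / 11 % 11
/-- The digits of a code. -/
def d2 (n : ℕ) : ℕ := n / 121 % 11
/-- The digits of a code. -/
def d3 (n : ℕ) : ℕ := n / 1331 % 11
/-- The code with given digits. -/
def mk4 (a b c d : ℕ) : ℕ := a + 11 * b + 121 * c + 1331 * d

/-- Product of codes. -/
def cmul (m n : ℕ) : ℕ :=
  mk4 ((d0 m * d0 n + d1 m * d2 n) % 11) ((d0 m * d1 n + d1 m * d3 n) % 11)
      ((d2 m * d0 n + d3 m * d2 n) % 11) ((d2 m * d1 n + d3 m * d3 n) % 11)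
/-- Negative of a code. -/
def cneg (n : ℕ) : ℕ := mk4 (10 * d0 n % 11) (10 * d1 n % 11) (10 * d2 n % 11) (10 * d3 n % 11)
/-- Inverse (adjugate) of a code. -/
def cinv (n : ℕ) : ℕ := mk4 (d3 n % 11) (10 * d1 n % 11) (10 * d2 n % 11) (d0 n % 11)
/-- The code is below `11 ^ 4` and has determinant `1`. -/
def valid (n : ℕ) : Bool :=
  Nat.beq ((d0 n * d3 n + 10 * (d1 n * d2 n)) % 11) 1 && Nat.blt n 14641
/-- The code of `1` or of `-1`. -/
def isPM1 (n : ℕ) : Bool := Nat.beq n 1332 || Nat.beq n 13320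
/-- `n` is `c` or `-c`. -/
def eqpm (c n : ℕ) : Bool := Nat.beq n c || Nat.beq n (cneg c)
/-- Membership up to sign. -/
def memL (l : List ℕ) (c : ℕ) : Bool := l.any (eqpm c)
/-- Fifth power. -/
def pow5 (n : ℕ) : ℕ := cmul (cmul (cmul (cmul n n) n) n) n
/-- Third power. -/
def cube (n : ℕ) : ℕ := cmul (cmul n n) n
/-- Conjugate `g a g⁻¹`. -/
def cconj (g a : ℕ) : ℕ := cmul (cmul g a) (cinv g)

/-- The matrix of a code. -/
def mat (n : ℕ) : Matrix (Fin 2) (Fin 2) (ZMod 11) :=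
  !![(d0 n : ZMod 11), (d1 n : ZMod 11); (d2 n : ZMod 11), (d3 n : ZMod 11)]

theorem d0_mk4 {a b c d : ℕ} (ha : a < 11) (_hb : b < 11) (_hc : c < 11) (_hd : d < 11) :
    d0 (mk4 a b c d) = a := by unfold d0 mk4; omega
theorem d1_mk4 {a b c d : ℕ} (ha : a < 11) (hb : b < 11) (_hc : c < 11) (_hd : d < 11) :
    d1 (mk4 a b c d) = b := by unfold d1 mk4; omega
theorem d2_mk4 {a b c d : ℕ} (ha : a < 11) (hb : b < 11) (hc : c < 11) (_hd : d < 11) :
    d2 (mk4 a b c d) = c := by unfold d2 mk4; omega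
theorem d3_mk4 {a b c d : ℕ} (ha : a < 11) (hb : b < 11) (hc : c < 11) (hd : d < 11) :
    d3 (mk4 a b c d) = d := by unfold d3 mk4; omega
theorem mk4_lt {a b c d : ℕ} (ha : a < 11) (hb : b < 11) (hc : c < 11) (hd : d < 11) :
    mk4 a b c d < 14641 := by unfold mk4; omega
theorem mk4_digits {n : ℕ} (h : n < 14641) : mk4 (d0 n) (d1 n) (d2 n) (d3 n) = n := by
  unfold mk4 d0 d1 d2 d3; omega

theorem m11 (x : ℕ) : x % 11 < 11 := Nat.mod_lt _ (by norm_num)

theorem mat_mk4 {a b c d : ℕ} (ha : a < 11) (hb : b < 11) (hc : c < 11) (hd : d < 11) :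
    mat (mk4 a b c d) = !![(a : ZMod 11), (b : ZMod 11); (c : ZMod 11), (d : ZMod 11)] := by
  unfold mat
  rw [d0_mk4 ha hb hc hd, d1_mk4 ha hb hc hd, d2_mk4 ha hb hc hd, d3_mk4 ha hb hc hd]

theorem ten_eq : (10 : ZMod 11) = -1 := by decide

theorem mat_cmul (m n : ℕ) : mat (cmul m n) = mat m * mat n := by
  unfold cmul
  rw [mat_mk4 (m11 _) (m11 _) (m11 _) (m11 _)]
  unfold mat
  rw [Matrix.mul_fin_two]
  simp only [ZMod.natCast_mod, Nat.cast_add, Nat.cast_mul]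

theorem mat_cneg (n : ℕ) : mat (cneg n) = - mat n := by
  unfold cneg
  rw [mat_mk4 (m11 _) (m11 _) (m11 _) (m11 _)]
  unfold mat
  ext i j
  fin_cases i <;> fin_cases j <;>
    simp [ZMod.natCast_mod, ten_eq]

theorem mat_cinv (n : ℕ) : mat (cinv n) = (mat n).adjugate := by
  unfold cinv
  rw [mat_mk4 (m11 _) (m11 _) (m11 _) (m11 _)]
  unfold mat
  rw [Matrix.adjugate_fin_two_of]
  ext i j
  fin_cases i <;> fin_cases j <;>
    simp [ZMod.natCast_mod, ten_eq]

theorem cmul_lt (m n : ℕ) : cmul m n < 14641 := mk4_lt (m11 _) (m11 _) (m11 _) (m11 _)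
theorem cneg_lt (n : ℕ) : cneg n < 14641 := mk4_lt (m11 _) (m11 _) (m11 _) (m11 _)
theorem cinv_lt (n : ℕ) : cinv n < 14641 := mk4_lt (m11 _) (m11 _) (m11 _) (m11 _)

/-- The code of a matrix. -/
def code (A : Matrix (Fin 2) (Fin 2) (ZMod 11)) : ℕ :=
  mk4 (A 0 0).val (A 0 1).val (A 1 0).val (A 1 1).val

theorem code_lt (A : Matrix (Fin 2) (Fin 2) (ZMod 11)) : code A < 14641 :=
  mk4_lt (ZMod.val_lt _) (ZMod.val_lt _) (ZMod.val_lt _) (ZMod.val_lt _)

theorem mat_code (A : Matrix (Fin 2) (Fin 2) (ZMod 11)) : mat (code A) = A := by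
  unfold code
  rw [mat_mk4 (ZMod.val_lt _) (ZMod.val_lt _) (ZMod.val_lt _) (ZMod.val_lt _)]
  ext i j
  fin_cases i <;> fin_cases j <;> simp

theorem code_mat {n : ℕ} (h : n < 14641) : code (mat n) = n := by
  have e : ∀ x : ℕ, ((x % 11 : ℕ) : ZMod 11).val = x % 11 := fun x => by
    rw [ZMod.val_natCast]; exact Nat.mod_eq_of_lt (m11 _)
  have h0 : ((d0 n : ℕ) : ZMod 11).val = d0 n := e _
  have h1 : ((d1 n : ℕ) : ZMod 11).val = d1 n := e _
  have h2 : ((d2 n : ℕ) : ZMod 11).val = d2 n := e _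
  have h3 : ((d3 n : ℕ) : ZMod 11).val = d3 n := e _
  have : code (mat n) = mk4 (d0 n) (d1 n) (d2 n) (d3 n) := by
    unfold code mat
    simp [h0, h1, h2, h3]
  rw [this, mk4_digits h]

theorem mat_inj {m n : ℕ} (hm : m < 14641) (hn : n < 14641) (h : mat m = mat n) : m = n := by
  rw [← code_mat hm, ← code_mat hn, h]

/-- The code is below `11 ^ 4` and has determinant `1`. -/
def Valid (n : ℕ) : Prop := (mat n).det = 1 ∧ n < 14641

theorem valid_iff (n : ℕ) : valid n = true ↔ Valid n := by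
  unfold valid Valid
  rw [Bool.and_eq_true, Nat.beq_eq, Nat.blt_eq]
  have key : ((d0 n * d3 n + 10 * (d1 n * d2 n) : ℕ) : ZMod 11) = (mat n).det := by
    unfold mat
    rw [Matrix.det_fin_two_of]
    push_cast
    rw [ten_eq]
    ring
  have h1 : ∀ x : ℕ, ((x : ℕ) : ZMod 11) = 1 ↔ x % 11 = 1 := fun x => by
    have := ZMod.natCast_eq_natCast_iff' x 1 11
    simpa using this
  rw [← key, h1]

theorem Valid.cmul {m n : ℕ} (hm : Valid m) (hn : Valid n) : Valid (cmul m n) :=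
  ⟨by rw [mat_cmul, Matrix.det_mul, hm.1, hn.1, one_mul], cmul_lt m n⟩

theorem Valid.cneg {n : ℕ} (hn : Valid n) : Valid (cneg n) :=
  ⟨by rw [mat_cneg, Matrix.det_neg, hn.1]; simp, cneg_lt n⟩

theorem Valid.cinv {n : ℕ} (hn : Valid n) : Valid (cinv n) :=
  ⟨by rw [mat_cinv, Matrix.det_adjugate, hn.1]; simp, cinv_lt n⟩

/-- The element of `SL(2, 11)` with a given code. -/
noncomputable def dec (n : ℕ) : S11 := if h : (mat n).det = 1 then ⟨mat n, h⟩ else 1

theorem dec_val {n : ℕ} (h : Valid n) : (dec n : Matrix (Fin 2) (Fin 2) (ZMod 11)) = mat n := by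
  have e : dec n = ⟨mat n, h.1⟩ := by unfold dec; exact dif_pos h.1
  rw [e]

theorem dec_cmul {m n : ℕ} (hm : Valid m) (hn : Valid n) : dec (cmul m n) = dec m * dec n :=
  Subtype.ext (by
    rw [dec_val (hm.cmul hn), Matrix.SpecialLinearGroup.coe_mul, dec_val hm, dec_val hn, mat_cmul])

theorem dec_cinv {n : ℕ} (hn : Valid n) : dec (cinv n) = (dec n)⁻¹ :=
  Subtype.ext (by
    rw [dec_val hn.cinv, Matrix.SpecialLinearGroup.coe_inv, dec_val hn, mat_cinv])

theorem dec_code (A : S11) : dec (code (A : Matrix (Fin 2) (Fin 2) (ZMod 11))) = A := by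
  have hv : Valid (code (A : Matrix (Fin 2) (Fin 2) (ZMod 11))) :=
    ⟨by rw [mat_code]; exact A.2, code_lt _⟩
  exact Subtype.ext (by rw [dec_val hv, mat_code])

theorem valid_one : Valid 1332 := (valid_iff _).1 (by decide)

theorem mat_one : mat 1332 = 1 := by
  unfold mat d0 d1 d2 d3
  ext i j
  fin_cases i <;> fin_cases j <;> simp

theorem dec_one : dec 1332 = 1 := Subtype.ext (by rw [dec_val valid_one, mat_one]; rfl)

section Quot

variable {G : Type*} [Group G] (φ : S11 →* G)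

/-- `φ` is onto with kernel `{1, -1}`. -/
structure Hyp : Prop where
  surj : Function.Surjective φ
  ker : ∀ A : S11, φ A = 1 ↔ (A : Matrix (Fin 2) (Fin 2) (ZMod 11)) = 1 ∨
    (A : Matrix (Fin 2) (Fin 2) (ZMod 11)) = -1

/-- The element of `G` with a given code. -/
noncomputable def psi (n : ℕ) : G := φ (dec n)

variable {φ}

theorem psi_mul {m n : ℕ} (hm : Valid m) (hn : Valid n) :
    psi φ (cmul m n) = psi φ m * psi φ n := by
  unfold psi; rw [dec_cmul hm hn, map_mul]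

theorem psi_cinv {n : ℕ} (hn : Valid n) : psi φ (cinv n) = (psi φ n)⁻¹ := by
  unfold psi; rw [dec_cinv hn, map_inv]

theorem psi_one : psi φ 1332 = 1 := by unfold psi; rw [dec_one, map_one]

theorem phi_eq_iff (h : Hyp φ) (A B : S11) : φ A = φ B ↔
    (B : Matrix (Fin 2) (Fin 2) (ZMod 11)) = A ∨ (B : Matrix (Fin 2) (Fin 2) (ZMod 11)) = -A := by
  have h1 : φ A = φ B ↔ φ (A⁻¹ * B) = 1 := by
    rw [map_mul, map_inv, inv_mul_eq_one]
  rw [h1, h.ker, Matrix.SpecialLinearGroup.coe_mul]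
  have hA : (A : Matrix (Fin 2) (Fin 2) (ZMod 11)) * (A⁻¹ : S11) = 1 := by
    rw [← Matrix.SpecialLinearGroup.coe_mul, mul_inv_cancel]; rfl
  have hA' : ((A⁻¹ : S11) : Matrix (Fin 2) (Fin 2) (ZMod 11)) * A = 1 := by
    rw [← Matrix.SpecialLinearGroup.coe_mul, inv_mul_cancel]; rfl
  constructor
  · rintro (e | e)
    · left
      calc (B : Matrix (Fin 2) (Fin 2) (ZMod 11))
          = (A : Matrix (Fin 2) (Fin 2) (ZMod 11)) * ((A⁻¹ : S11) * B) := by
            rw [← Matrix.mul_assoc, hA, Matrix.one_mul]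
        _ = A := by rw [e, Matrix.mul_one]
    · right
      calc (B : Matrix (Fin 2) (Fin 2) (ZMod 11))
          = (A : Matrix (Fin 2) (Fin 2) (ZMod 11)) * ((A⁻¹ : S11) * B) := by
            rw [← Matrix.mul_assoc, hA, Matrix.one_mul]
        _ = -A := by rw [e, Matrix.mul_neg, Matrix.mul_one]
  · rintro (e | e)
    · left; rw [e, hA']
    · right; rw [e, Matrix.mul_neg, hA']

theorem psi_eq_iff (h : Hyp φ) {m n : ℕ} (hm : Valid m) (hn : Valid n) :
    psi φ m = psi φ n ↔ n = m ∨ n = cneg m := by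
  unfold psi
  rw [phi_eq_iff h, dec_val hm, dec_val hn, ← mat_cneg]
  constructor
  · rintro (e | e)
    · exact Or.inl (mat_inj hn.2 hm.2 e)
    · exact Or.inr (mat_inj hn.2 (cneg_lt m) e)
  · rintro (e | e)
    · exact Or.inl (by rw [e])
    · exact Or.inr (by rw [e])

theorem psi_cneg (h : Hyp φ) {n : ℕ} (hn : Valid n) : psi φ (cneg n) = psi φ n :=
  ((psi_eq_iff h hn hn.cneg).2 (Or.inr rfl)).symm

theorem eqpm_iff (h : Hyp φ) {c n : ℕ} (hc : Valid c) (hn : Valid n) :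
    eqpm c n = true ↔ psi φ n = psi φ c := by
  have h1 : psi φ n = psi φ c ↔ psi φ c = psi φ n := eq_comm
  rw [h1, psi_eq_iff h hc hn]
  unfold eqpm
  rw [Bool.or_eq_true, Nat.beq_eq, Nat.beq_eq]

theorem isPM1_iff (h : Hyp φ) {n : ℕ} (hn : Valid n) : isPM1 n = true ↔ psi φ n = 1 := by
  rw [← psi_one (φ := φ), ← eqpm_iff h valid_one hn]
  rfl

theorem psi_surj (h : Hyp φ) (g : G) : ∃ n, Valid n ∧ psi φ n = g := by
  obtain ⟨A, rfl⟩ := h.surj g
  exact ⟨code (A : Matrix (Fin 2) (Fin 2) (ZMod 11)),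
    ⟨by rw [mat_code]; exact A.2, code_lt _⟩, by unfold psi; rw [dec_code]⟩

theorem psi_pow5 {n : ℕ} (hn : Valid n) : psi φ (pow5 n) = psi φ n ^ 5 := by
  unfold pow5
  rw [psi_mul (((hn.cmul hn).cmul hn).cmul hn) hn, psi_mul ((hn.cmul hn).cmul hn) hn,
    psi_mul (hn.cmul hn) hn, psi_mul hn hn]
  simp [pow_succ]

theorem psi_cube {n : ℕ} (hn : Valid n) : psi φ (cube n) = psi φ n * psi φ n * psi φ n := by
  unfold cube
  rw [psi_mul (hn.cmul hn) hn, psi_mul hn hn]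

theorem psi_cconj {g a : ℕ} (hg : Valid g) (ha : Valid a) :
    psi φ (cconj g a) = psi φ g * psi φ a * (psi φ g)⁻¹ := by
  unfold cconj
  rw [psi_mul (hg.cmul ha) hg.cinv, psi_mul hg ha, psi_cinv hg]

theorem Valid.pow5 {n : ℕ} (hn : Valid n) : Valid (pow5 n) :=
  (((hn.cmul hn).cmul hn).cmul hn).cmul hn

theorem Valid.cube {n : ℕ} (hn : Valid n) : Valid (cube n) := (hn.cmul hn).cmul hn

theorem Valid.cconj {g a : ℕ} (hg : Valid g) (ha : Valid a) : Valid (cconj g a) :=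
  (hg.cmul ha).cmul hg.cinv

theorem memL_iff (h : Hyp φ) {l : List ℕ} (hl : ∀ n ∈ l, Valid n) {c : ℕ} (hc : Valid c) :
    memL l c = true ↔ ∃ n ∈ l, psi φ n = psi φ c := by
  unfold memL
  rw [List.any_eq_true]
  constructor
  · rintro ⟨n, hn, e⟩
    exact ⟨n, hn, (eqpm_iff h hc (hl n hn)).1 e⟩
  · rintro ⟨n, hn, e⟩
    exact ⟨n, hn, (eqpm_iff h hc (hl n hn)).2 e⟩

end Quot

end Cfsg.Agent.Lib.Helper36.A5L11
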