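import Mathlib
import Cfsg.Agent.Lib.Helper5.BQ0
import Cfsg.Agent.Lib.Helper83.Ortho

/-! S0996 (Brauer–Reynolds, Theorem 1) piece BQ-T0: the degree equation and `x₀² < |G|`. -/

set_option autoImplicit false

namespace Cfsg.Agent.Lib.Helper5.BQ

open Cfsg
open Cfsg.Agent.Lib.Helper83 (trivIrr)
open Cfsg.Agent.Lib.Helper10.BR (psum)
open scoped ComplexConjugate

section T

variable {G : Type*} [Group G] [Fintype G] {p e t n : ℕ} {P : Subgroup G} {ε : ℤ} {x₀ : ℕ}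
  {A B Y D : Finset (IrrCharacter G)}

/-- BQ-T0 -/
theorem gDE (h : GTab G p e t n P ε x₀ A B Y D) :
    ε * (x₀ : ℤ) =
      1 + (A.card : ℤ) * ((1 + n * p : ℕ) : ℤ) - (B.card : ℤ) * ((p - 1 : ℕ) : ℤ) ∧
    x₀ * x₀ < (1 + n * p) * (e * p) := by
  classical
  have : Finite (IrrCharacter G) := Cfsg.Agent.Lib.Helper83.irr_finite
  letI : Fintype (IrrCharacter G) := Fintype.ofFinite _
  have hYne : Y.Nonempty := by
    rw [← Finset.card_pos, h.cardY]
    have h1 := h.het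
    have h2 := h.hp5
    rcases Nat.eq_zero_or_pos t with h0 | h0
    · rw [h0, mul_zero] at h1
      omega
    · exact h0
  obtain ⟨θ, hθ⟩ := hYne
  have hp1 : ¬ p ∣ orderOf (1 : G) := by
    rw [orderOf_one]
    exact h.hp.one_lt.ne' ∘ Nat.dvd_one.mp
  have hDE := h.t1 θ hθ 1 hp1
  rw [h.degY θ hθ, Finset.sum_congr rfl (fun ψ hψ => h.degA ψ hψ),
    Finset.sum_congr rfl (fun ψ hψ => h.degB ψ hψ), Finset.sum_const, Finset.sum_const,
    nsmul_eq_mul, nsmul_eq_mul] at hDE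
  refine ⟨by exact_mod_cast hDE, ?_⟩
  -- `x₀² + 1 ≤ Σ ψ(1)² = |G|`
  have hsum := Cfsg.Agent.Lib.Helper83.sum_degree_sq (G := G)
  have hdeg : ∀ ψ : IrrCharacter G, ((ψ : G → ℂ) 1) ^ 2 =
      ((charDegree (ψ : G → ℂ) ^ 2 : ℕ) : ℂ) := by
    intro ψ
    rw [(Cfsg.Agent.Lib.Helper83.irr_degree ψ.2).2]
    push_cast
    rw [← (Cfsg.Agent.Lib.Helper83.irr_degree ψ.2).2]
  rw [Finset.sum_congr rfl (fun ψ _ => hdeg ψ), ← Nat.cast_sum] at hsum
  have hsumN : ∑ ψ : IrrCharacter G, charDegree (ψ : G → ℂ) ^ 2 = Nat.card G := by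
    exact_mod_cast hsum
  have hθtriv : θ ≠ trivIrr G := by
    intro hcon
    rw [hcon] at hθ
    exact h.triv_nmem.2.2.1 hθ
  have hdθ : charDegree (θ : G → ℂ) = x₀ := by
    have h1 := (Cfsg.Agent.Lib.Helper83.irr_degree θ.2).2
    rw [h.degY θ hθ] at h1
    exact_mod_cast h1.symm
  have hdtriv : charDegree (trivIrr G : G → ℂ) = 1 := by
    have h1 := (Cfsg.Agent.Lib.Helper83.irr_degree (trivIrr G).2).2
    rw [Cfsg.Agent.Lib.Helper83.trivIrr_apply] at h1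
    exact_mod_cast h1.symm
  have hle : ∑ ψ ∈ ({θ, trivIrr G} : Finset (IrrCharacter G)), charDegree (ψ : G → ℂ) ^ 2 ≤
      ∑ ψ : IrrCharacter G, charDegree (ψ : G → ℂ) ^ 2 :=
    Finset.sum_le_sum_of_subset (Finset.subset_univ _)
  rw [Finset.sum_pair hθtriv, hdθ, hdtriv, hsumN, h.cardG] at hle
  nlinarith [hle]

end T

end Cfsg.Agent.Lib.Helper5.BQ
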