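import Cfsg.Agent.Lib.Helper27.ChevDyn
import Cfsg.Agent.Lib.Helper24.ChevSL2
import Cfsg.Agent.Lib.Helper24.ChevTorus
import Cfsg.Agent.Lib.Helper24.ChevBorel
import Cfsg.Agent.Lib.Helper24.Simple

/-!
# Common facts for the pieces PE and PF of the Chevalley root datum (`ChevDyn`)
-/

set_option autoImplicit false

namespace Cfsg.Agent.Lib.Helper36.ChevDynP

open Cfsg.Lie Cfsg.Agent.Lib.Helper27.PslnOut Cfsg.Agent.Lib.Helper27.DynOut
  Cfsg.Agent.Lib.Helper27.ChevDyn
open Cfsg.Agent.Lib.Helper24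

variable {F : Type*} [Field F] (D : ChevalleyDatum)

/-- the matrix of the root element `xg D r a` -/
theorem xgv (hD : D ∈ lst) (r : ℕ) (a : F) :
    ((xg D r a : GL D.Idx F) : Matrix D.Idx D.Idx F) = D.x F r a := by
  have hD' : D ∈ chevList := hD
  have hex : ∃ g : ↥(D.group F), ((g : GL D.Idx F) : Matrix D.Idx D.Idx F) = D.x F r a :=
    ⟨⟨xGL D hD' r a, xGL_mem_group D hD' r a⟩, xGL_val D hD' r a⟩
  unfold xg
  rw [dif_pos hex]
  exact hex.choose_spec

/-- sign and range facts for the simple roots (a finite check per datum) -/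
theorem simple_facts (hD : D ∈ lst) (i : Fin D.rank) :
    D.IsPosRoot (D.simple i) ∧ D.IsNegRoot (D.neg (D.simple i)) ∧
      D.neg (D.simple i) < D.nroots ∧ D.neg (D.simple i) ≠ D.simple i := by
  simp only [lst, List.mem_cons, List.not_mem_nil, or_false] at hD
  rcases hD with rfl | rfl | rfl | rfl | rfl | rfl | rfl <;> revert i <;> decide +kernel

theorem simple_lt' (hD : D ∈ lst) (i : Fin D.rank) : D.simple i < D.nroots :=
  (simple_facts D hD i).1.1

/-- a root element `x_r(c)` of a simple root is trivial only for `c = 0` -/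
theorem eq_zero_of_xs_eq_one (hD : D ∈ lst) (i : Fin D.rank) (c : F)
    (h : D.x F (D.simple i) c = 1) : c = 0 := by
  obtain ⟨-, -, hn, hne⟩ := simple_facts D hD i
  have hr := simple_lt' D hD i
  have e := congrFun (congrArg (fun A : Matrix D.Idx D.Idx F => A.mulVec (rv F D (D.neg (D.simple i)))) h)
    (Sum.inr ⟨D.simple i, hr⟩)
  beta_reduce at e
  rw [x_mulVec_rv_neg D (D.simple i) hr c hn hne, Matrix.one_mulVec] at e
  have e1 : rv F D (D.neg (D.simple i)) (Sum.inr ⟨D.simple i, hr⟩) = 0 := by simp [Cfsg.Agent.Lib.Helper24.rv, hne.symm]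
  have e2 : rv F D (D.simple i) (Sum.inr ⟨D.simple i, hr⟩) = 1 := by simp [Cfsg.Agent.Lib.Helper24.rv]
  simp only [Pi.sub_apply, Pi.add_apply, Pi.smul_apply, sum_range_hv, smul_eq_mul, e1, e2] at e
  simpa using e

/-- the matrix of `nn i c` is `n_{p_i}(c)` -/
theorem nn_val (hD : D ∈ lst) (i : Fin D.rank) (c : F) :
    (((nn (xs D) (ys D) i c : ↥(D.group F)) : GL D.Idx F) : Matrix D.Idx D.Idx F)
      = D.nMat F (D.simple i) c := by
  unfold nn xs ys
  rw [Subgroup.coe_mul, Subgroup.coe_mul, Units.val_mul, Units.val_mul, xgv D hD, xgv D hD,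
    nMat_eq, Matrix.mul_assoc]

/-- `n_r(c) = h_r(c) n_r(1)` -/
theorem nMat_eq_hMat_mul36 (hD : D ∈ lst) (r : ℕ) (hr : r < D.nroots) (c : F) :
    D.nMat F r c = D.hMat F r c * D.nMat F r 1 := by
  have hD' : D ∈ chevList := hD
  rw [hMat_eq_nMat_mul, Matrix.mul_assoc, nMat_neg_one_mul_nMat_one D hD' r hr, Matrix.mul_one]

/-- the upper unitriangular element of `SL₂` -/
def sX (t : F) : Matrix.SpecialLinearGroup (Fin 2) F :=
  ⟨!![1, t; 0, 1], by simp [Matrix.det_fin_two]⟩

/-- the lower unitriangular element of `SL₂` -/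
def sY (t : F) : Matrix.SpecialLinearGroup (Fin 2) F :=
  ⟨!![1, 0; t, 1], by simp [Matrix.det_fin_two]⟩

/-- the rank one homomorphism attached to the simple root `p_i` -/
theorem exists_phi (hD : D ∈ lst) (i : Fin D.rank) :
    ∃ φ : Matrix.SpecialLinearGroup (Fin 2) F →* GL D.Idx F,
      (∀ t : F, ((xs D i t : ↥(D.group F)) : GL D.Idx F) = φ (sX t)) ∧
      (∀ t : F, ((ys D i t : ↥(D.group F)) : GL D.Idx F) = φ (sY t)) := by
  have hD' : D ∈ chevList := hD
  obtain ⟨φ, -, hφ⟩ := exists_sl2_hom (F := F) D hD' (D.simple i) (simple_lt' D hD i)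
  refine ⟨φ, fun t => Units.ext ?_, fun t => Units.ext ?_⟩
  · rw [(hφ (sX t) t).1 rfl]; exact xgv D hD _ t
  · rw [(hφ (sY t) t).2 rfl]; exact xgv D hD _ t

end Cfsg.Agent.Lib.Helper36.ChevDynP
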