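import Mathlib

/-!
# Pieces DIHZ and QDC of project HAR (S1235, helper78)
-/

set_option autoImplicit false

namespace Cfsg.Agent.Lib.Helper36.Har

/-- The centre of a dihedral group `DihedralGroup m`, `m ≥ 3`, is contained in `{1, z}` for an
involution `z`. -/
theorem dihedral_center_aux (m : ℕ) (hm : 3 ≤ m) :
    ∃ z : DihedralGroup m, z ≠ 1 ∧ z ^ 2 = 1 ∧
      ∀ c : DihedralGroup m, (∀ d : DihedralGroup m, c * d = d * c) → c = 1 ∨ c = z := by
  haveI : NeZero m := ⟨by omega⟩
  have h2ne : (2 : ZMod m) ≠ 0 := by
    intro h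
    have h' : ((2 : ℕ) : ZMod m) = 0 := by exact_mod_cast h
    rw [ZMod.natCast_eq_zero_iff] at h'
    have := Nat.le_of_dvd (by norm_num) h'
    omega
  -- no reflection is central
  have hsr : ∀ i : ZMod m,
      ¬ (∀ d : DihedralGroup m, DihedralGroup.sr i * d = d * DihedralGroup.sr i) := by
    intro i h
    have h1 := h (DihedralGroup.r 1)
    rw [DihedralGroup.sr_mul_r, DihedralGroup.r_mul_sr] at h1
    have h3 : i + 1 = i - 1 := DihedralGroup.sr.inj h1
    apply h2ne
    have h4 : (2 : ZMod m) = (i + 1) - (i - 1) := by ring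
    rw [h4, h3, sub_self]
  -- central rotations
  have hr : ∀ i : ZMod m,
      (∀ d : DihedralGroup m, DihedralGroup.r i * d = d * DihedralGroup.r i) →
        m ∣ 2 * i.val := by
    intro i h
    have h1 := h (DihedralGroup.sr 0)
    rw [DihedralGroup.r_mul_sr, DihedralGroup.sr_mul_r] at h1
    have h3 : 0 - i = 0 + i := DihedralGroup.sr.inj h1
    have h4 : 2 * i = (0 + i) - (0 - i) := by ring
    have h5 : 2 * i = 0 := by rw [h4, h3, sub_self]
    have hv : ((2 * i.val : ℕ) : ZMod m) = 0 := by
      push_cast; rw [ZMod.natCast_zmod_val]; exact h5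
    exact (ZMod.natCast_eq_zero_iff _ _).mp hv
  rcases Nat.even_or_odd' m with ⟨k, hk | hk⟩
  · -- `m = 2 * k`
    refine ⟨DihedralGroup.r (k : ZMod m), ?_, ?_, ?_⟩
    · intro h
      rw [DihedralGroup.one_def] at h
      have h0 : (k : ZMod m) = 0 := DihedralGroup.r.inj h
      rw [ZMod.natCast_eq_zero_iff] at h0
      have := Nat.le_of_dvd (by omega) h0
      omega
    · rw [pow_two, DihedralGroup.r_mul_r, DihedralGroup.one_def]
      congr 1
      have h0 : ((k + k : ℕ) : ZMod m) = 0 := by
        rw [ZMod.natCast_eq_zero_iff]; exact ⟨1, by omega⟩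
      exact_mod_cast h0
    · intro c hc
      cases c with
      | r i =>
        obtain ⟨t, ht⟩ := hr i hc
        have hlt := ZMod.val_lt i
        have ht01 : t = 0 ∨ t = 1 := by
          rcases t with _ | _ | t
          · left; rfl
          · right; rfl
          · exfalso; nlinarith
        rcases ht01 with rfl | rfl
        · left
          have h0 : i.val = 0 := by omega
          rw [DihedralGroup.one_def]; congr 1
          exact (ZMod.val_eq_zero i).mp h0
        · right
          have h0 : i.val = k := by omega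
          congr 1
          rw [← h0, ZMod.natCast_zmod_val]
      | sr i => exact absurd hc (hsr i)
  · -- `m = 2 * k + 1`
    refine ⟨DihedralGroup.sr 0, ?_, ?_, ?_⟩
    · rw [DihedralGroup.one_def]
      intro h
      cases h
    · rw [pow_two, DihedralGroup.sr_mul_sr, sub_self, DihedralGroup.one_def]
    · intro c hc
      cases c with
      | r i =>
        left
        have hdvd := hr i hc
        have hlt := ZMod.val_lt i
        have hcop : Nat.Coprime m 2 := by
          rw [Nat.coprime_comm, Nat.coprime_two_left]
          exact ⟨k, hk⟩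
        have hdvd' : m ∣ i.val := hcop.dvd_of_dvd_mul_left hdvd
        have h0 : i.val = 0 := Nat.eq_zero_of_dvd_of_lt hdvd' hlt
        rw [DihedralGroup.one_def]; congr 1
        exact (ZMod.val_eq_zero i).mp h0
      | sr i => exact absurd hc (hsr i)

/-- PIECE DIHZ. -/
theorem dihedral_center {D : Type*} [Group D] (m : ℕ) (hm : 3 ≤ m) (e : D ≃* DihedralGroup m)
    (h2 : IsPGroup 2 D) :
    ∃ z : D, z ≠ 1 ∧ z ^ 2 = 1 ∧ ∀ c : D, (∀ d : D, c * d = d * c) → c = 1 ∨ c = z := by
  obtain ⟨z, hz1, hz2, hz⟩ := dihedral_center_aux m hm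
  refine ⟨e.symm z, ?_, ?_, ?_⟩
  · intro h
    apply hz1
    have := congrArg e h
    simpa using this
  · rw [← map_pow, hz2, map_one]
  · intro c hc
    have hc' : ∀ d : DihedralGroup m, e c * d = d * e c := by
      intro d
      have := congrArg e (hc (e.symm d))
      simpa using this
    rcases hz (e c) hc' with h | h
    · left
      have := congrArg e.symm h
      simpa using this
    · right
      have := congrArg e.symm h
      simpa using this

end Cfsg.Agent.Lib.Helper36.Har
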