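import Mathlib
import Cfsg.Agent.Lib.Helper78.HarDefs

/-!
# Piece INV of project HAR (S1235, helper78): subgroups of exponent two of `N` lie in `T` or `T'`.
-/

set_option autoImplicit false

namespace Cfsg.Agent.Lib.Helper36.Har

open Cfsg.Agent.Lib.Helper78.Har

theorem elem_le_or_le {X : Type*} [Group X] [Finite X] (T T' N : Subgroup X) (g : X)
    (hc : Conf X T T' N g) (E : Subgroup X) (hEN : E ≤ N) (hE2 : ∀ e ∈ E, e ^ 2 = 1) :
    E ≤ T ∨ E ≤ T' := by
  obtain ⟨_hN, _hN', _hg, _hT', _hTN, hT'N, _hN64, _hT16, _hT'16, hT2, hT'2, _hcap, hprod, hfix,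
    _hfix', _hcT, _hcT'⟩ := hc
  have key : ∀ e ∈ E, e ∈ T ∨ e ∈ T' := by
    intro e he
    obtain ⟨t, ht, t', ht', rfl⟩ := hprod e (hEN he)
    by_cases h : t' ∈ T
    · left; exact T.mul_mem ht h
    · right
      have h1 : (t * t') ^ 2 = 1 := hE2 _ he
      have h2 : t ^ 2 = 1 := hT2 t ht
      have h3 : t' ^ 2 = 1 := hT'2 t' ht'
      have hcomm : t * t' = t' * t := by
        have hti : t⁻¹ = t := by rw [inv_eq_iff_mul_eq_one, ← pow_two]; exact h2
        have ht'i : t'⁻¹ = t' := by rw [inv_eq_iff_mul_eq_one, ← pow_two]; exact h3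
        have h4 : t * t' = (t * t')⁻¹ := by
          rw [eq_comm, inv_eq_iff_mul_eq_one, ← pow_two]; exact h1
        rw [h4, mul_inv_rev, hti, ht'i]
      have hmem : t ∈ T ⊓ Subgroup.centralizer ({t'} : Set X) := by
        refine Subgroup.mem_inf.mpr ⟨ht, ?_⟩
        rw [Subgroup.mem_centralizer_iff]
        intro x hx
        rw [Set.mem_singleton_iff] at hx
        subst hx
        exact hcomm.symm
      rw [hfix t' (hT'N ht') h] at hmem
      exact T'.mul_mem (Subgroup.mem_inf.mp hmem).2 ht'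
  by_contra hcon
  rw [not_or] at hcon
  obtain ⟨h1, h2⟩ := hcon
  obtain ⟨e1, he1, he1T⟩ := SetLike.not_le_iff_exists.mp h1
  obtain ⟨e2, he2, he2T'⟩ := SetLike.not_le_iff_exists.mp h2
  have he1T' : e1 ∈ T' := (key e1 he1).resolve_left he1T
  have he2T : e2 ∈ T := (key e2 he2).resolve_right he2T'
  rcases key (e1 * e2) (E.mul_mem he1 he2) with h | h
  · exact he1T ((Subgroup.mul_mem_cancel_right T he2T).mp h)
  · exact he2T' ((Subgroup.mul_mem_cancel_left T' he1T').mp h)

end Cfsg.Agent.Lib.Helper36.Har
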