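import Mathlib
import Cfsg.Prelude.Def_CaseTheorems

/-!
# Piece QDC of project HAR (S1235, helper78)
-/

set_option autoImplicit false

namespace Cfsg.Agent.Lib.Helper36.Har

/-- PIECE QDC: a quasidihedral group has a normal cyclic subgroup of index two. -/
theorem quasidihedral_cyclic {D : Type*} [Group D] (hD : Cfsg.IsQuasiDihedral D) :
    ∃ C : Subgroup D, C.Normal ∧ IsCyclic C ∧ Nat.card D = 2 * Nat.card C := by
  obtain ⟨n, hn, hcard, x, y, hx, hy, hrel⟩ := hD
  have hfin : Finite D := Nat.finite_of_card_ne_zero (by rw [hcard]; positivity)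
  have hidx : (Subgroup.zpowers x).index = 2 := by
    have h := Subgroup.card_mul_index (Subgroup.zpowers x)
    rw [Nat.card_zpowers, hx, hcard, pow_succ] at h
    exact Nat.eq_of_mul_eq_mul_left (by positivity) h
  refine ⟨Subgroup.zpowers x, Subgroup.normal_of_index_eq_two hidx, inferInstance, ?_⟩
  rw [Nat.card_zpowers, hx, hcard, pow_succ, mul_comm]

end Cfsg.Agent.Lib.Helper36.Har
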