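import Mathlib
import Cfsg.Prelude.Def_CaseTheorems

/-!
# Piece QDZ of project HAR (S1235, helper78): the centre of a quasidihedral group
-/

set_option autoImplicit false

namespace Cfsg.Agent.Lib.Helper36.Har

/-- A quasidihedral group has an involution `z` such that the centre is contained in `{1, z}`. -/
theorem quasidihedral_center {D : Type*} [Group D] (hD : Cfsg.IsQuasiDihedral D) :
    ∃ z : D, z ≠ 1 ∧ z ^ 2 = 1 ∧ ∀ c : D, (∀ d : D, c * d = d * c) → c = 1 ∨ c = z := by
  obtain ⟨n, hn, hcard, x, y, hx, hy, hrel⟩ := hD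
  have hfin : Finite D := Nat.finite_of_card_ne_zero (by rw [hcard]; positivity)
  have h4 : 4 ≤ 2 ^ (n - 1) := by
    calc 4 = 2 ^ 2 := by norm_num
      _ ≤ 2 ^ (n - 1) := Nat.pow_le_pow_right (by norm_num) (by omega)
  have hpow : 2 ^ n = 2 * 2 ^ (n - 1) := by
    conv_lhs => rw [show n = (n - 1) + 1 by omega]
    rw [pow_succ]; ring
  have hpow2 : 2 ^ (n - 1) = 2 * 2 ^ (n - 2) := by
    conv_lhs => rw [show n - 1 = (n - 2) + 1 by omega]
    rw [pow_succ]; ring
  have hpow3 : 2 ^ (n - 2) = 2 * 2 ^ (n - 3) := by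
    conv_lhs => rw [show n - 2 = (n - 3) + 1 by omega]
    rw [pow_succ]; ring
  have h1' : 1 ≤ 2 ^ (n - 3) := Nat.one_le_two_pow
  -- `y` does not commute with `x`
  have hnc : y * x ≠ x * y := by
    intro hc
    have h1 : y * x * y⁻¹ = x := by rw [hc]; group
    rw [h1] at hrel
    have h3 : x ^ (2 ^ (n - 1) - 2) = 1 := by
      have hsplit : x ^ (2 ^ (n - 1) - 1) = x ^ (2 ^ (n - 1) - 2) * x := by
        rw [← pow_succ]; congr 1; omega
      rw [hsplit] at hrel
      have h0 : 1 * x = x ^ (2 ^ (n - 1) - 2) * x := by rw [one_mul]; exact hrel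
      exact (mul_right_cancel h0).symm
    have h5 := orderOf_dvd_of_pow_eq_one h3
    rw [hx] at h5
    have h6 := Nat.le_of_dvd (by omega) h5
    omega
  -- the cyclic subgroup generated by `x` has index two
  have hidx : (Subgroup.zpowers x).index = 2 := by
    have h := Subgroup.card_mul_index (Subgroup.zpowers x)
    rw [Nat.card_zpowers, hx, hcard, pow_succ] at h
    exact Nat.eq_of_mul_eq_mul_left (by positivity) h
  have hyx : y ∉ Subgroup.zpowers x := by
    intro hmem
    obtain ⟨k, rfl⟩ := Subgroup.mem_zpowers_iff.mp hmem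
    exact hnc ((Commute.refl x).zpow_left k).eq
  refine ⟨x ^ (2 ^ (n - 1)), ?_, ?_, ?_⟩
  · exact pow_ne_one_of_lt_orderOf (by positivity) (by rw [hx]; omega)
  · rw [← pow_mul, show 2 ^ (n - 1) * 2 = 2 ^ n by omega, ← hx]
    exact pow_orderOf_eq_one x
  · intro c hcen
    by_cases hc : c ∈ Subgroup.zpowers x
    · rw [← mem_powers_iff_mem_zpowers] at hc
      obtain ⟨i, hi⟩ := hc
      have hi' : x ^ i = c := hi
      subst hi'
      -- conjugating by `y`
      have hconj : y * x ^ i * y⁻¹ = x ^ ((2 ^ (n - 1) - 1) * i) := by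
        rw [← conj_pow, hrel, ← pow_mul]
      have hfix : y * x ^ i * y⁻¹ = x ^ i := by
        rw [← hcen y]; group
      rw [hfix] at hconj
      have hmod := (pow_eq_pow_iff_modEq).mp hconj
      rw [hx] at hmod
      have hle : i ≤ (2 ^ (n - 1) - 1) * i := Nat.le_mul_of_pos_left i (by omega)
      have hdvd := (Nat.modEq_iff_dvd' hle).mp hmod
      have heq : (2 ^ (n - 1) - 1) * i - i = 2 * ((2 ^ (n - 2) - 1) * i) := by
        have e1 : 2 ^ (n - 1) - 1 = 2 * (2 ^ (n - 2) - 1) + 1 := by omega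
        rw [e1, Nat.add_mul, one_mul, Nat.add_sub_cancel, mul_assoc]
      rw [heq, hpow] at hdvd
      have hdvd2 : 2 ^ (n - 1) ∣ (2 ^ (n - 2) - 1) * i :=
        Nat.dvd_of_mul_dvd_mul_left (by norm_num) hdvd
      have hodd : Odd (2 ^ (n - 2) - 1) := ⟨2 ^ (n - 3) - 1, by omega⟩
      have hcop : Nat.Coprime (2 ^ (n - 1)) (2 ^ (n - 2) - 1) :=
        Nat.Coprime.pow_left _ (Nat.coprime_two_left.mpr hodd)
      obtain ⟨j, hj⟩ := hcop.dvd_of_dvd_mul_left hdvd2
      subst hj
      have hz2 : (x ^ (2 ^ (n - 1))) ^ 2 = 1 := by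
        rw [← pow_mul, show 2 ^ (n - 1) * 2 = 2 ^ n by omega, ← hx]
        exact pow_orderOf_eq_one x
      rw [pow_mul]
      rcases Nat.even_or_odd' j with ⟨k, rfl | rfl⟩
      · left
        rw [pow_mul, hz2, one_pow]
      · right
        rw [pow_succ, pow_mul, hz2, one_pow, one_mul]
    · exfalso
      have hcy : c * y ∈ Subgroup.zpowers x :=
        (Subgroup.mul_mem_iff_of_index_two hidx).mpr (iff_of_false hc hyx)
      obtain ⟨k, hk⟩ := Subgroup.mem_zpowers_iff.mp hcy
      have hy_eq : y = c⁻¹ * x ^ k := by rw [hk]; group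
      have hcx : Commute c⁻¹ x := Commute.inv_left (hcen x)
      apply hnc
      rw [hy_eq, mul_assoc, ((Commute.refl x).zpow_left k).eq, ← mul_assoc, hcx.eq, mul_assoc]

end Cfsg.Agent.Lib.Helper36.Har
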