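import Mathlib
import Cfsg.Agent.Lib.Helper78.HarDefs

/-!
# Piece TRANS of project HAR (S1235, helper78): transport of `E16Hyp` to a subtype.
-/

set_option autoImplicit false

namespace Cfsg.Agent.Lib.Helper36.Har

open Cfsg.Agent.Lib.Helper78.Har

theorem e16Hyp_subtype {G : Type*} [Group G] [Finite G] (S T B : Subgroup G) (hTS : T ≤ S)
    (hT16 : Nat.card T = 16) (hT2 : ∀ t ∈ T, t ^ 2 = 1) (hBT : B ≤ T) (hB4 : Nat.card B = 4)
    (hcb : ∀ b ∈ B, b ≠ 1 → S ⊓ Subgroup.centralizer ({b} : Set G) ≤ T) :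
    E16Hyp ↥S (T.subgroupOf S) (B.subgroupOf S) := by
  refine ⟨?_, ?_, ?_, ?_, ?_⟩
  · rw [Nat.card_congr (Subgroup.subgroupOfEquivOfLe hTS).toEquiv]; exact hT16
  · intro t ht
    rw [Subgroup.mem_subgroupOf] at ht
    apply Subtype.ext
    simpa using hT2 _ ht
  · intro b hb
    rw [Subgroup.mem_subgroupOf] at hb ⊢
    exact hBT hb
  · rw [Nat.card_congr (Subgroup.subgroupOfEquivOfLe (hBT.trans hTS)).toEquiv]; exact hB4
  · intro b hb hb1 c hc
    rw [Subgroup.mem_subgroupOf] at hb ⊢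
    apply hcb (b : G) hb (by intro h; apply hb1; exact Subtype.ext h)
    refine Subgroup.mem_inf.mpr ⟨c.2, ?_⟩
    rw [Subgroup.mem_centralizer_iff] at hc ⊢
    intro x hx
    rw [Set.mem_singleton_iff] at hx
    subst hx
    have := hc b (Set.mem_singleton b)
    exact congrArg Subtype.val this

end Cfsg.Agent.Lib.Helper36.Har
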