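import Mathlib
import Cfsg.Agent.Lib.Helper72.JLDefs

/-! Project JL (helper72, S2942), piece KN. -/

set_option autoImplicit false

namespace Cfsg.Agent.Lib.Helper36.JL

open Cfsg.Agent.Lib.Helper72.JL Cfsg.Agent.Lib.Helper72.SC Cfsg.Agent.Lib.Helper78.Jc
open scoped commutatorElement

universe u

theorem kn (h1 : FfaStmt.{u}) (h2 : VabStmt.{u}) (h3 : BoStmt.{u}) : KnStmt.{u} := by
  intro X _ _ T hset N hN 𝒮 K h𝒮 hKJ hKgen
  have : Fact (Nat.Prime 2) := ⟨Nat.prime_two⟩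
  obtain ⟨_, hcomm, hsq, _, _⟩ := h2 X T hset
  have hcomm' : ∀ a b : ↥(VT T), a * b = b * a := fun a b =>
    Subtype.ext (hcomm a.1 a.2 b.1 b.2)
  have hsq' : ∀ v : ↥(VT T), v ^ 2 = 1 := fun v => Subtype.ext (by
    show (v.1) ^ 2 = 1
    rw [sq]; exact hsq v.1 v.2)
  obtain ⟨_, _, hnorm, _, _, _⟩ := h1 ↥(VT T) 2 (rhoT T).range hcomm' hsq'
  have hS : sSup 𝒮 ≤ ((Hs 2 (rhoT T).range).comap
      (SemidirectProduct.inr : MulAut ↥(VT T) →* Gam ↥(VT T))).comap (rhoT T) := by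
    apply sSup_le
    intro A hA a ha
    have hbo := h3 X T hset A (h𝒮 A hA)
    have hle : up (A.map (rhoT T)) ≤ up (rhoT T).range :=
      Subgroup.map_mono (Subgroup.map_le_range (rhoT T) A)
    have hle2 : up (A.map (rhoT T)) ≤ Hs 2 (rhoT T).range :=
      le_iSup (fun A : {A : Subgroup (Gam ↥(VT T)) // A ≤ up (rhoT T).range ∧
        Cfsg.IsBestOffenderOn 2 (Vs ↥(VT T)) A} => (A : Subgroup (Gam ↥(VT T))))
        ⟨up (A.map (rhoT T)), hle, hbo⟩
    rw [Subgroup.mem_comap, Subgroup.mem_comap]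
    exact hle2 (Subgroup.mem_map_of_mem _ (Subgroup.mem_map_of_mem _ ha))
  have hK : K ≤ ((Hs 2 (rhoT T).range).comap
      (SemidirectProduct.inr : MulAut ↥(VT T) →* Gam ↥(VT T))).comap (rhoT T) := by
    rw [← hKJ, Subgroup.commutator_le]
    intro k hk j hj
    have hj' := hS hj
    rw [Subgroup.mem_comap, Subgroup.mem_comap] at hj' ⊢
    have hkup : (SemidirectProduct.inr (rhoT T k) : Gam ↥(VT T)) ∈ up (rhoT T).range :=
      Subgroup.mem_map_of_mem _ ⟨k, rfl⟩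
    have hkn := hnorm hkup
    have h4 := (Subgroup.mem_normalizer_iff.mp hkn _).mp hj'
    have h5 := Subgroup.mul_mem _ h4 (Subgroup.inv_mem _ hj')
    rw [commutatorElement_def]
    simp only [map_mul, map_inv]
    exact h5
  rw [Subgroup.map_le_iff_le_comap, ← hKgen, Subgroup.closure_le]
  rintro g ⟨hgK, hodd⟩
  have hgH := hK hgK
  rw [Subgroup.mem_comap, Subgroup.mem_comap] at hgH
  have hyy := hN _ hgH
  obtain ⟨l, hl⟩ := hodd
  show rhoT T g ∈ N
  have hpow : (rhoT T g) ^ (2 * l + 1) = 1 := by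
    rw [← map_pow, ← hl, pow_orderOf_eq_one, map_one]
  have e : rhoT T g = (rhoT T g * rhoT T g) ^ (l + 1) := by
    have e1 : (rhoT T g * rhoT T g) ^ (l + 1) = (rhoT T g) ^ (2 * l + 1) * rhoT T g := by
      rw [← pow_two, ← pow_mul, ← pow_succ]
      congr 1
    rw [e1, hpow, one_mul]
  rw [e]
  exact Subgroup.pow_mem _ hyy _

end Cfsg.Agent.Lib.Helper36.JL
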