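import Mathlib
import Cfsg.Agent.Lib.Helper72.JMDefs
import Cfsg.Agent.Lib.Helper94.JcTH

/-! Project JM (helper72, S2943), piece TRN. -/

set_option autoImplicit false

namespace Cfsg.Agent.Lib.Helper36.JM

open Cfsg.Agent.Lib.Helper72.JM Cfsg.Agent.Lib.Helper72.JL Cfsg.Agent.Lib.Helper72.SC Cfsg.Agent.Lib.Helper78.Jc
open scoped commutatorElement

universe u

theorem trn : TrnStmt.{u} := by
  intro G _ T L g hg
  rw [Subgroup.mem_subgroupOf] at hg
  have hn := Cfsg.Agent.Lib.Helper94.Jc.th_normal T hg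
  rw [Subgroup.mem_normalizer_iff] at hn ⊢
  intro x
  rw [Subgroup.mem_subgroupOf, Subgroup.mem_subgroupOf]
  exact hn (x : G)

end Cfsg.Agent.Lib.Helper36.JM
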