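import Cfsg.Agent.Lib.Helper36.M24SexData
import Cfsg.Agent.Lib.Helper36.M24Fam2

/-!
The stabiliser of a sextet in `M24`: transitivity of `M24` on sextets, the four suborbits of
sizes 1, 90, 240, 1440, maximality.
-/

set_option autoImplicit false

namespace Cfsg.Agent.Lib.Helper36

open Cfsg Cfsg.Agent.Lib.Helper9
open scoped Pointwise

/-- The standard sextet, through the tetrad `{∞, 0, 1, 2}`. -/
noncomputable def sx0 : Finset (Finset GolayPt) := sexObj 8388615

/-- The six tetrads of the standard sextet. -/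
def sx0L : List ℕ := [147496, 268544, 1082880, 2621632, 4268048, 8388615]

theorem sx0L_ok : isSexL sx0L = true := by decide +kernel

theorem sx0_eq : sx0 = famL sx0L := sexObj_eq_famL sx0L_ok (by decide)

theorem sx0_mem : sx0 ∈ sextets := by rw [sx0_eq]; exact famL_mem_sextets sx0L_ok

theorem tet0_valid : (8388615 : ℕ) < 2 ^ 24 ∧ popc 8388615 = 4 := ⟨by norm_num, by decide +kernel⟩

/-- `M24` is transitive on sextets. -/
theorem sex_hA (y : Finset (Finset GolayPt)) : y ∈ sextets ↔ ∃ σ ∈ M24, σ • sx0 = y := by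
  constructor
  · intro hy
    have h := sextet_orbit_cert M24 le_rfl m24Tabs (tabs_M24 m24Tabs_ok) _ _ _ _ 1771 1540
      (by rw [sexAll_root]; exact tet0_valid) sexAll_chk sexAll_sorted sexAll_canon
    rw [sexAll_root] at h
    have hsub : {y | ∃ σ ∈ M24, σ • sexObj 8388615 = y} ⊆ sextets := by
      rintro z ⟨σ, hσ, rfl⟩
      exact smul_sextet_mem hσ sx0_mem
    have heq := orbit_eq_class M24 (sexObj 8388615) sextets 1771 hsub
      (le_of_eq Cfsg.Agent.S1550.result.2) h
    have : y ∈ {y | ∃ σ ∈ M24, σ • sexObj 8388615 = y} := by rw [heq]; exact hy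
    exact this
  · rintro ⟨σ, hσ, rfl⟩
    exact smul_sextet_mem hσ sx0_mem

theorem exists_smul_sx0 {S : Finset (Finset GolayPt)} (hS : S ∈ sextets) :
    ∃ σ ∈ M24, σ • sx0 = S := (sex_hA S).mp hS

/-- Representatives of the three non-trivial suborbits. -/
noncomputable def sexRep : Fin 3 → Finset (Finset GolayPt) := ![sexObj 15, sexObj 27, sexObj 43]

def sx15L : List ℕ := [15, 5264, 622848, 3416064, 4196928, 8536096]
def sx27L : List ℕ := [27, 5252, 57856, 2162784, 4587776, 9963520]
def sx43L : List ℕ := [43, 297984, 1053440, 2162768, 4726912, 8536068]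

theorem sx15L_ok : isSexL sx15L = true := by decide +kernel
theorem sx27L_ok : isSexL sx27L = true := by decide +kernel
theorem sx43L_ok : isSexL sx43L = true := by decide +kernel

theorem isSexL_good {l : List ℕ} (h : isSexL l = true) : goodL l = true := by
  simp only [isSexL, Bool.and_eq_true] at h
  exact h.1.1.1

theorem sexRep_mem (i : Fin 3) : sexRep i ∈ sextets := by
  fin_cases i
  · show sexObj 15 ∈ sextets
    rw [sexObj_eq_famL sx15L_ok (by decide)]; exact famL_mem_sextets sx15L_ok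
  · show sexObj 27 ∈ sextets
    rw [sexObj_eq_famL sx27L_ok (by decide)]; exact famL_mem_sextets sx27L_ok
  · show sexObj 43 ∈ sextets
    rw [sexObj_eq_famL sx43L_ok (by decide)]; exact famL_mem_sextets sx43L_ok

theorem sexInv_rep : ∀ i, phiF sx0 (sexRep i) = (![36, 32, 48] : Fin 3 → ℕ) i := by
  intro i
  fin_cases i
  · show phiF sx0 (sexObj 15) = 36
    rw [sx0_eq, sexObj_eq_famL sx15L_ok (by decide),
      phiF_famL (isSexL_good sx0L_ok) (isSexL_good sx15L_ok)]
    decide +kernel
  · show phiF sx0 (sexObj 27) = 32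
    rw [sx0_eq, sexObj_eq_famL sx27L_ok (by decide),
      phiF_famL (isSexL_good sx0L_ok) (isSexL_good sx27L_ok)]
    decide +kernel
  · show phiF sx0 (sexObj 43) = 48
    rw [sx0_eq, sexObj_eq_famL sx43L_ok (by decide),
      phiF_famL (isSexL_good sx0L_ok) (isSexL_good sx43L_ok)]
    decide +kernel

theorem sexInv_sx0 : phiF sx0 sx0 = 96 := by
  rw [sx0_eq, phiF_famL (isSexL_good sx0L_ok) (isSexL_good sx0L_ok)]
  decide +kernel

theorem sex_lower (i : Fin 3) : (![240, 1440, 90] : Fin 3 → ℕ) i ≤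
    ({y | ∃ σ ∈ stabIn sx0, σ • sexRep i = y} : Set (Finset (Finset GolayPt))).ncard := by
  have htabs := tabs_stabSex tet0_valid sexTabs_ok
  have h240 := sextet_orbit_cert (stabIn sx0) inf_le_left sexTabs htabs _ _ _ _ 240 0
    (by rw [sex240_root]; exact ⟨by norm_num, by decide +kernel⟩) sex240_chk sex240_sorted
    sex240_canon
  have h1440 := sextet_orbit_cert (stabIn sx0) inf_le_left sexTabs htabs _ _ _ _ 1440 0
    (by rw [sex1440_root]; exact ⟨by norm_num, by decide +kernel⟩) sex1440_chk sex1440_sorted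
    sex1440_canon
  have h90 := sextet_orbit_cert (stabIn sx0) inf_le_left sexTabs htabs _ _ _ _ 90 0
    (by rw [sex90_root]; exact ⟨by norm_num, by decide +kernel⟩) sex90_chk sex90_sorted
    sex90_canon
  rw [sex240_root] at h240
  rw [sex1440_root] at h1440
  rw [sex90_root] at h90
  fin_cases i
  · exact h240
  · exact h1440
  · exact h90

theorem sex_hinv : ∀ σ ∈ stabIn sx0, ∀ y, phiF sx0 (σ • y) = phiF sx0 y :=
  fun _ hσ y => phiF_smul_right (mem_stabIn.mp hσ).2 y

theorem sex_hsep : ∀ i j, phiF sx0 (sexRep i) = phiF sx0 (sexRep j) → i = j := by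
  intro i j h
  simp only [sexInv_rep] at h
  revert i j
  decide

theorem sex_hinva : ∀ i, phiF sx0 (sexRep i) ≠ phiF sx0 sx0 := by
  intro i
  simp only [sexInv_rep, sexInv_sx0]
  revert i
  decide

theorem sex_hsum : sextets.ncard ≤ 1 + ∑ i, (![240, 1440, 90] : Fin 3 → ℕ) i := by
  rw [Cfsg.Agent.S1550.result.2]
  decide

/-- The suborbit structure of the stabiliser of the standard sextet. -/
theorem sex_partition :
    (∀ i, ({y | ∃ σ ∈ stabIn sx0, σ • sexRep i = y} : Set (Finset (Finset GolayPt))).ncard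
      = (![240, 1440, 90] : Fin 3 → ℕ) i) ∧
    (∀ y ∈ sextets, y = sx0 ∨ ∃ i, ∃ σ ∈ stabIn sx0, σ • sexRep i = y) ∧
    (∀ y ∈ sextets, ∀ i, phiF sx0 y = phiF sx0 (sexRep i) →
      ∃ σ ∈ stabIn sx0, σ • sexRep i = y) :=
  stab_partition sx0 sexRep ![240, 1440, 90] (phiF sx0) sextets sex_hA sexRep_mem sex_hinv
    sex_hsep sex_hinva sex_lower sex_hsum

theorem isCoatom_sx0 : IsCoatom (MulAction.stabilizer M24 sx0) :=
  isCoatom_of_partition sx0 sexRep ![240, 1440, 90] (phiF sx0) sextets sex_hA sexRep_mem sex_hinv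
    sex_hsep sex_hinva sex_lower sex_hsum (by norm_num) (by decide)

end Cfsg.Agent.Lib.Helper36
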