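import Cfsg.Agent.Lib.Helper36.M24TrioData
import Cfsg.Agent.Lib.Helper36.M24Fam2

/-!
The stabiliser of a trio in `M24`: transitivity of `M24` on trios, the five suborbits of sizes
1, 42, 56, 1008, 2688, maximality.
-/

set_option autoImplicit false

namespace Cfsg.Agent.Lib.Helper36

open Cfsg Cfsg.Agent.Lib.Helper9
open scoped Pointwise

/-- The standard trio (containing the standard octad). -/
def tr0 : Finset (Finset GolayPt) := trioObj 132594499135424

theorem tr0_valid : trioValid 132594499135424 := trioValid_of (by decide +kernel)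

theorem tr0_mem : tr0 ∈ trios := trioObj_mem tr0_valid

/-- `M24` is transitive on trios. -/
theorem trio_hA (y : Finset (Finset GolayPt)) : y ∈ trios ↔ ∃ σ ∈ M24, σ • tr0 = y := by
  constructor
  · intro hy
    have h := trio_orbit_cert M24 le_rfl m24Tabs (tabs_M24 m24Tabs_ok) _ _ _ _ 3795 3759
      (by rw [trioAll_root]; exact tr0_valid) trioAll_chk trioAll_sorted trioAll_canon
    rw [trioAll_root] at h
    have hsub : {y | ∃ σ ∈ M24, σ • trioObj 132594499135424 = y} ⊆ trios := by
      rintro z ⟨σ, hσ, rfl⟩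
      exact smul_trio_mem hσ tr0_mem
    have heq := orbit_eq_class M24 (trioObj 132594499135424) trios 3795 hsub
      (le_of_eq Cfsg.Agent.S1557.result.2) h
    have : y ∈ {y | ∃ σ ∈ M24, σ • trioObj 132594499135424 = y} := by rw [heq]; exact hy
    exact this
  · rintro ⟨σ, hσ, rfl⟩
    exact smul_trio_mem hσ tr0_mem

theorem exists_smul_tr0 {T : Finset (Finset GolayPt)} (hT : T ∈ trios) :
    ∃ σ ∈ M24, σ • tr0 = T := (trio_hA T).mp hT

/-- Representatives of the four non-trivial suborbits (sizes 42, 56, 1008, 2688). -/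
def trioRep : Fin 4 → Finset (Finset GolayPt) :=
  ![trioObj 11614564984768, trioObj 10537971098218, trioObj 4406317931024,
    trioObj 4756961724524]

theorem trioRep_valid : trioValid 11614564984768 ∧ trioValid 10537971098218 ∧
    trioValid 4406317931024 ∧ trioValid 4756961724524 :=
  ⟨trioValid_of (by decide +kernel), trioValid_of (by decide +kernel),
    trioValid_of (by decide +kernel), trioValid_of (by decide +kernel)⟩

theorem trioRep_mem (i : Fin 4) : trioRep i ∈ trios := by
  fin_cases i
  · exact trioObj_mem trioRep_valid.1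
  · exact trioObj_mem trioRep_valid.2.1
  · exact trioObj_mem trioRep_valid.2.2.1
  · exact trioObj_mem trioRep_valid.2.2.2

theorem trioInv_code (c d v : ℕ)
    (h1 : goodL [c % 16777216, c / 16777216, 16777215 ^^^ (c % 16777216 ||| c / 16777216)] = true)
    (h2 : goodL [d % 16777216, d / 16777216, 16777215 ^^^ (d % 16777216 ||| d / 16777216)] = true)
    (h3 : phiL [c % 16777216, c / 16777216, 16777215 ^^^ (c % 16777216 ||| c / 16777216)]
      [d % 16777216, d / 16777216, 16777215 ^^^ (d % 16777216 ||| d / 16777216)] = v) :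
    phiF (trioObj c) (trioObj d) = v := by
  rw [trioObj_eq_famL c, trioObj_eq_famL d, phiF_famL h1 h2, h3]

theorem trioInv_rep : ∀ i, phiF tr0 (trioRep i) = (![128, 96, 80, 72] : Fin 4 → ℕ) i := by
  intro i
  fin_cases i
  · exact trioInv_code _ _ _ (by decide +kernel) (by decide +kernel) (by decide +kernel)
  · exact trioInv_code _ _ _ (by decide +kernel) (by decide +kernel) (by decide +kernel)
  · exact trioInv_code _ _ _ (by decide +kernel) (by decide +kernel) (by decide +kernel)
  · exact trioInv_code _ _ _ (by decide +kernel) (by decide +kernel) (by decide +kernel)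

theorem trioInv_tr0 : phiF tr0 tr0 = 192 :=
  trioInv_code _ _ _ (by decide +kernel) (by decide +kernel) (by decide +kernel)

theorem trio_lower (i : Fin 4) : (![42, 56, 1008, 2688] : Fin 4 → ℕ) i ≤
    ({y | ∃ σ ∈ stabIn tr0, σ • trioRep i = y} : Set (Finset (Finset GolayPt))).ncard := by
  have htabs := tabs_stabTrio tr0_valid trioTabs_ok
  have h42 := trio_orbit_cert (stabIn tr0) inf_le_left trioTabs htabs _ _ _ _ 42 0
    (by rw [trio42_root]; exact trioRep_valid.1) trio42_chk trio42_sorted trio42_canon
  have h56 := trio_orbit_cert (stabIn tr0) inf_le_left trioTabs htabs _ _ _ _ 56 0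
    (by rw [trio56_root]; exact trioRep_valid.2.1) trio56_chk trio56_sorted trio56_canon
  have h1008 := trio_orbit_cert (stabIn tr0) inf_le_left trioTabs htabs _ _ _ _ 1008 0
    (by rw [trio1008_root]; exact trioRep_valid.2.2.1) trio1008_chk trio1008_sorted trio1008_canon
  have h2688 := trio_orbit_cert (stabIn tr0) inf_le_left trioTabs htabs _ _ _ _ 2688 0
    (by rw [trio2688_root]; exact trioRep_valid.2.2.2) trio2688_chk trio2688_sorted trio2688_canon
  rw [trio42_root] at h42
  rw [trio56_root] at h56
  rw [trio1008_root] at h1008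
  rw [trio2688_root] at h2688
  fin_cases i
  · exact h42
  · exact h56
  · exact h1008
  · exact h2688

theorem trio_hinv : ∀ σ ∈ stabIn tr0, ∀ y, phiF tr0 (σ • y) = phiF tr0 y :=
  fun _ hσ y => phiF_smul_right (mem_stabIn.mp hσ).2 y

theorem trio_hsep : ∀ i j, phiF tr0 (trioRep i) = phiF tr0 (trioRep j) → i = j := by
  intro i j h
  simp only [trioInv_rep] at h
  revert i j
  decide

theorem trio_hinva : ∀ i, phiF tr0 (trioRep i) ≠ phiF tr0 tr0 := by
  intro i
  simp only [trioInv_rep, trioInv_tr0]
  revert i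
  decide

theorem trio_hsum : trios.ncard ≤ 1 + ∑ i, (![42, 56, 1008, 2688] : Fin 4 → ℕ) i := by
  rw [Cfsg.Agent.S1557.result.2]
  decide

/-- The suborbit structure of the stabiliser of the standard trio. -/
theorem trio_partition :
    (∀ i, ({y | ∃ σ ∈ stabIn tr0, σ • trioRep i = y} : Set (Finset (Finset GolayPt))).ncard
      = (![42, 56, 1008, 2688] : Fin 4 → ℕ) i) ∧
    (∀ y ∈ trios, y = tr0 ∨ ∃ i, ∃ σ ∈ stabIn tr0, σ • trioRep i = y) ∧
    (∀ y ∈ trios, ∀ i, phiF tr0 y = phiF tr0 (trioRep i) →
      ∃ σ ∈ stabIn tr0, σ • trioRep i = y) :=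
  stab_partition tr0 trioRep ![42, 56, 1008, 2688] (phiF tr0) trios trio_hA trioRep_mem trio_hinv
    trio_hsep trio_hinva trio_lower trio_hsum

theorem isCoatom_tr0 : IsCoatom (MulAction.stabilizer M24 tr0) :=
  isCoatom_of_partition tr0 trioRep ![42, 56, 1008, 2688] (phiF tr0) trios trio_hA trioRep_mem
    trio_hinv trio_hsep trio_hinva trio_lower trio_hsum (by norm_num) (by decide)

end Cfsg.Agent.Lib.Helper36
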