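import Cfsg.Agent.Lib.Helper36.M24MixData
import Cfsg.Agent.Lib.Helper36.M24Sex
import Cfsg.Agent.Lib.Helper36.M24Trio
import Cfsg.Agent.Lib.Helper36.M24Oct

/-!
Orbits of the stabilisers of an octad, a sextet and a trio in `M24` on the objects of the other
two kinds.
-/

set_option autoImplicit false

namespace Cfsg.Agent.Lib.Helper36

open Cfsg Cfsg.Agent.Lib.Helper9
open scoped Pointwise

section Two

variable {Ω Ω' : Type*} [MulAction (Equiv.Perm GolayPt) Ω] [MulAction (Equiv.Perm GolayPt) Ω']

theorem orbit_stabilizer_eq₂ (a : Ω) (x : Ω') :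
    MulAction.orbit ↥(MulAction.stabilizer M24 a) x = {y | ∃ σ ∈ stabIn a, σ • x = y} := by
  ext y
  constructor
  · rintro ⟨g, rfl⟩
    exact ⟨g.1.1, mem_stabIn.mpr ⟨g.1.2, g.2⟩, rfl⟩
  · rintro ⟨σ, hσ, rfl⟩
    rw [mem_stabIn] at hσ
    exact ⟨⟨⟨σ, hσ.1⟩, hσ.2⟩, rfl⟩

theorem orbit_stab_transfer₂ {γ : Equiv.Perm GolayPt} (hγ : γ ∈ M24) (a : Ω) (x : Ω') :
    {y | ∃ σ ∈ stabIn (γ • a), σ • (γ • x) = y} =
      (fun y => γ • y) '' {y | ∃ σ ∈ stabIn a, σ • x = y} := by
  ext y
  constructor
  · rintro ⟨σ, hσ, rfl⟩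
    rw [mem_stabIn] at hσ
    refine ⟨(γ⁻¹ * σ * γ) • x, ⟨γ⁻¹ * σ * γ, mem_stabIn.mpr
      ⟨M24.mul_mem (M24.mul_mem (M24.inv_mem hγ) hσ.1) hγ, ?_⟩, rfl⟩, ?_⟩
    · rw [mul_smul, mul_smul, hσ.2, inv_smul_smul]
    · show γ • (γ⁻¹ * σ * γ) • x = σ • γ • x
      rw [mul_smul, mul_smul, smul_inv_smul]
  · rintro ⟨z, ⟨τ, hτ, rfl⟩, rfl⟩
    rw [mem_stabIn] at hτ
    refine ⟨γ * τ * γ⁻¹, mem_stabIn.mpr
      ⟨M24.mul_mem (M24.mul_mem hγ hτ.1) (M24.inv_mem hγ), ?_⟩, ?_⟩
    · rw [mul_smul, mul_smul, inv_smul_smul]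
      exact congrArg (γ • ·) hτ.2
    · rw [mul_smul, mul_smul, inv_smul_smul]

/-- Orbits of the stabiliser of `γ • a` on an `M24`-invariant set `A` of objects of another
kind, from certified orbits of the stabiliser of `a`. -/
theorem mix_partition [Finite Ω'] (a : Ω) (A : Set Ω') {m : ℕ} (x : Fin m → Ω') (n : Fin m → ℕ)
    (inv : Ω' → ℕ)
    (hA : ∀ σ ∈ M24, ∀ y ∈ A, σ • y ∈ A)
    (hx : ∀ i, x i ∈ A)
    (hinv : ∀ σ ∈ stabIn a, ∀ y, inv (σ • y) = inv y)
    (hsep : ∀ i j, inv (x i) = inv (x j) → i = j)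
    (hn : ∀ i, n i ≤ ({y | ∃ σ ∈ stabIn a, σ • x i = y} : Set Ω').ncard)
    (hsum : A.ncard ≤ ∑ i, n i) {γ : Equiv.Perm GolayPt} (hγ : γ ∈ M24) :
    (∀ i, γ • x i ∈ A) ∧
    (∀ i, (MulAction.orbit ↥(MulAction.stabilizer M24 (γ • a)) (γ • x i)).ncard = n i) ∧
    (∀ y, y ∈ A ↔ ∃ i, y ∈ MulAction.orbit ↥(MulAction.stabilizer M24 (γ • a)) (γ • x i)) := by
  have key := orbits_partition (stabIn a) A x n inv
    (fun i σ hσ => hA σ (mem_stabIn.mp hσ).1 _ (hx i))
    (fun i σ hσ => hinv σ hσ _) hsep hn hsum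
  refine ⟨fun i => hA γ hγ _ (hx i), fun i => ?_, fun y => ?_⟩
  · rw [orbit_stabilizer_eq₂, orbit_stab_transfer₂ hγ,
      Set.ncard_image_of_injective _ (MulAction.injective γ)]
    exact key.1 i
  · constructor
    · intro hy
      have hy' : γ⁻¹ • y ∈ A := hA _ (M24.inv_mem hγ) y hy
      obtain ⟨i, σ, hσ, h⟩ := key.2.1 _ hy'
      refine ⟨i, ?_⟩
      rw [orbit_stabilizer_eq₂, orbit_stab_transfer₂ hγ]
      exact ⟨γ⁻¹ • y, ⟨σ, hσ, h⟩, smul_inv_smul γ y⟩
    · rintro ⟨i, hi⟩
      rw [orbit_stabilizer_eq₂, orbit_stab_transfer₂ hγ] at hi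
      obtain ⟨z, ⟨σ, hσ, rfl⟩, rfl⟩ := hi
      exact hA γ hγ _ (hA σ (mem_stabIn.mp hσ).1 _ (hx i))

end Two

theorem famL_single (m : ℕ) : famL [m] = {ms m} := by
  simp [famL]

theorem phiF_code {l l' : List ℕ} {v : ℕ} (h1 : goodL l = true) (h2 : goodL l' = true)
    (h3 : phiL l l' = v) : phiF (famL l) (famL l') = v := by
  rw [phiF_famL h1 h2, h3]

theorem phiF_single_smul {σ : Equiv.Perm GolayPt} {o : Finset GolayPt} (h : σ • o = o)
    (X : Finset (Finset GolayPt)) : phiF {o} (σ • X) = phiF {o} X :=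
  phiF_smul_right (by rw [Finset.smul_finset_singleton, h]) X

theorem phiF_smul_single {σ : Equiv.Perm GolayPt} {S : Finset (Finset GolayPt)} (h : σ • S = S)
    (o : Finset GolayPt) : phiF S {σ • o} = phiF S {o} := by
  rw [← Finset.smul_finset_singleton]
  exact phiF_smul_right h {o}

theorem octads_smul_mem : ∀ σ ∈ M24, ∀ y ∈ octads, σ • y ∈ octads :=
  fun _ hσ _ hy => smul_octad_mem hσ hy

theorem sextets_smul_mem : ∀ σ ∈ M24, ∀ y ∈ sextets, σ • y ∈ sextets :=
  fun _ hσ _ hy => smul_sextet_mem hσ hy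

theorem trios_smul_mem : ∀ σ ∈ M24, ∀ y ∈ trios, σ • y ∈ trios :=
  fun _ hσ _ hy => smul_trio_mem hσ hy

def mx15L : List ℕ := [15, 5264, 622848, 3416064, 4196928, 8536096]

theorem mx15L_ok : isSexL mx15L = true := by decide +kernel

theorem mx15_mem : sexObj 15 ∈ sextets := by
  rw [sexObj_eq_famL mx15L_ok (by decide)]; exact famL_mem_sextets mx15L_ok

def mx23L : List ℕ := [23, 5256, 786976, 1065280, 2263040, 12656640]

theorem mx23L_ok : isSexL mx23L = true := by decide +kernel

theorem mx23_mem : sexObj 23 ∈ sextets := by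
  rw [sexObj_eq_famL mx23L_ok (by decide)]; exact famL_mem_sextets mx23L_ok

def mx45L : List ℕ := [45, 75264, 262592, 2627584, 5275664, 8536066]

theorem mx45L_ok : isSexL mx45L = true := by decide +kernel

theorem mx45_mem : sexObj 45 ∈ sextets := by
  rw [sexObj_eq_famL mx45L_ok (by decide)]; exact famL_mem_sextets mx45L_ok

def mx83L : List ℕ := [83, 272512, 1065220, 2162728, 4752384, 8524288]

theorem mx83L_ok : isSexL mx83L = true := by decide +kernel

theorem mx83_mem : sexObj 83 ∈ sextets := by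
  rw [sexObj_eq_famL mx83L_ok (by decide)]; exact famL_mem_sextets mx83L_ok

def mx195L : List ℕ := [195, 17952, 272400, 1212424, 4264192, 11010052]

theorem mx195L_ok : isSexL mx195L = true := by decide +kernel

theorem mx195_mem : sexObj 195 ∈ sextets := by
  rw [sexObj_eq_famL mx195L_ok (by decide)]; exact famL_mem_sextets mx195L_ok

/-- Representatives of the orbits (sizes [15, 420, 3360]). -/
def octTrioRep : Fin 3 → Finset (Finset GolayPt) := ![trioObj 70501086896384, trioObj 10537971098218, trioObj 4406317931024]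

theorem octTrioRep_mem (i : Fin 3) : octTrioRep i ∈ trios := by
  fin_cases i
  · exact trioObj_mem (trioValid_of (by decide +kernel))
  · exact trioObj_mem (trioValid_of (by decide +kernel))
  · exact trioObj_mem (trioValid_of (by decide +kernel))

/-- The separating invariant. -/
noncomputable def octTrioInv : Finset (Finset GolayPt) → ℕ := phiF {o0}

theorem octTrioInv_rep : ∀ i, octTrioInv (octTrioRep i) = (![64, 32, 24] : Fin 3 → ℕ) i := by
  intro i
  fin_cases i
  · show phiF {o0} (trioObj 70501086896384) = 64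
    rw [o0, ← famL_single 8536111, trioObj_eq_famL 70501086896384]
    exact phiF_code (by decide +kernel) (by decide +kernel) (by decide +kernel)
  · show phiF {o0} (trioObj 10537971098218) = 32
    rw [o0, ← famL_single 8536111, trioObj_eq_famL 10537971098218]
    exact phiF_code (by decide +kernel) (by decide +kernel) (by decide +kernel)
  · show phiF {o0} (trioObj 4406317931024) = 24
    rw [o0, ← famL_single 8536111, trioObj_eq_famL 4406317931024]
    exact phiF_code (by decide +kernel) (by decide +kernel) (by decide +kernel)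

theorem octTrio_hinv : ∀ σ ∈ stabIn o0, ∀ y, octTrioInv (σ • y) = octTrioInv y := by
  intro σ hσ y
  exact phiF_single_smul (mem_stabIn.mp hσ).2 y

theorem octTrio_hsep : ∀ i j, octTrioInv (octTrioRep i) = octTrioInv (octTrioRep j) → i = j := by
  intro i j h
  simp only [octTrioInv_rep] at h
  revert i j
  decide

theorem octTrio_lower (i : Fin 3) : (![15, 420, 3360] : Fin 3 → ℕ) i ≤
    ({y | ∃ σ ∈ stabIn o0, σ • octTrioRep i = y} : Set (Finset (Finset GolayPt))).ncard := by
  have htabs : ∀ T ∈ octTabs, ∃ σ ∈ stabIn o0, HasTable σ T := tabs_stabMask octTabs_ok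
  have h15 := trio_orbit_cert (stabIn o0) inf_le_left octTabs htabs _ _ _ _ 15 0
    (by rw [octTrio15_root]; exact trioValid_of (by decide +kernel)) octTrio15_chk octTrio15_sorted
    octTrio15_canon
  have h420 := trio_orbit_cert (stabIn o0) inf_le_left octTabs htabs _ _ _ _ 420 0
    (by rw [octTrio420_root]; exact trioValid_of (by decide +kernel)) octTrio420_chk octTrio420_sorted
    octTrio420_canon
  have h3360 := trio_orbit_cert (stabIn o0) inf_le_left octTabs htabs _ _ _ _ 3360 0
    (by rw [octTrio3360_root]; exact trioValid_of (by decide +kernel)) octTrio3360_chk octTrio3360_sorted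
    octTrio3360_canon
  rw [octTrio15_root] at h15
  rw [octTrio420_root] at h420
  rw [octTrio3360_root] at h3360
  fin_cases i
  · exact h15
  · exact h420
  · exact h3360

theorem octTrio_hsum : trios.ncard ≤ ∑ i, (![15, 420, 3360] : Fin 3 → ℕ) i := by
  rw [Cfsg.Agent.S1557.result.2]
  decide

/-- Orbits of the stabiliser of `γ • o0` on `trios`. -/
theorem octTrio_partition {γ : Equiv.Perm GolayPt} (hγ : γ ∈ M24) :
    (∀ i, γ • octTrioRep i ∈ trios) ∧
    (∀ i, (MulAction.orbit ↥(MulAction.stabilizer M24 (γ • o0)) (γ • octTrioRep i)).ncard =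
      (![15, 420, 3360] : Fin 3 → ℕ) i) ∧
    (∀ y, y ∈ trios ↔
      ∃ i, y ∈ MulAction.orbit ↥(MulAction.stabilizer M24 (γ • o0)) (γ • octTrioRep i)) :=
  mix_partition o0 trios octTrioRep ![15, 420, 3360] octTrioInv trios_smul_mem octTrioRep_mem
    octTrio_hinv octTrio_hsep octTrio_lower octTrio_hsum hγ

/-- Representatives of the orbits (sizes [35, 840, 896]). -/
noncomputable def octSexRep : Fin 3 → Finset (Finset GolayPt) := ![sexObj 15, sexObj 83, sexObj 23]

theorem octSexRep_mem (i : Fin 3) : octSexRep i ∈ sextets := by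
  fin_cases i
  · exact mx15_mem
  · exact mx83_mem
  · exact mx23_mem

/-- The separating invariant. -/
noncomputable def octSexInv : Finset (Finset GolayPt) → ℕ := phiF {o0}

theorem octSexInv_rep : ∀ i, octSexInv (octSexRep i) = (![32, 16, 14] : Fin 3 → ℕ) i := by
  intro i
  fin_cases i
  · show phiF {o0} (sexObj 15) = 32
    rw [o0, ← famL_single 8536111, sexObj_eq_famL mx15L_ok (by decide)]
    exact phiF_code (by decide +kernel) (isSexL_good mx15L_ok) (by decide +kernel)
  · show phiF {o0} (sexObj 83) = 16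
    rw [o0, ← famL_single 8536111, sexObj_eq_famL mx83L_ok (by decide)]
    exact phiF_code (by decide +kernel) (isSexL_good mx83L_ok) (by decide +kernel)
  · show phiF {o0} (sexObj 23) = 14
    rw [o0, ← famL_single 8536111, sexObj_eq_famL mx23L_ok (by decide)]
    exact phiF_code (by decide +kernel) (isSexL_good mx23L_ok) (by decide +kernel)

theorem octSex_hinv : ∀ σ ∈ stabIn o0, ∀ y, octSexInv (σ • y) = octSexInv y := by
  intro σ hσ y
  exact phiF_single_smul (mem_stabIn.mp hσ).2 y

theorem octSex_hsep : ∀ i j, octSexInv (octSexRep i) = octSexInv (octSexRep j) → i = j := by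
  intro i j h
  simp only [octSexInv_rep] at h
  revert i j
  decide

theorem octSex_lower (i : Fin 3) : (![35, 840, 896] : Fin 3 → ℕ) i ≤
    ({y | ∃ σ ∈ stabIn o0, σ • octSexRep i = y} : Set (Finset (Finset GolayPt))).ncard := by
  have htabs : ∀ T ∈ octTabs, ∃ σ ∈ stabIn o0, HasTable σ T := tabs_stabMask octTabs_ok
  have h35 := sextet_orbit_cert (stabIn o0) inf_le_left octTabs htabs _ _ _ _ 35 0
    (by rw [octSex35_root]; exact ⟨by norm_num, by decide +kernel⟩) octSex35_chk octSex35_sorted
    octSex35_canon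
  have h840 := sextet_orbit_cert (stabIn o0) inf_le_left octTabs htabs _ _ _ _ 840 0
    (by rw [octSex840_root]; exact ⟨by norm_num, by decide +kernel⟩) octSex840_chk octSex840_sorted
    octSex840_canon
  have h896 := sextet_orbit_cert (stabIn o0) inf_le_left octTabs htabs _ _ _ _ 896 0
    (by rw [octSex896_root]; exact ⟨by norm_num, by decide +kernel⟩) octSex896_chk octSex896_sorted
    octSex896_canon
  rw [octSex35_root] at h35
  rw [octSex840_root] at h840
  rw [octSex896_root] at h896
  fin_cases i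
  · exact h35
  · exact h840
  · exact h896

theorem octSex_hsum : sextets.ncard ≤ ∑ i, (![35, 840, 896] : Fin 3 → ℕ) i := by
  rw [Cfsg.Agent.S1550.result.2]
  decide

/-- Orbits of the stabiliser of `γ • o0` on `sextets`. -/
theorem octSex_partition {γ : Equiv.Perm GolayPt} (hγ : γ ∈ M24) :
    (∀ i, γ • octSexRep i ∈ sextets) ∧
    (∀ i, (MulAction.orbit ↥(MulAction.stabilizer M24 (γ • o0)) (γ • octSexRep i)).ncard =
      (![35, 840, 896] : Fin 3 → ℕ) i) ∧
    (∀ y, y ∈ sextets ↔
      ∃ i, y ∈ MulAction.orbit ↥(MulAction.stabilizer M24 (γ • o0)) (γ • octSexRep i)) :=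
  mix_partition o0 sextets octSexRep ![35, 840, 896] octSexInv sextets_smul_mem octSexRep_mem
    octSex_hinv octSex_hsep octSex_lower octSex_hsum hγ

/-- Representatives of the orbits (sizes [15, 360, 384]). -/
def sexOctRep : Fin 3 → Finset GolayPt := ![ms 416040, ms 10558, ms 5279]

theorem sexOctRep_mem (i : Fin 3) : sexOctRep i ∈ octads := by
  fin_cases i
  · exact ms_mem_octads (by decide +kernel) (by decide +kernel)
  · exact ms_mem_octads (by decide +kernel) (by decide +kernel)
  · exact ms_mem_octads (by decide +kernel) (by decide +kernel)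

/-- The separating invariant. -/
noncomputable def sexOctInv : Finset GolayPt → ℕ := fun o => phiF sx0 {o}

theorem sexOctInv_rep : ∀ i, sexOctInv (sexOctRep i) = (![32, 16, 14] : Fin 3 → ℕ) i := by
  intro i
  fin_cases i
  · show phiF sx0 {ms 416040} = 32
    rw [sx0_eq, ← famL_single 416040]
    exact phiF_code (isSexL_good sx0L_ok) (by decide +kernel) (by decide +kernel)
  · show phiF sx0 {ms 10558} = 16
    rw [sx0_eq, ← famL_single 10558]
    exact phiF_code (isSexL_good sx0L_ok) (by decide +kernel) (by decide +kernel)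
  · show phiF sx0 {ms 5279} = 14
    rw [sx0_eq, ← famL_single 5279]
    exact phiF_code (isSexL_good sx0L_ok) (by decide +kernel) (by decide +kernel)

theorem sexOct_hinv : ∀ σ ∈ stabIn sx0, ∀ y, sexOctInv (σ • y) = sexOctInv y := by
  intro σ hσ y
  exact phiF_smul_single (mem_stabIn.mp hσ).2 y

theorem sexOct_hsep : ∀ i j, sexOctInv (sexOctRep i) = sexOctInv (sexOctRep j) → i = j := by
  intro i j h
  simp only [sexOctInv_rep] at h
  revert i j
  decide

theorem sexOct_lower (i : Fin 3) : (![15, 360, 384] : Fin 3 → ℕ) i ≤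
    ({y | ∃ σ ∈ stabIn sx0, σ • sexOctRep i = y} : Set (Finset GolayPt)).ncard := by
  have htabs := tabs_stabSex tet0_valid sexTabs_ok
  have h15 := (mask_orbit_cert (stabIn sx0) sexTabs htabs _ _ _ _ 15 0
    (by rw [sexOct15_root]; norm_num) sexOct15_chk sexOct15_sorted).2
  have h360 := (mask_orbit_cert (stabIn sx0) sexTabs htabs _ _ _ _ 360 0
    (by rw [sexOct360_root]; norm_num) sexOct360_chk sexOct360_sorted).2
  have h384 := (mask_orbit_cert (stabIn sx0) sexTabs htabs _ _ _ _ 384 0
    (by rw [sexOct384_root]; norm_num) sexOct384_chk sexOct384_sorted).2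
  rw [sexOct15_root] at h15
  rw [sexOct360_root] at h360
  rw [sexOct384_root] at h384
  fin_cases i
  · exact h15
  · exact h360
  · exact h384

theorem sexOct_hsum : octads.ncard ≤ ∑ i, (![15, 360, 384] : Fin 3 → ℕ) i := by
  rw [ncard_octads]
  decide

/-- Orbits of the stabiliser of `γ • sx0` on `octads`. -/
theorem sexOct_partition {γ : Equiv.Perm GolayPt} (hγ : γ ∈ M24) :
    (∀ i, γ • sexOctRep i ∈ octads) ∧
    (∀ i, (MulAction.orbit ↥(MulAction.stabilizer M24 (γ • sx0)) (γ • sexOctRep i)).ncard =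
      (![15, 360, 384] : Fin 3 → ℕ) i) ∧
    (∀ y, y ∈ octads ↔
      ∃ i, y ∈ MulAction.orbit ↥(MulAction.stabilizer M24 (γ • sx0)) (γ • sexOctRep i)) :=
  mix_partition sx0 octads sexOctRep ![15, 360, 384] sexOctInv octads_smul_mem sexOctRep_mem
    sexOct_hinv sexOct_hsep sexOct_lower sexOct_hsum hγ

/-- Representatives of the orbits (sizes [15, 180, 720, 2880]). -/
def sexTrioRep : Fin 4 → Finset (Finset GolayPt) := ![trioObj 46458259939072, trioObj 6979993043669, trioObj 4406317931024, trioObj 4756961724524]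

theorem sexTrioRep_mem (i : Fin 4) : sexTrioRep i ∈ trios := by
  fin_cases i
  · exact trioObj_mem (trioValid_of (by decide +kernel))
  · exact trioObj_mem (trioValid_of (by decide +kernel))
  · exact trioObj_mem (trioValid_of (by decide +kernel))
  · exact trioObj_mem (trioValid_of (by decide +kernel))

/-- The separating invariant. -/
noncomputable def sexTrioInv : Finset (Finset GolayPt) → ℕ := phiF sx0

theorem sexTrioInv_rep : ∀ i, sexTrioInv (sexTrioRep i) = (![96, 64, 48, 44] : Fin 4 → ℕ) i := by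
  intro i
  fin_cases i
  · show phiF sx0 (trioObj 46458259939072) = 96
    rw [sx0_eq, trioObj_eq_famL 46458259939072]
    exact phiF_code (isSexL_good sx0L_ok) (by decide +kernel) (by decide +kernel)
  · show phiF sx0 (trioObj 6979993043669) = 64
    rw [sx0_eq, trioObj_eq_famL 6979993043669]
    exact phiF_code (isSexL_good sx0L_ok) (by decide +kernel) (by decide +kernel)
  · show phiF sx0 (trioObj 4406317931024) = 48
    rw [sx0_eq, trioObj_eq_famL 4406317931024]
    exact phiF_code (isSexL_good sx0L_ok) (by decide +kernel) (by decide +kernel)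
  · show phiF sx0 (trioObj 4756961724524) = 44
    rw [sx0_eq, trioObj_eq_famL 4756961724524]
    exact phiF_code (isSexL_good sx0L_ok) (by decide +kernel) (by decide +kernel)

theorem sexTrio_hinv : ∀ σ ∈ stabIn sx0, ∀ y, sexTrioInv (σ • y) = sexTrioInv y := by
  intro σ hσ y
  exact phiF_smul_right (mem_stabIn.mp hσ).2 y

theorem sexTrio_hsep : ∀ i j, sexTrioInv (sexTrioRep i) = sexTrioInv (sexTrioRep j) → i = j := by
  intro i j h
  simp only [sexTrioInv_rep] at h
  revert i j
  decide

theorem sexTrio_lower (i : Fin 4) : (![15, 180, 720, 2880] : Fin 4 → ℕ) i ≤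
    ({y | ∃ σ ∈ stabIn sx0, σ • sexTrioRep i = y} : Set (Finset (Finset GolayPt))).ncard := by
  have htabs := tabs_stabSex tet0_valid sexTabs_ok
  have h15 := trio_orbit_cert (stabIn sx0) inf_le_left sexTabs htabs _ _ _ _ 15 0
    (by rw [sexTrio15_root]; exact trioValid_of (by decide +kernel)) sexTrio15_chk sexTrio15_sorted
    sexTrio15_canon
  have h180 := trio_orbit_cert (stabIn sx0) inf_le_left sexTabs htabs _ _ _ _ 180 0
    (by rw [sexTrio180_root]; exact trioValid_of (by decide +kernel)) sexTrio180_chk sexTrio180_sorted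
    sexTrio180_canon
  have h720 := trio_orbit_cert (stabIn sx0) inf_le_left sexTabs htabs _ _ _ _ 720 0
    (by rw [sexTrio720_root]; exact trioValid_of (by decide +kernel)) sexTrio720_chk sexTrio720_sorted
    sexTrio720_canon
  have h2880 := trio_orbit_cert (stabIn sx0) inf_le_left sexTabs htabs _ _ _ _ 2880 0
    (by rw [sexTrio2880_root]; exact trioValid_of (by decide +kernel)) sexTrio2880_chk sexTrio2880_sorted
    sexTrio2880_canon
  rw [sexTrio15_root] at h15
  rw [sexTrio180_root] at h180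
  rw [sexTrio720_root] at h720
  rw [sexTrio2880_root] at h2880
  fin_cases i
  · exact h15
  · exact h180
  · exact h720
  · exact h2880

theorem sexTrio_hsum : trios.ncard ≤ ∑ i, (![15, 180, 720, 2880] : Fin 4 → ℕ) i := by
  rw [Cfsg.Agent.S1557.result.2]
  decide

/-- Orbits of the stabiliser of `γ • sx0` on `trios`. -/
theorem sexTrio_partition {γ : Equiv.Perm GolayPt} (hγ : γ ∈ M24) :
    (∀ i, γ • sexTrioRep i ∈ trios) ∧
    (∀ i, (MulAction.orbit ↥(MulAction.stabilizer M24 (γ • sx0)) (γ • sexTrioRep i)).ncard =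
      (![15, 180, 720, 2880] : Fin 4 → ℕ) i) ∧
    (∀ y, y ∈ trios ↔
      ∃ i, y ∈ MulAction.orbit ↥(MulAction.stabilizer M24 (γ • sx0)) (γ • sexTrioRep i)) :=
  mix_partition sx0 trios sexTrioRep ![15, 180, 720, 2880] sexTrioInv trios_smul_mem sexTrioRep_mem
    sexTrio_hinv sexTrio_hsep sexTrio_lower sexTrio_hsum hγ

/-- Representatives of the orbits (sizes [3, 84, 672]). -/
def trioOctRep : Fin 3 → Finset GolayPt := ![ms 337856, ms 18147, ms 5279]

theorem trioOctRep_mem (i : Fin 3) : trioOctRep i ∈ octads := by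
  fin_cases i
  · exact ms_mem_octads (by decide +kernel) (by decide +kernel)
  · exact ms_mem_octads (by decide +kernel) (by decide +kernel)
  · exact ms_mem_octads (by decide +kernel) (by decide +kernel)

/-- The separating invariant. -/
noncomputable def trioOctInv : Finset GolayPt → ℕ := fun o => phiF tr0 {o}

theorem trioOctInv_rep : ∀ i, trioOctInv (trioOctRep i) = (![64, 32, 24] : Fin 3 → ℕ) i := by
  intro i
  fin_cases i
  · show phiF tr0 {ms 337856} = 64
    rw [tr0, trioObj_eq_famL 132594499135424, ← famL_single 337856]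
    exact phiF_code (by decide +kernel) (by decide +kernel) (by decide +kernel)
  · show phiF tr0 {ms 18147} = 32
    rw [tr0, trioObj_eq_famL 132594499135424, ← famL_single 18147]
    exact phiF_code (by decide +kernel) (by decide +kernel) (by decide +kernel)
  · show phiF tr0 {ms 5279} = 24
    rw [tr0, trioObj_eq_famL 132594499135424, ← famL_single 5279]
    exact phiF_code (by decide +kernel) (by decide +kernel) (by decide +kernel)

theorem trioOct_hinv : ∀ σ ∈ stabIn tr0, ∀ y, trioOctInv (σ • y) = trioOctInv y := by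
  intro σ hσ y
  exact phiF_smul_single (mem_stabIn.mp hσ).2 y

theorem trioOct_hsep : ∀ i j, trioOctInv (trioOctRep i) = trioOctInv (trioOctRep j) → i = j := by
  intro i j h
  simp only [trioOctInv_rep] at h
  revert i j
  decide

theorem trioOct_lower (i : Fin 3) : (![3, 84, 672] : Fin 3 → ℕ) i ≤
    ({y | ∃ σ ∈ stabIn tr0, σ • trioOctRep i = y} : Set (Finset GolayPt)).ncard := by
  have htabs := tabs_stabTrio tr0_valid trioTabs_ok
  have h3 := (mask_orbit_cert (stabIn tr0) trioTabs htabs _ _ _ _ 3 0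
    (by rw [trioOct3_root]; norm_num) trioOct3_chk trioOct3_sorted).2
  have h84 := (mask_orbit_cert (stabIn tr0) trioTabs htabs _ _ _ _ 84 0
    (by rw [trioOct84_root]; norm_num) trioOct84_chk trioOct84_sorted).2
  have h672 := (mask_orbit_cert (stabIn tr0) trioTabs htabs _ _ _ _ 672 0
    (by rw [trioOct672_root]; norm_num) trioOct672_chk trioOct672_sorted).2
  rw [trioOct3_root] at h3
  rw [trioOct84_root] at h84
  rw [trioOct672_root] at h672
  fin_cases i
  · exact h3
  · exact h84
  · exact h672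

theorem trioOct_hsum : octads.ncard ≤ ∑ i, (![3, 84, 672] : Fin 3 → ℕ) i := by
  rw [ncard_octads]
  decide

/-- Orbits of the stabiliser of `γ • tr0` on `octads`. -/
theorem trioOct_partition {γ : Equiv.Perm GolayPt} (hγ : γ ∈ M24) :
    (∀ i, γ • trioOctRep i ∈ octads) ∧
    (∀ i, (MulAction.orbit ↥(MulAction.stabilizer M24 (γ • tr0)) (γ • trioOctRep i)).ncard =
      (![3, 84, 672] : Fin 3 → ℕ) i) ∧
    (∀ y, y ∈ octads ↔
      ∃ i, y ∈ MulAction.orbit ↥(MulAction.stabilizer M24 (γ • tr0)) (γ • trioOctRep i)) :=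
  mix_partition tr0 octads trioOctRep ![3, 84, 672] trioOctInv octads_smul_mem trioOctRep_mem
    trioOct_hinv trioOct_hsep trioOct_lower trioOct_hsum hγ

/-- Representatives of the orbits (sizes [7, 84, 336, 1344]). -/
noncomputable def trioSexRep : Fin 4 → Finset (Finset GolayPt) := ![sexObj 45, sexObj 15, sexObj 195, sexObj 23]

theorem trioSexRep_mem (i : Fin 4) : trioSexRep i ∈ sextets := by
  fin_cases i
  · exact mx45_mem
  · exact mx15_mem
  · exact mx195_mem
  · exact mx23_mem

/-- The separating invariant. -/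
noncomputable def trioSexInv : Finset (Finset GolayPt) → ℕ := phiF tr0

theorem trioSexInv_rep : ∀ i, trioSexInv (trioSexRep i) = (![96, 64, 48, 44] : Fin 4 → ℕ) i := by
  intro i
  fin_cases i
  · show phiF tr0 (sexObj 45) = 96
    rw [tr0, trioObj_eq_famL 132594499135424, sexObj_eq_famL mx45L_ok (by decide)]
    exact phiF_code (by decide +kernel) (isSexL_good mx45L_ok) (by decide +kernel)
  · show phiF tr0 (sexObj 15) = 64
    rw [tr0, trioObj_eq_famL 132594499135424, sexObj_eq_famL mx15L_ok (by decide)]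
    exact phiF_code (by decide +kernel) (isSexL_good mx15L_ok) (by decide +kernel)
  · show phiF tr0 (sexObj 195) = 48
    rw [tr0, trioObj_eq_famL 132594499135424, sexObj_eq_famL mx195L_ok (by decide)]
    exact phiF_code (by decide +kernel) (isSexL_good mx195L_ok) (by decide +kernel)
  · show phiF tr0 (sexObj 23) = 44
    rw [tr0, trioObj_eq_famL 132594499135424, sexObj_eq_famL mx23L_ok (by decide)]
    exact phiF_code (by decide +kernel) (isSexL_good mx23L_ok) (by decide +kernel)

theorem trioSex_hinv : ∀ σ ∈ stabIn tr0, ∀ y, trioSexInv (σ • y) = trioSexInv y := by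
  intro σ hσ y
  exact phiF_smul_right (mem_stabIn.mp hσ).2 y

theorem trioSex_hsep : ∀ i j, trioSexInv (trioSexRep i) = trioSexInv (trioSexRep j) → i = j := by
  intro i j h
  simp only [trioSexInv_rep] at h
  revert i j
  decide

theorem trioSex_lower (i : Fin 4) : (![7, 84, 336, 1344] : Fin 4 → ℕ) i ≤
    ({y | ∃ σ ∈ stabIn tr0, σ • trioSexRep i = y} : Set (Finset (Finset GolayPt))).ncard := by
  have htabs := tabs_stabTrio tr0_valid trioTabs_ok
  have h7 := sextet_orbit_cert (stabIn tr0) inf_le_left trioTabs htabs _ _ _ _ 7 0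
    (by rw [trioSex7_root]; exact ⟨by norm_num, by decide +kernel⟩) trioSex7_chk trioSex7_sorted
    trioSex7_canon
  have h84 := sextet_orbit_cert (stabIn tr0) inf_le_left trioTabs htabs _ _ _ _ 84 0
    (by rw [trioSex84_root]; exact ⟨by norm_num, by decide +kernel⟩) trioSex84_chk trioSex84_sorted
    trioSex84_canon
  have h336 := sextet_orbit_cert (stabIn tr0) inf_le_left trioTabs htabs _ _ _ _ 336 0
    (by rw [trioSex336_root]; exact ⟨by norm_num, by decide +kernel⟩) trioSex336_chk trioSex336_sorted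
    trioSex336_canon
  have h1344 := sextet_orbit_cert (stabIn tr0) inf_le_left trioTabs htabs _ _ _ _ 1344 0
    (by rw [trioSex1344_root]; exact ⟨by norm_num, by decide +kernel⟩) trioSex1344_chk trioSex1344_sorted
    trioSex1344_canon
  rw [trioSex7_root] at h7
  rw [trioSex84_root] at h84
  rw [trioSex336_root] at h336
  rw [trioSex1344_root] at h1344
  fin_cases i
  · exact h7
  · exact h84
  · exact h336
  · exact h1344

theorem trioSex_hsum : sextets.ncard ≤ ∑ i, (![7, 84, 336, 1344] : Fin 4 → ℕ) i := by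
  rw [Cfsg.Agent.S1550.result.2]
  decide

/-- Orbits of the stabiliser of `γ • tr0` on `sextets`. -/
theorem trioSex_partition {γ : Equiv.Perm GolayPt} (hγ : γ ∈ M24) :
    (∀ i, γ • trioSexRep i ∈ sextets) ∧
    (∀ i, (MulAction.orbit ↥(MulAction.stabilizer M24 (γ • tr0)) (γ • trioSexRep i)).ncard =
      (![7, 84, 336, 1344] : Fin 4 → ℕ) i) ∧
    (∀ y, y ∈ sextets ↔
      ∃ i, y ∈ MulAction.orbit ↥(MulAction.stabilizer M24 (γ • tr0)) (γ • trioSexRep i)) :=
  mix_partition tr0 sextets trioSexRep ![7, 84, 336, 1344] trioSexInv sextets_smul_mem trioSexRep_mem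
    trioSex_hinv trioSex_hsep trioSex_lower trioSex_hsum hγ

end Cfsg.Agent.Lib.Helper36
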