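import Cfsg.Agent.Lib.Helper36.M24SubData
import Cfsg.Agent.Lib.Helper36.M24Max
import Cfsg.Agent.Lib.Helper36.GolayComb

/-!
Stabilisers in `M24` of a pair and of a triad of points: suborbits and maximality.
-/

set_option autoImplicit false

namespace Cfsg.Agent.Lib.Helper36

open Cfsg Cfsg.Agent.Lib.Helper9
open scoped Pointwise

theorem ncard_card_eq (k : ℕ) :
    {s : Finset GolayPt | s.card = k}.ncard = (24 : ℕ).choose k := by
  have e : {s : Finset GolayPt | s.card = k} =
      ↑(Finset.powersetCard k (Finset.univ : Finset GolayPt)) := by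
    ext s
    simp
  rw [e, Set.ncard_coe_finset, Finset.card_powersetCard, Finset.card_univ, golay_card_pt]

theorem disjoint_smul_iff (g : Equiv.Perm GolayPt) (s t : Finset GolayPt) :
    Disjoint (g • s) (g • t) ↔ Disjoint s t := by
  rw [Finset.disjoint_iff_inter_eq_empty, Finset.disjoint_iff_inter_eq_empty,
    ← Finset.smul_finset_inter, Finset.smul_finset_eq_empty]

theorem exists_octad_smul_iff {g : Equiv.Perm GolayPt} (hg : g ∈ M24) (s : Finset GolayPt) :
    (∃ o ∈ octads, g • s ⊆ o) ↔ ∃ o ∈ octads, s ⊆ o := by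
  constructor
  · rintro ⟨o, ho, hs⟩
    exact ⟨g⁻¹ • o, smul_octad_mem (M24.inv_mem hg) ho, Finset.smul_finset_subset_iff.mp hs⟩
  · rintro ⟨o, ho, hs⟩
    exact ⟨g • o, smul_octad_mem hg ho, Finset.smul_finset_subset_smul_finset_iff.mpr hs⟩

/-! ### Pairs -/

/-- The standard pair `{∞, 0}`. -/
def s0 : Finset GolayPt := ms 8388609

theorem s0_card : s0.card = 2 := by rw [s0, card_ms]; decide +kernel

/-- `M24` is transitive on pairs of points. -/
theorem exists_smul_s0 {s : Finset GolayPt} (hs : s.card = 2) : ∃ σ ∈ M24, σ • s0 = s :=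
  orbit_class_of_cert M24 m24Tabs (tabs_M24 m24Tabs_ok) {s | s.card = 2} 276 8388609 _ _ _ _ 253
    pairAll_chk pairAll_sorted pairAll_root (by norm_num)
    (fun σ _ => by
      show (σ • ms 8388609).card = 2
      rw [Finset.card_smul_finset]; exact s0_card)
    (by rw [ncard_card_eq]; decide) s hs

theorem isCoatom_s0 : IsCoatom (MulAction.stabilizer M24 s0) := by
  have h1 := (mask_orbit_cert (stabMask 8388609) pairTabs (tabs_stabMask pairTabs_ok) _ _ _ _ 44 0
    (arr_lt _ _ _) pair1_chk pair1_sorted).2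
  have h0 := (mask_orbit_cert (stabMask 8388609) pairTabs (tabs_stabMask pairTabs_ok) _ _ _ _ 231 0
    (arr_lt _ _ _) pair0_chk pair0_sorted).2
  rw [pair1_root] at h1
  rw [pair0_root] at h0
  have v1 : (s0 ∩ ms 3).card = 1 := by rw [s0, ← ms_and, card_ms]; decide +kernel
  have v0 : (s0 ∩ ms 6).card = 0 := by rw [s0, ← ms_and, card_ms]; decide +kernel
  have hval : ∀ i : Fin 2, (s0 ∩ (![ms 3, ms 6] : Fin 2 → Finset GolayPt) i).card
      = (![1, 0] : Fin 2 → ℕ) i := by
    intro i
    fin_cases i
    · exact v1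
    · exact v0
  apply isCoatom_of_partition s0 ![ms 3, ms 6] ![44, 231] (fun U => (s0 ∩ U).card)
    {s | s.card = 2}
  · intro y
    constructor
    · intro hy
      exact exists_smul_s0 hy
    · rintro ⟨σ, -, rfl⟩
      show (σ • s0).card = 2
      rw [Finset.card_smul_finset]; exact s0_card
  · intro i
    fin_cases i
    · show (ms 3).card = 2
      rw [card_ms]; decide +kernel
    · show (ms 6).card = 2
      rw [card_ms]; decide +kernel
  · intro σ hσ y
    exact card_inter_smul (mem_stabIn.mp hσ).2 y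
  · intro i j h
    simp only [hval] at h
    revert i j
    decide
  · intro i
    simp only [hval, Finset.inter_self, s0_card]
    revert i
    decide
  · intro i
    fin_cases i
    · exact h1
    · exact h0
  · rw [ncard_card_eq]
    decide
  · norm_num
  · decide

/-- The stabiliser of a pair of points is a maximal subgroup of `M24`. -/
theorem isCoatom_pair {s : Finset GolayPt} (hs : s.card = 2) :
    IsCoatom (MulAction.stabilizer M24 s) := by
  obtain ⟨σ, hσ, rfl⟩ := exists_smul_s0 hs
  exact isCoatom_stabilizer_smul (⟨σ, hσ⟩ : M24) s0 isCoatom_s0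

/-! ### Triads -/

/-- The standard triad `{∞, 0, 1}`. -/
def t0 : Finset GolayPt := ms 8388611

theorem t0_card : t0.card = 3 := by rw [t0, card_ms]; decide +kernel

/-- `M24` is transitive on triads of points. -/
theorem exists_smul_t0 {s : Finset GolayPt} (hs : s.card = 3) : ∃ σ ∈ M24, σ • t0 = s :=
  orbit_class_of_cert M24 m24Tabs (tabs_M24 m24Tabs_ok) {s | s.card = 3} 2024 8388611 _ _ _ _ 1771
    triAll_chk triAll_sorted triAll_root (by norm_num)
    (fun σ _ => by
      show (σ • ms 8388611).card = 3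
      rw [Finset.card_smul_finset]; exact t0_card)
    (by rw [ncard_card_eq]; decide) s hs

open Classical in
/-- An invariant of triads under the stabiliser of the standard triad. -/
noncomputable def triInv (U : Finset GolayPt) : ℕ :=
  if (t0 ∩ U).card ≠ 0 then (t0 ∩ U).card
  else if ∃ o ∈ octads, t0 ∪ U ⊆ o then 4 else 5

theorem card_t0_inter_le (U : Finset GolayPt) : (t0 ∩ U).card ≤ 3 := by
  rw [← t0_card]; exact Finset.card_le_card Finset.inter_subset_left

theorem triInv_eq_four_iff (U : Finset GolayPt) :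
    triInv U = 4 ↔ Disjoint t0 U ∧ ∃ o ∈ octads, t0 ∪ U ⊆ o := by
  have hle := card_t0_inter_le U
  rw [Finset.disjoint_iff_inter_eq_empty, ← Finset.card_eq_zero]
  unfold triInv
  by_cases h0 : (t0 ∩ U).card = 0
  · by_cases hex : ∃ o ∈ octads, t0 ∪ U ⊆ o
    · simp [h0, hex]
    · simp [h0, hex]
  · rw [if_pos h0]
    constructor
    · intro h; omega
    · rintro ⟨h, -⟩; exact absurd h h0

theorem triInv_eq_five_iff (U : Finset GolayPt) :
    triInv U = 5 ↔ Disjoint t0 U ∧ ¬ ∃ o ∈ octads, t0 ∪ U ⊆ o := by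
  have hle := card_t0_inter_le U
  rw [Finset.disjoint_iff_inter_eq_empty, ← Finset.card_eq_zero]
  unfold triInv
  by_cases h0 : (t0 ∩ U).card = 0
  · by_cases hex : ∃ o ∈ octads, t0 ∪ U ⊆ o
    · simp [h0, hex]
    · simp [h0, hex]
  · rw [if_pos h0]
    constructor
    · intro h; omega
    · rintro ⟨h, -⟩; exact absurd h h0

theorem triInv_of_inter {U : Finset GolayPt} (h : (t0 ∩ U).card ≠ 0) :
    triInv U = (t0 ∩ U).card := by
  unfold triInv
  rw [if_pos h]

theorem triInv_smul {σ : Equiv.Perm GolayPt} (hσ : σ ∈ stabIn t0) (U : Finset GolayPt) :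
    triInv (σ • U) = triInv U := by
  rw [mem_stabIn] at hσ
  have h1 : (t0 ∩ σ • U).card = (t0 ∩ U).card := card_inter_smul hσ.2 U
  have h2 : (∃ o ∈ octads, t0 ∪ σ • U ⊆ o) ↔ ∃ o ∈ octads, t0 ∪ U ⊆ o := by
    rw [← exists_octad_smul_iff hσ.1 (t0 ∪ U), Finset.smul_finset_union, hσ.2]
  unfold triInv
  rw [h1]
  by_cases h0 : (t0 ∩ U).card = 0
  · have hn : ¬ ((t0 ∩ U).card ≠ 0) := not_not.mpr h0
    rw [if_neg hn, if_neg hn]
    by_cases hex : ∃ o ∈ octads, t0 ∪ U ⊆ o
    · rw [if_pos hex, if_pos (h2.mpr hex)]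
    · rw [if_neg hex, if_neg (fun h => hex (h2.mp h))]
  · rw [if_pos h0, if_pos h0]

/-- The four non-trivial suborbit representatives. -/
def triRep : Fin 4 → Finset GolayPt := ![ms 7, ms 13, ms 44, ms 28]

theorem triInv_rep : ∀ i, triInv (triRep i) = (![2, 1, 4, 5] : Fin 4 → ℕ) i := by
  have v2 : (t0 ∩ ms 7).card = 2 := by rw [t0, ← ms_and, card_ms]; decide +kernel
  have v1 : (t0 ∩ ms 13).card = 1 := by rw [t0, ← ms_and, card_ms]; decide +kernel
  have d44 : Disjoint t0 (ms 44) := by
    rw [Finset.disjoint_iff_inter_eq_empty, t0, ← ms_and]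
    exact ms_zero
  have d28 : Disjoint t0 (ms 28) := by
    rw [Finset.disjoint_iff_inter_eq_empty, t0, ← ms_and]
    exact ms_zero
  have hoct : ms 8536111 ∈ octads := ms_mem_octads (by decide +kernel) (by decide +kernel)
  intro i
  fin_cases i
  · show triInv (ms 7) = 2
    rw [triInv_of_inter (by rw [v2]; norm_num), v2]
  · show triInv (ms 13) = 1
    rw [triInv_of_inter (by rw [v1]; norm_num), v1]
  · show triInv (ms 44) = 4
    rw [triInv_eq_four_iff]
    refine ⟨d44, ms 8536111, hoct, ?_⟩
    rw [t0, ← ms_or]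
    have e : (8388611 ||| 44) &&& 8536111 = 8388611 ||| 44 := by decide +kernel
    rw [← e, ms_and]
    exact Finset.inter_subset_right
  · show triInv (ms 28) = 5
    rw [triInv_eq_five_iff]
    refine ⟨d28, ?_⟩
    rintro ⟨o, ho, hsub⟩
    rw [t0, ← ms_or] at hsub
    have h5 : 5 ≤ (o ∩ ms 8536111).card := by
      have e : ms ((8388611 ||| 28) &&& 8536111) ⊆ o ∩ ms 8536111 := by
        rw [ms_and]
        exact Finset.inter_subset_inter hsub (Finset.Subset.refl _)
      have := Finset.card_le_card e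
      rw [card_ms] at this
      have e2 : popc ((8388611 ||| 28) &&& 8536111) = 5 := by decide +kernel
      omega
    have heq := octad_eq_of_inter ho hoct h5
    rw [heq] at hsub
    have := Finset.card_le_card (Finset.subset_inter hsub (Finset.Subset.refl _))
    rw [← ms_and, card_ms, card_ms] at this
    have e3 : popc (8536111 &&& (8388611 ||| 28)) = 5 := by decide +kernel
    have e4 : popc (8388611 ||| 28) = 6 := by decide +kernel
    omega

theorem triRep_card (i : Fin 4) : (triRep i).card = 3 := by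
  fin_cases i
  · show (ms 7).card = 3
    rw [card_ms]; decide +kernel
  · show (ms 13).card = 3
    rw [card_ms]; decide +kernel
  · show (ms 44).card = 3
    rw [card_ms]; decide +kernel
  · show (ms 28).card = 3
    rw [card_ms]; decide +kernel

theorem triInv_t0 : triInv t0 = 3 := by
  rw [triInv_of_inter (by rw [Finset.inter_self, t0_card]; norm_num), Finset.inter_self, t0_card]

theorem tri_lower (i : Fin 4) : (![63, 630, 210, 1120] : Fin 4 → ℕ) i ≤
    ({y | ∃ σ ∈ stabIn t0, σ • triRep i = y} : Set (Finset GolayPt)).ncard := by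
  have h2 := (mask_orbit_cert (stabMask 8388611) triTabs (tabs_stabMask triTabs_ok) _ _ _ _ 63 0
    (arr_lt _ _ _) tri2_chk tri2_sorted).2
  have h1 := (mask_orbit_cert (stabMask 8388611) triTabs (tabs_stabMask triTabs_ok) _ _ _ _ 630 0
    (arr_lt _ _ _) tri1_chk tri1_sorted).2
  have hI := (mask_orbit_cert (stabMask 8388611) triTabs (tabs_stabMask triTabs_ok) _ _ _ _ 210 0
    (arr_lt _ _ _) triIn_chk triIn_sorted).2
  have hO := (mask_orbit_cert (stabMask 8388611) triTabs (tabs_stabMask triTabs_ok) _ _ _ _ 1120 0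
    (arr_lt _ _ _) triOut_chk triOut_sorted).2
  rw [tri2_root] at h2
  rw [tri1_root] at h1
  rw [triIn_root] at hI
  rw [triOut_root] at hO
  fin_cases i
  · exact h2
  · exact h1
  · exact hI
  · exact hO

theorem tri_hA (y : Finset GolayPt) : y ∈ {s : Finset GolayPt | s.card = 3} ↔ ∃ σ ∈ M24, σ • t0 = y := by
  constructor
  · intro hy
    exact exists_smul_t0 hy
  · rintro ⟨σ, -, rfl⟩
    show (σ • t0).card = 3
    rw [Finset.card_smul_finset]; exact t0_card

theorem tri_hsep : ∀ i j, triInv (triRep i) = triInv (triRep j) → i = j := by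
  intro i j h
  simp only [triInv_rep] at h
  revert i j
  decide

theorem tri_hinva : ∀ i, triInv (triRep i) ≠ triInv t0 := by
  intro i
  simp only [triInv_rep, triInv_t0]
  revert i
  decide

theorem tri_hsum : {s : Finset GolayPt | s.card = 3}.ncard ≤ 1 + ∑ i, (![63, 630, 210, 1120] : Fin 4 → ℕ) i := by
  rw [ncard_card_eq]
  decide

/-- The suborbit structure of the stabiliser of the standard triad. -/
theorem tri_partition :
    (∀ i, ({y | ∃ σ ∈ stabIn t0, σ • triRep i = y} : Set (Finset GolayPt)).ncard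
      = (![63, 630, 210, 1120] : Fin 4 → ℕ) i) ∧
    (∀ y ∈ {s : Finset GolayPt | s.card = 3},
      y = t0 ∨ ∃ i, ∃ σ ∈ stabIn t0, σ • triRep i = y) ∧
    (∀ y ∈ {s : Finset GolayPt | s.card = 3}, ∀ i, triInv y = triInv (triRep i) →
      ∃ σ ∈ stabIn t0, σ • triRep i = y) :=
  stab_partition t0 triRep ![63, 630, 210, 1120] triInv {s | s.card = 3} tri_hA triRep_card
    (fun σ hσ y => triInv_smul hσ y) tri_hsep tri_hinva tri_lower tri_hsum

theorem isCoatom_t0 : IsCoatom (MulAction.stabilizer M24 t0) :=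
  isCoatom_of_partition t0 triRep ![63, 630, 210, 1120] triInv {s | s.card = 3} tri_hA triRep_card
    (fun σ hσ y => triInv_smul hσ y) tri_hsep tri_hinva tri_lower tri_hsum (by norm_num)
    (by decide)

/-- The stabiliser of a triad of points is a maximal subgroup of `M24`. -/
theorem isCoatom_triad {s : Finset GolayPt} (hs : s.card = 3) :
    IsCoatom (MulAction.stabilizer M24 s) := by
  obtain ⟨σ, hσ, rfl⟩ := exists_smul_t0 hs
  exact isCoatom_stabilizer_smul (⟨σ, hσ⟩ : M24) t0 isCoatom_t0

end Cfsg.Agent.Lib.Helper36
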