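import Mathlib
import Cfsg.Agent.Lib.Helper36.ReeData
import Cfsg.Agent.Lib.Helper23.Sharp3c

/-!
The derived subgroup of `²G₂(3)` (as defined in `Def_LieTwisted`, inside the adjoint group of
type `G₂` over `ZMod 3`) has order `504` and is isomorphic to `PSL₂(8)`.

The derived subgroup is generated by two commutators of generators; its `504` elements are listed
explicitly, it permutes nine matrices by conjugation, sharply triply transitively, and
helper23's recognition theorem for sharply triply transitive groups of odd degree applies.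
-/

set_option autoImplicit false

namespace Cfsg.Agent.Lib.Helper36

open Cfsg.Lie Matrix
open scoped commutatorElement

/-- The ambient general linear group. -/
abbrev ReeGL : Type := GL G2Idx (ZMod 3)

/-- The matrices of the ambient group. -/
abbrev ReeMat : Type := Matrix G2Idx G2Idx (ZMod 3)

/-- `²G₂(3)`. -/
abbrev reeGrp : Subgroup ReeGL := twistedG2 (ZMod 3) 1

/-! ### The generators -/

theorem ree_x_eq (r : ℕ) (c : ZMod 3) : chevG2.x (ZMod 3) r c = toMat3 (reeXc r c.val) := by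
  unfold ChevalleyDatum.x
  by_cases h : r < 12
  · have h' : r < chevG2.nroots := h
    rw [dif_pos h']
    ext row col
    have hc := xMat_eq_castZ chevG2 (ZMod 3) ⟨r, h'⟩ (c.val : ℤ) row col
    rw [Int.cast_natCast, ZMod.natCast_zmod_val] at hc
    rw [hc]
    have hk := ree_x_chk ⟨r, h'⟩ c row col
    show _ = tz _ _
    rw [tz_eq_cast]
    symm
    rw [ZMod.intCast_eq_intCast_iff_dvd_sub]
    exact Int.dvd_of_emod_eq_zero hk
  · have h' : ¬ r < chevG2.nroots := h
    rw [dif_neg h']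
    have : reeXc r c.val = reeId := by simp [reeXc, h]
    rw [this]
    exact (toMat3_one ree_id).symm

theorem ree_wordMat (w : List (ℕ × ZMod 3)) :
    chevG2.wordMat (ZMod 3) w = ((w.map fun p => reeXc p.1 p.2.val).map toMat3).prod := by
  unfold ChevalleyDatum.wordMat
  rw [List.map_map]
  congr 1
  apply List.map_congr_left
  intro p _
  exact ree_x_eq p.1 p.2

theorem ree_word_chk (t u v : ZMod 3) :
    wordOK ((reeWordU 1 t u v).map fun p => reeXc p.1 p.2.val)
        (reeGen (9 * t.val + 3 * u.val + v.val)) = true ∧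
      wordOK ((reeWordV 1 t u v).map fun p => reeXc p.1 p.2.val)
        (reeGen (27 + (9 * t.val + 3 * u.val + v.val))) = true := by
  have h := b2All_iff.mp (b2All_iff.mp (b2All_iff.mp ree_words t.val (ZMod.val_lt t)) u.val
    (ZMod.val_lt u)) v.val (ZMod.val_lt v)
  rw [Bool.and_eq_true] at h
  simp only [ZMod.natCast_zmod_val] at h
  exact h

theorem ree_word_U (t u v : ZMod 3) : chevG2.wordMat (ZMod 3) (reeWordU 1 t u v) =
    toMat3 (reeGen (9 * t.val + 3 * u.val + v.val)) := by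
  rw [ree_wordMat]
  exact word_eq (ree_word_chk t u v).1

theorem ree_word_V (t u v : ZMod 3) : chevG2.wordMat (ZMod 3) (reeWordV 1 t u v) =
    toMat3 (reeGen (27 + (9 * t.val + 3 * u.val + v.val))) := by
  rw [ree_wordMat]
  exact word_eq (ree_word_chk t u v).2

/-- Every generator of `²G₂(3)` has one of the `54` codes. -/
theorem ree_gen_cases (g : ReeGL)
    (hg : ∃ w ∈ g2Words (ZMod 3) 1, (g : ReeMat) = chevG2.wordMat (ZMod 3) w) :
    ∃ k < 54, (g : ReeMat) = toMat3 (reeGen k) := by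
  obtain ⟨w, ⟨t, u, v, rfl | rfl⟩, hw⟩ := hg
  · refine ⟨9 * t.val + 3 * u.val + v.val, ?_, by rw [hw, ree_word_U]⟩
    have := ZMod.val_lt t; have := ZMod.val_lt u; have := ZMod.val_lt v
    omega
  · refine ⟨27 + (9 * t.val + 3 * u.val + v.val), ?_, by rw [hw, ree_word_V]⟩
    have := ZMod.val_lt t; have := ZMod.val_lt u; have := ZMod.val_lt v
    omega

theorem ree_id_eq : toMat3 reeId = (1 : ReeMat) := toMat3_one ree_id

theorem ree_ginv_spec {k : ℕ} (hk : k < 54) : reeGinv k < 54 ∧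
    toMat3 (reeGen k) * toMat3 (reeGen (reeGinv k)) = (1 : ReeMat) ∧
    toMat3 (reeGen (reeGinv k)) * toMat3 (reeGen k) = (1 : ReeMat) := by
  have h := b2All_iff.mp ree_ginv k hk
  simp only [Bool.and_eq_true, decide_eq_true_eq] at h
  exact ⟨h.1.1, by rw [toMat3_mul h.1.2, ree_id_eq], by rw [toMat3_mul h.2, ree_id_eq]⟩

/-- The generator with code number `k` as an element of the general linear group. -/
noncomputable def reeG (k : ℕ) : ReeGL :=
  if h : k < 54 then
    ⟨toMat3 (reeGen k), toMat3 (reeGen (reeGinv k)), (ree_ginv_spec h).2.1, (ree_ginv_spec h).2.2⟩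
  else 1

theorem reeG_val {k : ℕ} (hk : k < 54) : ((reeG k : ReeGL) : ReeMat) = toMat3 (reeGen k) := by
  rw [reeG, dif_pos hk]

theorem reeG_mem {k : ℕ} (hk : k < 54) : reeG k ∈ reeGrp := by
  apply Subgroup.subset_closure
  have h3 : ∀ n : ℕ, ((n : ZMod 3)).val = n % 3 := fun n => ZMod.val_natCast (n := 3) n
  by_cases h : k < 27
  · refine ⟨reeWordU 1 ((k / 9 : ℕ) : ZMod 3) ((k / 3 % 3 : ℕ) : ZMod 3) ((k % 3 : ℕ) : ZMod 3),
      ⟨_, _, _, Or.inl rfl⟩, ?_⟩
    rw [reeG_val hk, ree_word_U, h3, h3, h3]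
    congr 2
    omega
  · refine ⟨reeWordV 1 (((k - 27) / 9 : ℕ) : ZMod 3) (((k - 27) / 3 % 3 : ℕ) : ZMod 3)
      (((k - 27) % 3 : ℕ) : ZMod 3), ⟨_, _, _, Or.inr rfl⟩, ?_⟩
    rw [reeG_val hk, ree_word_V, h3, h3, h3]
    congr 2
    omega

/-! ### The two commutators and the list of `504` elements -/

/-- The two commutators generating the derived subgroup. -/
noncomputable def reeN (a : ℕ) : ReeGL :=
  if a = 0 then ⁅reeG 14, reeG 42⁆ else ⁅reeG 21, reeG 32⁆

theorem comm_val_aux (x y : ReeGL) (C : ReeMat)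
    (h : C * ((y : ReeMat) * ((x : ReeMat) * 1)) = (x : ReeMat) * ((y : ReeMat) * 1)) :
    ((⁅x, y⁆ : ReeGL) : ReeMat) = C := by
  have h1 : ⁅x, y⁆ * (y * x) = x * y := by
    rw [commutatorElement_def]; group
  have h2 : ((⁅x, y⁆ : ReeGL) : ReeMat) * ((y * x : ReeGL) : ReeMat) = C * ((y * x : ReeGL) : ReeMat) := by
    rw [← Units.val_mul, h1, Units.val_mul, Units.val_mul]
    rw [mul_one, mul_one] at h
    exact h.symm
  exact (Units.mul_left_inj (y * x)).mp h2

theorem reeN_val {a : ℕ} (ha : a < 2) : ((reeN a : ReeGL) : ReeMat) = toMat3 (reeNc a) := by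
  have h0 := word_eq_word ree_comm0
  have h1 := word_eq_word ree_comm1
  simp only [List.map_cons, List.map_nil, List.prod_cons, List.prod_nil] at h0 h1
  rcases (by omega : a = 0 ∨ a = 1) with rfl | rfl
  · rw [reeN, if_pos rfl]
    apply comm_val_aux
    rw [reeG_val (k := 14) (by norm_num), reeG_val (k := 42) (by norm_num)]
    exact h0
  · rw [reeN, if_neg (by norm_num)]
    apply comm_val_aux
    rw [reeG_val (k := 21) (by norm_num), reeG_val (k := 32) (by norm_num)]
    exact h1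

/-- The subgroup generated by the two commutators. -/
noncomputable def reeN0 : Subgroup ReeGL := Subgroup.closure {reeN 0, reeN 1}

theorem reeN_mem {a : ℕ} (ha : a < 2) : reeN a ∈ reeN0 := by
  apply Subgroup.subset_closure
  rcases (by omega : a = 0 ∨ a = 1) with rfl | rfl
  · exact Set.mem_insert _ _
  · exact Set.mem_insert_of_mem _ rfl

theorem ree_mats_zero_eq : toMat3 (reeMats 0) = (1 : ReeMat) := by
  rw [ree_mats_zero]; exact ree_id_eq

theorem ree_nc_mul {a k : ℕ} (ha : a < 2) (hk : k < 504) : reeNxt (2 * k + a) < 504 ∧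
    toMat3 (reeNc a) * toMat3 (reeMats k) = toMat3 (reeMats (reeNxt (2 * k + a))) := by
  have h := b2All_iff.mp (b2All_iff.mp ree_clos k hk) a ha
  rw [Bool.and_eq_true, decide_eq_true_eq] at h
  exact ⟨h.1, toMat3_mul h.2⟩

theorem ree_nc_inv_mul {a k : ℕ} (ha : a < 2) (hk : k < 504) : reePre (2 * k + a) < 504 ∧
    ((reeN a)⁻¹ : ReeGL) * toMat3 (reeMats k) = toMat3 (reeMats (reePre (2 * k + a))) := by
  have h := b2All_iff.mp (b2All_iff.mp ree_pre k hk) a ha
  rw [Bool.and_eq_true, decide_eq_true_eq, beq_iff_eq] at h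
  refine ⟨h.1, ?_⟩
  have h1 := (ree_nc_mul ha h.1).2
  rw [h.2] at h1
  rw [← h1, ← reeN_val ha, Units.inv_mul_cancel_left]

/-- Every element of the subgroup is one of the `504` listed matrices. -/
theorem ree_mem_list (g : ReeGL) (hg : g ∈ reeN0) :
    ∃ k < 504, (g : ReeMat) = toMat3 (reeMats k) := by
  have key : (∀ k < 504, ∃ k' < 504, (g : ReeMat) * toMat3 (reeMats k) = toMat3 (reeMats k')) ∧
      (∀ k < 504, ∃ k' < 504,
        ((g⁻¹ : ReeGL) : ReeMat) * toMat3 (reeMats k) = toMat3 (reeMats k')) := by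
    unfold reeN0 at hg
    induction hg using Subgroup.closure_induction with
    | mem x hx =>
      have hx' : ∃ a < 2, x = reeN a := by
        rcases hx with rfl | hx
        · exact ⟨0, by norm_num, rfl⟩
        · exact ⟨1, by norm_num, hx⟩
      obtain ⟨a, ha, rfl⟩ := hx'
      refine ⟨fun k hk => ⟨_, (ree_nc_mul ha hk).1, ?_⟩, fun k hk =>
        ⟨_, (ree_nc_inv_mul ha hk).1, (ree_nc_inv_mul ha hk).2⟩⟩
      rw [reeN_val ha]
      exact (ree_nc_mul ha hk).2
    | one =>
      refine ⟨fun k hk => ⟨k, hk, ?_⟩, fun k hk => ⟨k, hk, ?_⟩⟩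
      · rw [Units.val_one, one_mul]
      · rw [inv_one, Units.val_one, one_mul]
    | mul x y _ _ hx hy =>
      refine ⟨fun k hk => ?_, fun k hk => ?_⟩
      · obtain ⟨k1, hk1, e1⟩ := hy.1 k hk
        obtain ⟨k2, hk2, e2⟩ := hx.1 k1 hk1
        exact ⟨k2, hk2, by rw [Units.val_mul, mul_assoc, e1, e2]⟩
      · obtain ⟨k1, hk1, e1⟩ := hx.2 k hk
        obtain ⟨k2, hk2, e2⟩ := hy.2 k1 hk1
        exact ⟨k2, hk2, by rw [_root_.mul_inv_rev, Units.val_mul, mul_assoc, e1, e2]⟩
    | inv x _ hx =>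
      exact ⟨hx.2, by rw [inv_inv]; exact hx.1⟩
  obtain ⟨k', hk', e⟩ := key.1 0 (by norm_num)
  rw [ree_mats_zero_eq, mul_one] at e
  exact ⟨k', hk', e⟩

theorem ree_tree_spec {k : ℕ} (hk : k < 504) (hk0 : k ≠ 0) :
    reePar k < k ∧ reeGi k < 2 ∧ reeNxt (2 * reePar k + reeGi k) = k := by
  have h := b2All_iff.mp ree_tree k hk
  rw [Bool.or_eq_true, beq_iff_eq, Bool.and_eq_true, decide_eq_true_eq, beq_iff_eq] at h
  rcases h with h | h
  · exact absurd h hk0
  · refine ⟨h.1, ?_, h.2⟩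
    have : reeGi k = reeGiN / 2 ^ (1 * k) % 2 ^ 1 := rfl
    omega

/-! ### The action on nine matrices -/

/-- The nine matrices. -/
def reeEm (i : Fin 9) : ReeMat := toMat3 (reeE i.val)

theorem reeEm_injective : Function.Injective reeEm := by
  intro i j h
  have h2 := b2All_iff.mp (b2All_iff.mp ree_E_inj i.val i.isLt) j.val j.isLt
  rw [Bool.or_eq_true, beq_iff_eq, Bool.not_eq_true'] at h2
  rcases h2 with h2 | h2
  · exact Fin.ext h2
  · exfalso
    have h3 : b2All (fun r => b2All (fun c =>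
        tzAt (rowOf3 (reeE i.val) r) c == tzAt (rowOf3 (reeE j.val) r) c) 14) 14 = true := by
      rw [b2All_iff]
      intro r hr
      rw [b2All_iff]
      intro c hc
      rw [beq_iff_eq]
      exact toMat3_entry h hr hc
    rw [h3] at h2
    exact Bool.noConfusion h2

theorem ree_act_gen {a : ℕ} (ha : a < 2) (i : Fin 9) :
    ∃ j : Fin 9, j.val = reeSp a i.val ∧
      ((reeN a : ReeGL) : ReeMat) * reeEm i = reeEm j * ((reeN a : ReeGL) : ReeMat) := by
  have h := b2All_iff.mp (b2All_iff.mp ree_E_act a ha) i.val i.isLt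
  rw [Bool.and_eq_true, decide_eq_true_eq] at h
  have h1 := word_eq_word h.2
  simp only [List.map_cons, List.map_nil, List.prod_cons, List.prod_nil, mul_one] at h1
  exact ⟨⟨_, h.1⟩, rfl, by rw [reeN_val ha]; exact h1⟩

theorem ree_act_gen_inv {a : ℕ} (ha : a < 2) (i : Fin 9) :
    ∃ j : Fin 9, (((reeN a)⁻¹ : ReeGL) : ReeMat) * reeEm i =
      reeEm j * (((reeN a)⁻¹ : ReeGL) : ReeMat) := by
  have h := b2All_iff.mp (b2All_iff.mp ree_S_inv a ha) i.val i.isLt
  rw [Bool.and_eq_true, decide_eq_true_eq, beq_iff_eq] at h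
  obtain ⟨j, hj, e⟩ := ree_act_gen ha ⟨_, h.1⟩
  have hji : j = i := Fin.ext (by rw [hj]; exact h.2)
  rw [hji] at e
  refine ⟨⟨_, h.1⟩, ?_⟩
  have e2 : reeEm i = ((reeN a : ReeGL) : ReeMat) * reeEm ⟨_, h.1⟩ *
      (((reeN a)⁻¹ : ReeGL) : ReeMat) := by
    rw [e, mul_assoc, Units.mul_inv, mul_one]
  conv_lhs => rw [e2]
  rw [← mul_assoc, ← mul_assoc, Units.inv_mul, one_mul]

theorem ree_exists_act (g : ReeGL) (hg : g ∈ reeN0) :
    (∀ i : Fin 9, ∃ j : Fin 9, (g : ReeMat) * reeEm i = reeEm j * (g : ReeMat)) ∧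
    (∀ i : Fin 9, ∃ j : Fin 9,
      ((g⁻¹ : ReeGL) : ReeMat) * reeEm i = reeEm j * ((g⁻¹ : ReeGL) : ReeMat)) := by
  unfold reeN0 at hg
  induction hg using Subgroup.closure_induction with
  | mem x hx =>
    have hx' : ∃ a < 2, x = reeN a := by
      rcases hx with rfl | hx
      · exact ⟨0, by norm_num, rfl⟩
      · exact ⟨1, by norm_num, hx⟩
    obtain ⟨a, ha, rfl⟩ := hx'
    refine ⟨fun i => ?_, fun i => ree_act_gen_inv ha i⟩
    obtain ⟨j, -, e⟩ := ree_act_gen ha i
    exact ⟨j, e⟩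
  | one =>
    refine ⟨fun i => ⟨i, ?_⟩, fun i => ⟨i, ?_⟩⟩
    · rw [Units.val_one, one_mul, mul_one]
    · rw [inv_one, Units.val_one, one_mul, mul_one]
  | mul x y _ _ hx hy =>
    refine ⟨fun i => ?_, fun i => ?_⟩
    · obtain ⟨j, e1⟩ := hy.1 i
      obtain ⟨l, e2⟩ := hx.1 j
      exact ⟨l, by rw [Units.val_mul, mul_assoc, e1, ← mul_assoc, e2, mul_assoc]⟩
    · obtain ⟨j, e1⟩ := hx.2 i
      obtain ⟨l, e2⟩ := hy.2 j
      exact ⟨l, by rw [_root_.mul_inv_rev, Units.val_mul, mul_assoc, e1, ← mul_assoc, e2, mul_assoc]⟩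
  | inv x _ hx =>
    exact ⟨hx.2, by rw [inv_inv]; exact hx.1⟩

/-- The action of an element of the subgroup on the indices of the nine matrices. -/
noncomputable def reeF (g : ↥reeN0) (i : Fin 9) : Fin 9 :=
  Classical.choose ((ree_exists_act g.1 g.2).1 i)

theorem reeF_spec (g : ↥reeN0) (i : Fin 9) :
    ((g : ReeGL) : ReeMat) * reeEm i = reeEm (reeF g i) * ((g : ReeGL) : ReeMat) :=
  Classical.choose_spec ((ree_exists_act g.1 g.2).1 i)

theorem reeF_unique (g : ↥reeN0) (i j : Fin 9)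
    (h : ((g : ReeGL) : ReeMat) * reeEm i = reeEm j * ((g : ReeGL) : ReeMat)) : reeF g i = j := by
  apply reeEm_injective
  have h1 := (reeF_spec g i).symm.trans h
  exact (Units.mul_left_inj (g : ReeGL)).mp h1

theorem reeF_mul (g h : ↥reeN0) (i : Fin 9) : reeF (g * h) i = reeF g (reeF h i) := by
  apply reeF_unique
  rw [Subgroup.coe_mul, Units.val_mul, mul_assoc, reeF_spec h i, ← mul_assoc, reeF_spec g,
    mul_assoc]

theorem reeF_one (i : Fin 9) : reeF 1 i = i := by
  apply reeF_unique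
  rw [Subgroup.coe_one, Units.val_one, one_mul, mul_one]

/-- The permutation representation on the nine matrices. -/
noncomputable def reeRep : ↥reeN0 →* Equiv.Perm (Fin 9) where
  toFun g :=
    { toFun := reeF g
      invFun := reeF g⁻¹
      left_inv := fun i => by rw [← reeF_mul, inv_mul_cancel, reeF_one]
      right_inv := fun i => by rw [← reeF_mul, mul_inv_cancel, reeF_one] }
  map_one' := Equiv.ext fun i => reeF_one i
  map_mul' g h := Equiv.ext fun i => reeF_mul g h i

/-- The action on `Fin 9`. -/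
@[reducible] noncomputable def reeAct : MulAction ↥reeN0 (Fin 9) := MulAction.compHom (Fin 9) reeRep

theorem ree_pi_lt : ∀ k < 504, ∀ i < 9, reePi k i < 9 := by
  intro k
  induction k using Nat.strong_induction_on with
  | _ k ih =>
    intro hk i hi
    by_cases hk0 : k = 0
    · subst hk0
      have h := b2All_iff.mp ree_pi_zero i hi
      rw [beq_iff_eq] at h
      rw [h]; exact hi
    · obtain ⟨hp, hg, -⟩ := ree_tree_spec hk hk0
      have h := b2All_iff.mp ree_pi_tree k hk
      rw [Bool.or_eq_true, beq_iff_eq] at h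
      rcases h with h | h
      · exact absurd h hk0
      · have h1 := b2All_iff.mp h i hi
        rw [beq_iff_eq] at h1
        rw [h1]
        have h2 := ih (reePar k) hp (by omega) i hi
        have h3 := b2All_iff.mp (b2All_iff.mp ree_E_act (reeGi k) hg) _ h2
        rw [Bool.and_eq_true, decide_eq_true_eq] at h3
        exact h3.1

/-- Every listed matrix belongs to the subgroup and acts by the tabulated permutation. -/
theorem ree_list_perm : ∀ k < 504, ∃ g : ↥reeN0,
    ((g : ReeGL) : ReeMat) = toMat3 (reeMats k) ∧ ∀ i : Fin 9, (reeF g i).val = reePi k i.val := by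
  intro k
  induction k using Nat.strong_induction_on with
  | _ k ih =>
    intro hk
    by_cases hk0 : k = 0
    · subst hk0
      refine ⟨1, ?_, fun i => ?_⟩
      · rw [Subgroup.coe_one, Units.val_one, ree_mats_zero_eq]
      · rw [reeF_one]
        have h := b2All_iff.mp ree_pi_zero i.val i.isLt
        rw [beq_iff_eq] at h
        exact h.symm
    · obtain ⟨hp, hg, hn⟩ := ree_tree_spec hk hk0
      obtain ⟨g, hgm, hgf⟩ := ih (reePar k) hp (by omega)
      refine ⟨⟨reeN (reeGi k), reeN_mem hg⟩ * g, ?_, fun i => ?_⟩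
      · rw [Subgroup.coe_mul, Units.val_mul, hgm, reeN_val hg,
          (ree_nc_mul hg (by omega : reePar k < 504)).2, hn]
      · rw [reeF_mul]
        obtain ⟨j, hj, e⟩ := ree_act_gen hg (reeF g i)
        have h1 : reeF ⟨reeN (reeGi k), reeN_mem hg⟩ (reeF g i) = j := reeF_unique _ _ _ e
        rw [h1, hj, hgf]
        have h := b2All_iff.mp ree_pi_tree k hk
        rw [Bool.or_eq_true, beq_iff_eq] at h
        rcases h with h | h
        · exact absurd h hk0
        · have h2 := b2All_iff.mp h i.val i.isLt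
          rw [beq_iff_eq] at h2
          exact h2.symm

theorem ree_eq_of_val {g h : ↥reeN0} (e : ((g : ReeGL) : ReeMat) = ((h : ReeGL) : ReeMat)) :
    g = h := Subtype.ext (Units.ext e)

theorem ree_T_inj {k k' : ℕ} (hk : k < 504) (hk' : k' < 504)
    (h : ∀ i < 3, reePi k i = reePi k' i) : k = k' := by
  have h1 := b2All_iff.mp ree_T_inv k hk
  have h2 := b2All_iff.mp ree_T_inv k' hk'
  rw [beq_iff_eq] at h1 h2
  rw [← h1, ← h2, h 0 (by norm_num), h 1 (by norm_num), h 2 (by norm_num)]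

/-- The subgroup has order `504`. -/
theorem ree_card_N0 : Nat.card ↥reeN0 = 504 := by
  classical
  let f : Fin 504 → ↥reeN0 := fun k => Classical.choose (ree_list_perm k.val k.isLt)
  have hf : ∀ k : Fin 504, ((f k : ReeGL) : ReeMat) = toMat3 (reeMats k.val) ∧
      ∀ i : Fin 9, (reeF (f k) i).val = reePi k.val i.val :=
    fun k => Classical.choose_spec (ree_list_perm k.val k.isLt)
  have hinj : Function.Injective f := by
    intro k k' hkk
    apply Fin.ext
    apply ree_T_inj k.isLt k'.isLt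
    intro i hi
    have h1 := (hf k).2 ⟨i, by omega⟩
    have h2 := (hf k').2 ⟨i, by omega⟩
    rw [hkk] at h1
    exact h1.symm.trans h2
  have hsurj : Function.Surjective f := by
    intro g
    obtain ⟨k, hk, e⟩ := ree_mem_list g.1 g.2
    exact ⟨⟨k, hk⟩, ree_eq_of_val ((hf ⟨k, hk⟩).1.trans e.symm)⟩
  rw [← Nat.card_congr (Equiv.ofBijective f ⟨hinj, hsurj⟩), Nat.card_fin]

attribute [local instance] reeAct

theorem reeAct_smul (g : ↥reeN0) (i : Fin 9) : g • i = reeF g i := rfl

theorem ree_sharp3 : Cfsg.Agent.Lib.Helper23.Sharp3 ↥reeN0 (Fin 9) := by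
  have hT : ∀ a b c : Fin 9, a ≠ b → a ≠ c → b ≠ c → ∃ g : ↥reeN0,
      reeF g 0 = a ∧ reeF g 1 = b ∧ reeF g 2 = c := by
    intro a b c hab hac hbc
    have h := b2All_iff.mp (b2All_iff.mp (b2All_iff.mp ree_T a.val a.isLt) b.val b.isLt) c.val
      c.isLt
    simp only [Bool.or_eq_true, beq_iff_eq, Bool.and_eq_true, decide_eq_true_eq] at h
    rcases h with ((h | h) | h) | h
    · exact absurd (Fin.ext h) hab
    · exact absurd (Fin.ext h) hac
    · exact absurd (Fin.ext h) hbc
    · obtain ⟨g, -, hg⟩ := ree_list_perm _ h.1.1.1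
      refine ⟨g, Fin.ext ?_, Fin.ext ?_, Fin.ext ?_⟩
      · rw [hg]; exact h.1.1.2
      · rw [hg]; exact h.1.2
      · rw [hg]; exact h.2
  have hinv : ∀ (g : ↥reeN0) (i j : Fin 9), reeF g i = j → reeF g⁻¹ j = i := by
    intro g i j h
    rw [← h, ← reeF_mul, inv_mul_cancel, reeF_one]
  constructor
  · intro a b c a' b' c' hab hac hbc hab' hac' hbc'
    obtain ⟨g1, h1a, h1b, h1c⟩ := hT a b c hab hac hbc
    obtain ⟨g2, h2a, h2b, h2c⟩ := hT a' b' c' hab' hac' hbc'
    refine ⟨g2 * g1⁻¹, ?_, ?_, ?_⟩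
    · rw [reeAct_smul, reeF_mul, hinv g1 _ _ h1a, h2a]
    · rw [reeAct_smul, reeF_mul, hinv g1 _ _ h1b, h2b]
    · rw [reeAct_smul, reeF_mul, hinv g1 _ _ h1c, h2c]
  · intro g a b c hab hac hbc ha hb hc
    rw [reeAct_smul] at ha hb hc
    obtain ⟨k, hk, e⟩ := ree_mem_list g.1 g.2
    obtain ⟨g', hg'm, hg'f⟩ := ree_list_perm k hk
    have hgg : g = g' := ree_eq_of_val (e.trans hg'm.symm)
    have hk0 : k = 0 := by
      have h := b2All_iff.mp ree_sharp k hk
      rw [Bool.or_eq_true, beq_iff_eq] at h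
      rcases h with h | h
      · exact h
      · exfalso
        have h1 := b2All_iff.mp (b2All_iff.mp (b2All_iff.mp h a.val a.isLt) b.val b.isLt) c.val
          c.isLt
        simp only [Bool.or_eq_true, beq_iff_eq, Bool.not_eq_true', Bool.and_eq_false_iff,
          beq_eq_false_iff_ne] at h1
        have fa : reePi k a.val = a.val := by rw [← hg'f, ← hgg, ha]
        have fb : reePi k b.val = b.val := by rw [← hg'f, ← hgg, hb]
        have fc : reePi k c.val = c.val := by rw [← hg'f, ← hgg, hc]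
        rcases h1 with ((h1 | h1) | h1) | h1
        · exact hab (Fin.ext h1)
        · exact hac (Fin.ext h1)
        · exact hbc (Fin.ext h1)
        · rcases h1 with (h1 | h1) | h1
          · exact h1 fa
          · exact h1 fb
          · exact h1 fc
    subst hk0
    apply ree_eq_of_val
    rw [e, ree_mats_zero_eq, Subgroup.coe_one, Units.val_one]

/-- The subgroup generated by the two commutators is isomorphic to `PSL₂(8)`. -/
theorem ree_N0_iso {L : Type*} [Field L] [Fintype L] (hL : Fintype.card L = 8) :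
    Nonempty (↥reeN0 ≃* Matrix.ProjectiveSpecialLinearGroup (Fin 2) L) := by
  have hfin : Finite ↥reeN0 := Nat.finite_of_card_ne_zero (by rw [ree_card_N0]; norm_num)
  obtain ⟨K, instF, instFin, -, hcardK, ⟨e1⟩⟩ :=
    Cfsg.Agent.Lib.Helper23.sharp3_psl2 ree_sharp3 (by rw [Fintype.card_fin]; decide)
      (by rw [Fintype.card_fin]; norm_num)
  rw [Fintype.card_fin] at hcardK
  have hK : Fintype.card K = Fintype.card L := by omega
  obtain ⟨e2⟩ := Cfsg.Agent.Lib.Helper23.psl_congr (Fin 2) (FiniteField.ringEquivOfCardEq hK)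
  exact ⟨e1.trans e2⟩

/-! ### The derived subgroup -/

theorem comm_mem_aux (H : Subgroup ReeGL) {x y : ReeGL} (hx : x ∈ H) (hy : y ∈ H) : ⁅x, y⁆ ∈ H := by
  rw [commutatorElement_def]
  exact H.mul_mem (H.mul_mem (H.mul_mem hx hy) (H.inv_mem hx)) (H.inv_mem hy)

theorem reeN_mem_grp {a : ℕ} : reeN a ∈ reeGrp := by
  unfold reeN
  split_ifs
  · exact comm_mem_aux _ (reeG_mem (by norm_num)) (reeG_mem (by norm_num))
  · exact comm_mem_aux _ (reeG_mem (by norm_num)) (reeG_mem (by norm_num))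

theorem reeN0_le : reeN0 ≤ reeGrp := by
  show Subgroup.closure {reeN 0, reeN 1} ≤ reeGrp
  rw [Subgroup.closure_le]
  rintro x (rfl | hx)
  · exact reeN_mem_grp
  · rw [Set.mem_singleton_iff] at hx
    rw [hx]
    exact reeN_mem_grp

theorem ree_conj_gen {k a : ℕ} (hk : k < 54) (ha : a < 2) (s : ReeGL)
    (hs : (s : ReeMat) = toMat3 (reeGen k)) :
    s * reeN a * s⁻¹ ∈ reeN0 ∧ s⁻¹ * reeN a * s ∈ reeN0 := by
  have h := b2All_iff.mp (b2All_iff.mp ree_cj k hk) a ha
  simp only [Bool.and_eq_true, decide_eq_true_eq] at h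
  obtain ⟨⟨⟨hj1, hj2⟩, hw1⟩, hw2⟩ := h
  have e1 := word_eq_word hw1
  have e2 := word_eq_word hw2
  simp only [List.map_cons, List.map_nil, List.prod_cons, List.prod_nil, mul_one] at e1 e2
  obtain ⟨g1, hg1, -⟩ := ree_list_perm _ hj1
  obtain ⟨g2, hg2, -⟩ := ree_list_perm _ hj2
  constructor
  · have h3 : s * reeN a * s⁻¹ = (g1 : ReeGL) := by
      rw [mul_inv_eq_iff_eq_mul]
      apply Units.ext
      rw [Units.val_mul, Units.val_mul, hs, reeN_val ha, hg1, e1]
    rw [h3]; exact g1.2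
  · have h3 : s⁻¹ * reeN a * s = (g2 : ReeGL) := by
      rw [mul_assoc, inv_mul_eq_iff_eq_mul]
      apply Units.ext
      rw [Units.val_mul, Units.val_mul, hs, reeN_val ha, hg2, e2]
    rw [h3]; exact g2.2

theorem ree_conj_mem (s : ReeGL) (h : ∀ a < 2, s * reeN a * s⁻¹ ∈ reeN0) (n : ReeGL)
    (hn : n ∈ reeN0) : s * n * s⁻¹ ∈ reeN0 := by
  unfold reeN0 at hn
  induction hn using Subgroup.closure_induction with
  | mem x hx =>
    rcases hx with rfl | hx
    · exact h 0 (by norm_num)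
    · rw [Set.mem_singleton_iff] at hx
      rw [hx]
      exact h 1 (by norm_num)
  | one =>
    rw [mul_one, mul_inv_cancel]
    exact reeN0.one_mem
  | mul x y _ _ hx hy =>
    have e : s * (x * y) * s⁻¹ = (s * x * s⁻¹) * (s * y * s⁻¹) := by group
    rw [e]
    exact reeN0.mul_mem hx hy
  | inv x _ hx =>
    have e : s * x⁻¹ * s⁻¹ = (s * x * s⁻¹)⁻¹ := by group
    rw [e]
    exact reeN0.inv_mem hx

theorem reeGrp_le_normalizer : reeGrp ≤ Subgroup.normalizer (reeN0 : Set ReeGL) := by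
  show Subgroup.closure _ ≤ _
  rw [Subgroup.closure_le]
  intro s hs
  obtain ⟨k, hk, hsk⟩ := ree_gen_cases s hs
  rw [SetLike.mem_coe, Subgroup.mem_normalizer_iff]
  intro n
  constructor
  · exact ree_conj_mem s (fun a ha => (ree_conj_gen hk ha s hsk).1) n
  · intro h
    have h1 := ree_conj_mem s⁻¹ (fun a ha => by rw [inv_inv]; exact (ree_conj_gen hk ha s hsk).2)
      _ h
    have e : s⁻¹ * (s * n * s⁻¹) * s⁻¹⁻¹ = n := by group
    rw [e] at h1
    exact h1

theorem ree_zpow_val {e : ℕ} (he : e < 3) : ((reeG 3 ^ e : ReeGL) : ReeMat) = toMat3 (reeZc e) := by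
  have hz : ((reeG 3 : ReeGL) : ReeMat) = toMat3 (reeGen 3) := reeG_val (by norm_num)
  interval_cases e
  · rw [pow_zero, Units.val_one, ree_z0, ree_id_eq]
  · rw [pow_one, ree_z1, hz]
  · rw [pow_two, Units.val_mul, hz, toMat3_mul ree_z2]

theorem ree_coset {k : ℕ} (hk : k < 54) (s : ReeGL) (hs : (s : ReeMat) = toMat3 (reeGen k)) :
    ∃ e : ℕ, ∃ n ∈ reeN0, s = reeG 3 ^ e * n := by
  have h := b2All_iff.mp ree_cos k hk
  simp only [Bool.and_eq_true, decide_eq_true_eq] at h
  obtain ⟨⟨he, hj⟩, hp⟩ := h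
  obtain ⟨g, hg, -⟩ := ree_list_perm _ hj
  refine ⟨reeCose k, g, g.2, ?_⟩
  apply Units.ext
  rw [Units.val_mul, hs, hg, ree_zpow_val he, toMat3_mul hp]

theorem ree_comm_le : commutator ↥reeGrp ≤ reeN0.subgroupOf reeGrp := by
  have hnorm : (reeN0.subgroupOf reeGrp).Normal := by
    constructor
    intro n hn g
    rw [Subgroup.mem_subgroupOf] at hn ⊢
    exact (Subgroup.mem_normalizer_iff.mp (reeGrp_le_normalizer g.2) n.1).mp hn
  let z' : ↥reeGrp := ⟨reeG 3, reeG_mem (by norm_num)⟩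
  have key : ∀ (g : ReeGL) (hg : g ∈ reeGrp),
      QuotientGroup.mk' (reeN0.subgroupOf reeGrp) ⟨g, hg⟩ ∈
        Subgroup.zpowers (QuotientGroup.mk' (reeN0.subgroupOf reeGrp) z') := by
    intro g hg
    refine Subgroup.closure_induction (p := fun g hg =>
      QuotientGroup.mk' (reeN0.subgroupOf reeGrp) ⟨g, hg⟩ ∈
        Subgroup.zpowers (QuotientGroup.mk' (reeN0.subgroupOf reeGrp) z')) ?_ ?_ ?_ ?_ hg
    · intro s hs
      obtain ⟨k, hk, hsk⟩ := ree_gen_cases s hs
      obtain ⟨e, n, hn, hsn⟩ := ree_coset hk s hsk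
      have h1 : (⟨s, Subgroup.subset_closure hs⟩ : ↥reeGrp) = z' ^ e * ⟨n, reeN0_le hn⟩ :=
        Subtype.ext hsn
      have h2 : QuotientGroup.mk' (reeN0.subgroupOf reeGrp) ⟨n, reeN0_le hn⟩ = 1 :=
        (QuotientGroup.eq_one_iff _).mpr (Subgroup.mem_subgroupOf.mpr hn)
      rw [h1, map_mul, map_pow, h2, mul_one]
      exact Subgroup.pow_mem _ (Subgroup.mem_zpowers _) e
    · exact Subgroup.one_mem _
    · intro x y hx hy px py
      exact Subgroup.mul_mem _ px py
    · intro x hx px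
      exact Subgroup.inv_mem _ px
  rw [commutator_def, Subgroup.commutator_le]
  intro g1 _ g2 _
  rw [← QuotientGroup.eq_one_iff]
  have h1 := key g1.1 g1.2
  have h2 := key g2.1 g2.2
  obtain ⟨a, ha⟩ := Subgroup.mem_zpowers_iff.mp h1
  obtain ⟨b, hb⟩ := Subgroup.mem_zpowers_iff.mp h2
  have h3 : ((⁅g1, g2⁆ : ↥reeGrp) : ↥reeGrp ⧸ reeN0.subgroupOf reeGrp) =
      ⁅QuotientGroup.mk' (reeN0.subgroupOf reeGrp) g1,
        QuotientGroup.mk' (reeN0.subgroupOf reeGrp) g2⁆ :=
    map_commutatorElement (QuotientGroup.mk' (reeN0.subgroupOf reeGrp)) g1 g2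
  rw [h3, commutatorElement_eq_one_iff_commute]
  have e1 : QuotientGroup.mk' (reeN0.subgroupOf reeGrp) g1 =
      QuotientGroup.mk' (reeN0.subgroupOf reeGrp) z' ^ a := ha.symm
  have e2 : QuotientGroup.mk' (reeN0.subgroupOf reeGrp) g2 =
      QuotientGroup.mk' (reeN0.subgroupOf reeGrp) z' ^ b := hb.symm
  rw [e1, e2]
  exact (Commute.refl _).zpow_zpow a b

theorem ree_comm_map : (commutator ↥reeGrp).map reeGrp.subtype = reeN0 := by
  apply le_antisymm
  · rw [Subgroup.map_le_iff_le_comap]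
    exact ree_comm_le
  · show Subgroup.closure {reeN 0, reeN 1} ≤ _
    rw [Subgroup.closure_le]
    have hc : ∀ a b : ℕ, a < 54 → b < 54 →
        ⁅reeG a, reeG b⁆ ∈ (commutator ↥reeGrp).map reeGrp.subtype := by
      intro a b ha hb
      refine ⟨⁅(⟨reeG a, reeG_mem ha⟩ : ↥reeGrp), (⟨reeG b, reeG_mem hb⟩ : ↥reeGrp)⁆, ?_, rfl⟩
      rw [SetLike.mem_coe, commutator_def]
      exact Subgroup.commutator_mem_commutator (Subgroup.mem_top _) (Subgroup.mem_top _)
    rintro x (rfl | hx)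
    · rw [reeN, if_pos rfl]
      exact hc 14 42 (by norm_num) (by norm_num)
    · rw [Set.mem_singleton_iff] at hx
      rw [hx, reeN, if_neg (by norm_num)]
      exact hc 21 32 (by norm_num) (by norm_num)

/-- The derived subgroup of `²G₂(3)` has order `504` and is isomorphic to `PSL₂(8)`. -/
theorem ree_three_derived {L : Type*} [Field L] [Fintype L] (hL : Fintype.card L = 8) :
    Nat.card ↥(commutator ↥(twistedG2 (ZMod 3) 1)) = 504 ∧
      Nonempty (↥(commutator ↥(twistedG2 (ZMod 3) 1)) ≃*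
        Matrix.ProjectiveSpecialLinearGroup (Fin 2) L) := by
  have e : ↥(commutator ↥reeGrp) ≃* ↥reeN0 :=
    ((commutator ↥reeGrp).equivMapOfInjective reeGrp.subtype reeGrp.subtype_injective).trans
      (MulEquiv.subgroupCongr ree_comm_map)
  obtain ⟨e2⟩ := ree_N0_iso hL
  exact ⟨by rw [Nat.card_congr e.toEquiv, ree_card_N0], ⟨e.trans e2⟩⟩

end Cfsg.Agent.Lib.Helper36
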