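import Mathlib
import Cfsg.Prelude.Def_GeometricClasses
import Cfsg.Agent.Lib.Helper71.SLP0

/-! SLP piece N8u (S5793/S5808/S5853, architect helper71): `SL_n` is not contained in the
similarity group of a unitary form. -/

set_option autoImplicit false

namespace Cfsg.Agent.Lib.Helper36.SLPN8u

open Matrix Cfsg.Geo Cfsg.Agent.Lib.Helper71.SLP

variable {n : ℕ} {F : Type*} [Field F] [Fintype F]

omit [Fintype F] in
theorem span_pair_ne_top (hn : 3 ≤ n) (u v : Fin n → F) :
    Submodule.span F ({u, v} : Set (Fin n → F)) ≠ ⊤ := by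
  classical
  intro h
  have h1 : Module.finrank F
      (Submodule.span F ((({u, v} : Finset (Fin n → F)) : Set (Fin n → F)))) ≤
      ({u, v} : Finset (Fin n → F)).card := finrank_span_finset_le_card _
  have h2 : ((({u, v} : Finset (Fin n → F)) : Set (Fin n → F))) = {u, v} := by simp
  rw [h2, h, finrank_top, Module.finrank_fin_fun] at h1
  have h3 : ({u, v} : Finset (Fin n → F)).card ≤ 2 := Finset.card_le_two
  omega

omit [Fintype F] in
theorem exists_notMem_span (hn : 3 ≤ n) (v : Fin n → F) :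
    ∃ z : Fin n → F, z ∉ Submodule.span F ({v} : Set (Fin n → F)) := by
  by_contra hcon
  have hall : ∀ z : Fin n → F, z ∈ Submodule.span F ({v} : Set (Fin n → F)) := by
    intro z
    by_contra hz
    exact hcon ⟨z, hz⟩
  have h := span_pair_ne_top hn v v
  rw [Set.pair_eq_singleton] at h
  exact h (eq_top_iff.mpr fun z _ => hall z)

/-- N8u -/
theorem N8u (hn : 3 ≤ n) (σ : F ≃+* F) (f : (Fin n → F) → (Fin n → F) → F)
    (hf : IsUnitaryForm σ f) : ¬ specialLinear (Fin n) F ≤ similarityGroup f := by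
  classical
  intro hle
  -- Step 1
  obtain ⟨u₀, v₀, hu₀, hfuv⟩ : ∃ u₀ v₀ : Fin n → F,
      u₀ ∉ Submodule.span F ({v₀} : Set (Fin n → F)) ∧ f u₀ v₀ ≠ 0 := by
    have hn0 : 0 < n := by omega
    obtain ⟨v₀, hv₀⟩ : ∃ v₀ : Fin n → F, v₀ ≠ 0 := by
      refine ⟨Pi.single ⟨0, hn0⟩ 1, ?_⟩
      intro h
      have := congrFun h ⟨0, hn0⟩
      simp at this
    obtain ⟨x, hx⟩ := (hf.nondegenerate v₀ hv₀).1
    by_cases hxs : x ∈ Submodule.span F ({v₀} : Set (Fin n → F))
    · obtain ⟨l, rfl⟩ := Submodule.mem_span_singleton.mp hxs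
      have hvv : f v₀ v₀ ≠ 0 := by
        intro h
        apply hx
        rw [hf.smul_left, h, mul_zero]
      obtain ⟨z, hz⟩ := exists_notMem_span hn v₀
      by_cases hzv : f z v₀ = 0
      · refine ⟨z + v₀, v₀, ?_, ?_⟩
        · intro h
          apply hz
          have h1 : z = (z + v₀) - v₀ := by abel
          rw [h1]
          exact Submodule.sub_mem _ h (Submodule.subset_span rfl)
        · rw [hf.add_left, hzv, zero_add]
          exact hvv
      · exact ⟨z, v₀, hz, hzv⟩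
    · exact ⟨x, v₀, hxs, hx⟩
  -- Step 2
  obtain ⟨φ, hφ0, hφ⟩ := exists_dual_ne_zero (Submodule.span F ({u₀, v₀} : Set (Fin n → F)))
    (span_pair_ne_top hn u₀ v₀)
  have hφu : φ ⬝ᵥ u₀ = 0 := hφ u₀ (Submodule.subset_span (by simp))
  have hφv : φ ⬝ᵥ v₀ = 0 := hφ v₀ (Submodule.subset_span (by simp))
  obtain ⟨a, ha⟩ : ∃ a : Fin n → F, φ ⬝ᵥ a = 1 := by
    obtain ⟨i, hi⟩ : ∃ i, φ i ≠ 0 := by
      by_contra hcon
      apply hφ0
      funext i
      by_contra hi
      exact hcon ⟨i, hi⟩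
    refine ⟨(φ i)⁻¹ • Pi.single i 1, ?_⟩
    rw [dotProduct_smul, dotProduct_single, mul_one, smul_eq_mul, inv_mul_cancel₀ hi]
  obtain ⟨c, hc⟩ := hle (tv_mem_specialLinear u₀ φ hφu)
  have hgu : (tv u₀ φ hφu).1 *ᵥ u₀ = u₀ := by
    rw [tv_mulVec, hφu, zero_smul, add_zero]
  have hgv : (tv u₀ φ hφu).1 *ᵥ v₀ = v₀ := by
    rw [tv_mulVec, hφv, zero_smul, add_zero]
  have hga : (tv u₀ φ hφu).1 *ᵥ a = a + u₀ := by
    rw [tv_mulVec, ha, one_smul]
  have hc1 : (c : F) = 1 := by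
    have h1 := hc u₀ v₀
    rw [hgu, hgv] at h1
    have h2 : ((c : F) - 1) * f u₀ v₀ = 0 := by linear_combination -h1
    rcases mul_eq_zero.mp h2 with h3 | h3
    · linear_combination h3
    · exact absurd h3 hfuv
  have h2 := hc a v₀
  rw [hga, hgv, hc1, one_mul, hf.add_left] at h2
  apply hfuv
  linear_combination h2

end Cfsg.Agent.Lib.Helper36.SLPN8u
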