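import Mathlib
import Cfsg.Prelude.Def_GeometricClasses
import Cfsg.Agent.Lib.Helper71.SLP0
import Cfsg.Agent.Lib.Helper36.SLPN8u

/-! SLP piece N6 (S5793/S5808/S5853, architect helper71): `SL_n` does not normalise a group of
symplectic type (an absolutely irreducible `r`-group, `r` different from the characteristic). -/

set_option autoImplicit false

namespace Cfsg.Agent.Lib.Helper36.SLPN6

open Matrix Cfsg.Geo Cfsg.Agent.Lib.Helper71.SLP

variable {n : ℕ} {F : Type*} [Field F] [Fintype F]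

/-- N6 -/
theorem N6 (hn : 3 ≤ n) (r : ℕ) (R : Subgroup (GL (Fin n) F))
    (hR : IsLinearSymplecticTypeData r R) : ¬ specialLinear (Fin n) F ≤ subgroupNormalizer R := by
  classical
  intro hle
  have hn0 : 0 < n := by omega
  -- (a) a non-scalar element
  obtain ⟨w, hwdef⟩ : ∃ w : Fin n → F, w = Pi.single ⟨0, hn0⟩ 1 := ⟨_, rfl⟩
  have hw0 : w ≠ 0 := by
    intro h
    have := congrFun h ⟨0, hn0⟩
    rw [hwdef] at this
    simp at this
  have hspan1 : Submodule.span F ({w} : Set (Fin n → F)) ≠ ⊤ := by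
    have := Cfsg.Agent.Lib.Helper36.SLPN8u.span_pair_ne_top hn w w
    rwa [Set.pair_eq_singleton] at this
  obtain ⟨x, hxR, hxu⟩ : ∃ x ∈ R, x.1 *ᵥ w ∉ Submodule.span F ({w} : Set (Fin n → F)) := by
    by_contra hcon
    have hall : ∀ x ∈ R, x.1 *ᵥ w ∈ Submodule.span F ({w} : Set (Fin n → F)) := by
      intro x hx
      by_contra h
      exact hcon ⟨x, hx, h⟩
    have h := hR.absIrred.1 (Submodule.span F ({w} : Set (Fin n → F))) (by
      intro s hs y hy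
      obtain ⟨x, hx, rfl⟩ := hs
      obtain ⟨v, hv, rfl⟩ := Submodule.mem_map.mp hy
      obtain ⟨l, rfl⟩ := Submodule.mem_span_singleton.mp hv
      rw [Matrix.toLin'_apply, Matrix.mulVec_smul]
      exact Submodule.smul_mem _ l (hall x hx))
    rcases h with h | h
    · exact hw0 (Submodule.span_singleton_eq_bot.mp h)
    · exact hspan1 h
  obtain ⟨u, hudef⟩ : ∃ u : Fin n → F, u = x.1 *ᵥ w := ⟨_, rfl⟩
  rw [← hudef] at hxu
  have hwu : w ∉ Submodule.span F ({u} : Set (Fin n → F)) := by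
    intro h
    obtain ⟨l, hl⟩ := Submodule.mem_span_singleton.mp h
    have hl0 : l ≠ 0 := by
      rintro rfl
      rw [zero_smul] at hl
      exact hw0 hl.symm
    apply hxu
    rw [Submodule.mem_span_singleton]
    exact ⟨l⁻¹, by rw [← hl, smul_smul, inv_mul_cancel₀ hl0, one_smul]⟩
  have hxinvu : (x⁻¹ : GL (Fin n) F).1 *ᵥ u = w := by
    rw [hudef, Matrix.mulVec_mulVec, ← Units.val_mul, inv_mul_cancel, Units.val_one,
      Matrix.one_mulVec]
  have hxxinv : ∀ v : Fin n → F, x.1 *ᵥ ((x⁻¹ : GL (Fin n) F).1 *ᵥ v) = v := by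
    intro v
    rw [Matrix.mulVec_mulVec, ← Units.val_mul, mul_inv_cancel, Units.val_one, Matrix.one_mulVec]
  -- (b) the transvection
  obtain ⟨φ, hφ0, hφ⟩ := exists_dual_ne_zero (Submodule.span F ({w, u} : Set (Fin n → F)))
    (Cfsg.Agent.Lib.Helper36.SLPN8u.span_pair_ne_top hn w u)
  have hφw : φ ⬝ᵥ w = 0 := hφ w (Submodule.subset_span (by simp))
  have hφu : φ ⬝ᵥ u = 0 := hφ u (Submodule.subset_span (by simp))
  obtain ⟨a, ha⟩ : ∃ a : Fin n → F, φ ⬝ᵥ a = 1 := by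
    obtain ⟨i, hi⟩ : ∃ i, φ i ≠ 0 := by
      by_contra hcon
      apply hφ0
      funext i
      by_contra hi
      exact hcon ⟨i, hi⟩
    refine ⟨(φ i)⁻¹ • Pi.single i 1, ?_⟩
    rw [dotProduct_smul, dotProduct_single, mul_one, smul_eq_mul, inv_mul_cancel₀ hi]
  have hg : tv w φ hφw ∈ Subgroup.normalizer (R : Set (GL (Fin n) F)) :=
    hle (tv_mem_specialLinear w φ hφw)
  have hgx : tv w φ hφw * x * (tv w φ hφw)⁻¹ ∈ R := (Subgroup.mem_normalizer_iff.mp hg x).mp hxR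
  obtain ⟨c, hcdef⟩ : ∃ c : GL (Fin n) F, c = tv w φ hφw * x * (tv w φ hφw)⁻¹ * x⁻¹ := ⟨_, rfl⟩
  have hcR : c ∈ R := by
    rw [hcdef]
    exact R.mul_mem hgx (R.inv_mem hxR)
  -- (c) the action of `c`
  have hcv : ∀ v : Fin n → F, c.1 *ᵥ v =
      v + (φ ⬝ᵥ v) • w - (φ ⬝ᵥ ((x⁻¹ : GL (Fin n) F).1 *ᵥ v)) • u := by
    intro v
    rw [hcdef, Units.val_mul, Units.val_mul, Units.val_mul, ← Matrix.mulVec_mulVec,
      ← Matrix.mulVec_mulVec, ← Matrix.mulVec_mulVec, tv_inv_mulVec, Matrix.mulVec_sub,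
      Matrix.mulVec_smul, hxxinv, ← hudef, tv_mulVec, dotProduct_sub, dotProduct_smul, hφu,
      smul_zero, sub_zero]
    abel
  obtain ⟨N, hNdef⟩ : ∃ N : Matrix (Fin n) (Fin n) F, N = c.1 - 1 := ⟨_, rfl⟩
  have hNv : ∀ v : Fin n → F, N *ᵥ v =
      (φ ⬝ᵥ v) • w - (φ ⬝ᵥ ((x⁻¹ : GL (Fin n) F).1 *ᵥ v)) • u := by
    intro v
    rw [hNdef, Matrix.sub_mulVec, hcv, Matrix.one_mulVec]
    abel
  have hNu : N *ᵥ u = 0 := by
    rw [hNv, hφu, hxinvu, hφw, zero_smul, zero_smul, sub_zero]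
  have hNw : N *ᵥ w = -((φ ⬝ᵥ ((x⁻¹ : GL (Fin n) F).1 *ᵥ w)) • u) := by
    rw [hNv, hφw, zero_smul, zero_sub]
  have hN3 : N * N * N = 0 := by
    apply Matrix.mulVec_injective
    funext v
    rw [← Matrix.mulVec_mulVec, ← Matrix.mulVec_mulVec, Matrix.zero_mulVec]
    have h1 : N *ᵥ (N *ᵥ v) =
        -(((φ ⬝ᵥ v) * (φ ⬝ᵥ ((x⁻¹ : GL (Fin n) F).1 *ᵥ w))) • u) := by
      rw [hNv v, Matrix.mulVec_sub, Matrix.mulVec_smul, Matrix.mulVec_smul, hNu, hNw, smul_zero,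
        sub_zero, smul_neg, smul_smul]
    rw [h1, Matrix.mulVec_neg, Matrix.mulVec_smul, hNu, smul_zero, neg_zero]
  -- (d) `c` has `p`-power order and `r`-power order
  obtain ⟨p, e, hrp, hmin, -⟩ := hR.field
  obtain ⟨hp, hchar, -⟩ := hmin
  have hfact : Fact p.Prime := ⟨hp⟩
  have hne : Nonempty (Fin n) := ⟨⟨0, hn0⟩⟩
  have hcharM : CharP (Matrix (Fin n) (Fin n) F) p := Matrix.charP p
  have hc1 : c.1 = 1 + N := by
    rw [hNdef]
    abel
  have hNpow : N ^ p ^ 2 = 0 := by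
    have h3 : 3 ≤ p ^ 2 := by
      have := hp.two_le
      nlinarith
    have h4 : p ^ 2 = 3 + (p ^ 2 - 3) := by omega
    rw [h4, pow_add, pow_succ, pow_two, hN3, zero_mul]
  have hcp : c ^ p ^ 2 = 1 := by
    apply Units.ext
    rw [Units.val_pow_eq_pow_val, hc1, add_pow_char_pow_of_commute p 2 (Commute.one_left N),
      one_pow, hNpow, add_zero, Units.val_one]
  obtain ⟨k, hk⟩ := hR.symplecticType.pGroup ⟨c, hcR⟩
  have hcr : c ^ r ^ k = 1 := by
    have := congrArg Subtype.val hk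
    simpa using this
  have hord : orderOf c = 1 := by
    have h1 : orderOf c ∣ p ^ 2 := orderOf_dvd_of_pow_eq_one hcp
    have h2 : orderOf c ∣ r ^ k := orderOf_dvd_of_pow_eq_one hcr
    have hcop : Nat.Coprime (p ^ 2) (r ^ k) :=
      Nat.Coprime.pow 2 k ((Nat.coprime_primes hp hR.symplecticType.prime).mpr (Ne.symm hrp))
    have h3 := Nat.dvd_gcd h1 h2
    rw [hcop] at h3
    exact Nat.dvd_one.mp h3
  have hceq : c = 1 := orderOf_eq_one_iff.mp hord
  -- (e) contradiction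
  have hN0 : N = 0 := by
    rw [hNdef, hceq, Units.val_one, sub_self]
  have h5 := hNv a
  rw [hN0, Matrix.zero_mulVec, ha, one_smul] at h5
  apply hwu
  rw [Submodule.mem_span_singleton]
  exact ⟨φ ⬝ᵥ ((x⁻¹ : GL (Fin n) F).1 *ᵥ a), by
    have h6 := sub_eq_zero.mp h5.symm
    exact h6.symm⟩

end Cfsg.Agent.Lib.Helper36.SLPN6
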