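import Mathlib
import Cfsg.Agent.Lib.Helper98.T73Defs
import Cfsg.Agent.Lib.Helper31.SpTICntA
import Cfsg.Agent.Lib.Helper12.OAA1

/-!
# Project T73 (S5973, architect helper98): piece CNTPA (helper36)

The number of totally singular `(j+1)`-spaces above a totally singular `j`-space of a
nondegenerate quadratic space of dimension `2d ≥ 2j + 4` is `1` modulo the characteristic (any
characteristic).  Twin of `Cfsg.Agent.Lib.Helper69.O72CNTA`; the singular vectors of a complement
of `U` in `U^⊥` are counted modulo `p` by Chevalley–Warning.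
-/

set_option autoImplicit false
set_option linter.unusedSectionVars false
set_option linter.unusedVariables false

namespace Cfsg.Agent.Lib.Helper98.T73

open Cfsg.Agent.Lib.Helper47 Module Polynomial

universe u

variable {F : Type u} [Field F] [Fintype F] {V : Type u} [AddCommGroup V] [Module F V]
  [FiniteDimensional F V] {Q : V → F} {B : V → V → F}

/-- Chevalley–Warning: the number of singular vectors of a subspace of dimension at least
three is divisible by the characteristic. -/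
theorem cntpa_card_sing_dvd (hQ : IsQuad Q B) {p : ℕ} [Fact p.Prime] [CharP F p]
    (C : Submodule F V) (hC : 3 ≤ finrank F C) :
    p ∣ Nat.card {c : C // Q (c : V) = 0} := by
  classical
  obtain ⟨φ, -⟩ : ∃ φ : (Fin (finrank F C) → F) ≃ₗ[F] C, φ = φ :=
    ⟨(Module.finBasis F C).equivFun.symm, rfl⟩
  obtain ⟨BL, hBL⟩ : ∃ BL : LinearMap.BilinForm F (Fin (finrank F C) → F),
      ∀ x y, BL x y = B ((φ x : C) : V) ((φ y : C) : V) :=
    ⟨LinearMap.mk₂ F (fun x y => B ((φ x : C) : V) ((φ y : C) : V))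
      (fun x x' y => by
        show B ((φ (x + x') : C) : V) ((φ y : C) : V) = _
        rw [map_add, Submodule.coe_add, hQ.form.add_left])
      (fun c x y => by
        show B ((φ (c • x) : C) : V) ((φ y : C) : V) = _
        rw [map_smul, Submodule.coe_smul, hQ.form.smul_left]
        rfl)
      (fun x y y' => by
        show B ((φ x : C) : V) ((φ (y + y') : C) : V) = _
        rw [map_add, Submodule.coe_add, hQ.form.add_right])
      (fun c x y => by
        show B ((φ x : C) : V) ((φ (c • y) : C) : V) = _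
        rw [map_smul, Submodule.coe_smul, hQ.form.smul_right]
        rfl), fun x y => rfl⟩
  obtain ⟨QF, hQF⟩ : ∃ QF : QuadraticForm F (Fin (finrank F C) → F),
      ∀ x, QF x = Q ((φ x : C) : V) :=
    ⟨{ toFun := fun x => Q ((φ x : C) : V)
       toFun_smul := fun a x => by
        show Q ((φ (a • x) : C) : V) = (a * a) • Q ((φ x : C) : V)
        rw [map_smul, Submodule.coe_smul, hQ.smul, pow_two]
        rfl
       exists_companion' := ⟨BL, fun x y => by
        show Q ((φ (x + y) : C) : V) = Q ((φ x : C) : V) + Q ((φ y : C) : V) + BL x y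
        rw [map_add, Submodule.coe_add, hQ.polar, hBL]⟩ }, fun x => rfl⟩
  have h := Cfsg.Agent.Lib.Helper12.OAA1.card_singular_dvd p QF
    (by rw [Fintype.card_fin]; exact hC)
  have e : ↥{x : Fin (finrank F C) → F | QF x = 0} ≃ {c : C // Q (c : V) = 0} :=
    Equiv.subtypeEquiv φ.toEquiv (fun x => by
      show QF x = 0 ↔ Q ((φ x : C) : V) = 0
      rw [hQF])
  rw [← Nat.card_congr e]
  exact h

/-- CNTPA -/
theorem card_ts_ext_modEq (hf : QFacts F) (hQ : IsQuad Q B) (hnd : Nondeg B) (d : ℕ)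
    (hdim : finrank F V = 2 * d) (p : ℕ) [Fact p.Prime] [CharP F p] (U : Submodule F V)
    (hU : TS Q U) (j : ℕ) (hj : finrank F U = j) (hjd : j + 2 ≤ d) :
    Nat.card {W : Submodule F V // U ≤ W ∧ finrank F W = j + 1 ∧ TS Q W} ≡ 1 [MOD p] := by
  classical
  have : Finite V := Module.finite_of_finite F
  have hiso : ∀ (W : Submodule F V), TS Q W → ∀ x ∈ W, ∀ y ∈ W, B x y = 0 := by
    intro W hW x hx y hy
    have h := hQ.polar x y
    rw [hW _ (W.add_mem hx hy), hW x hx, hW y hy, zero_add, zero_add] at h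
    exact h.symm
  obtain ⟨BL, hBL⟩ : ∃ BL : LinearMap.BilinForm F V, ∀ x y, BL x y = B x y :=
    ⟨LinearMap.mk₂ F B hQ.form.add_left hQ.form.smul_left hQ.form.add_right
      (fun c x y => by rw [hQ.form.smul_right]; rfl), fun x y => rfl⟩
  have hker : LinearMap.ker BL = ⊥ := by
    rw [LinearMap.ker_eq_bot']
    intro x hx
    exact hnd x (fun y => by rw [← hBL, hx]; rfl)
  obtain ⟨P, hPdef⟩ : ∃ P : Submodule F V, P = BL.orthogonal U := ⟨_, rfl⟩
  have hmemP : ∀ v, v ∈ P ↔ ∀ u ∈ U, B u v = 0 := by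
    intro v
    rw [hPdef, LinearMap.BilinForm.mem_orthogonal_iff]
    constructor
    · intro h u hu
      rw [← hBL]
      exact h u hu
    · intro h u hu
      show BL u v = 0
      rw [hBL]
      exact h u hu
  have hUP : U ≤ P := fun u hu => (hmemP u).2 (fun u' hu' => hiso U hU u' hu' u hu)
  have hPfin : finrank F P + j = finrank F V := by
    have h := LinearMap.BilinForm.finrank_add_finrank_orthogonal' (B := BL) U
    rw [hker, inf_bot_eq, finrank_bot, add_zero, hj, ← hPdef] at h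
    omega
  -- a complement `C` of `U` in `U^⊥`
  obtain ⟨C', hC'⟩ := Submodule.exists_isCompl U
  obtain ⟨C, hCdef⟩ : ∃ C : Submodule F V, C = C' ⊓ P := ⟨_, rfl⟩
  have hCP : C ≤ P := hCdef ▸ inf_le_right
  have hdisj : U ⊓ C = ⊥ := by
    apply le_bot_iff.1
    rw [hCdef]
    calc U ⊓ (C' ⊓ P) ≤ U ⊓ C' := inf_le_inf_left _ inf_le_left
      _ = ⊥ := hC'.inf_eq_bot
  have hsup : U ⊔ C = P := by
    rw [hCdef, ← sup_inf_assoc_of_le C' hUP, hC'.sup_eq_top, top_inf_eq]
  have hCfin : finrank F C + j = finrank F P := by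
    have h := Submodule.finrank_sup_add_finrank_inf_eq U C
    rw [hdisj, finrank_bot, add_zero, hsup, hj] at h
    omega
  have hC3 : 3 ≤ finrank F C := by omega
  have hF1 : ∀ w ∈ U, ∀ c ∈ P, Q (w + c) = Q c := by
    intro w hw c hc
    rw [hQ.polar, hU w hw, (hmemP c).1 hc w hw, zero_add, add_zero]
  -- the singular vectors of `U^⊥`
  have hT : Nat.card {v : V // v ∈ P ∧ Q v = 0} =
      Fintype.card F ^ j * Nat.card {c : C // Q (c : V) = 0} := by
    let f : U × {c : C // Q (c : V) = 0} → {v : V // v ∈ P ∧ Q v = 0} :=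
      fun x => ⟨(x.1 : V) + (x.2.1 : V),
        P.add_mem (hUP x.1.2) (hCP x.2.1.2),
        by rw [hF1 _ x.1.2 _ (hCP x.2.1.2)]; exact x.2.2⟩
    have hfb : Function.Bijective f := by
      constructor
      · rintro ⟨w, c⟩ ⟨w', c'⟩ h
        have h' : (w : V) + (c.1 : V) = (w' : V) + (c'.1 : V) := congrArg Subtype.val h
        have hmem : (w : V) - (w' : V) ∈ U ⊓ C := by
          refine ⟨U.sub_mem w.2 w'.2, ?_⟩
          have h'' : (w : V) - (w' : V) = (c'.1 : V) - (c.1 : V) := by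
            rw [sub_eq_sub_iff_add_eq_add]
            exact h'.trans (add_comm _ _)
          rw [h'']
          exact C.sub_mem c'.1.2 c.1.2
        rw [hdisj, Submodule.mem_bot, sub_eq_zero] at hmem
        have hc : (c.1 : V) = (c'.1 : V) := by
          rw [hmem] at h'
          exact add_left_cancel h'
        exact Prod.ext (Subtype.ext hmem) (Subtype.ext (Subtype.ext hc))
      · rintro ⟨v, hv, hvv⟩
        rw [← hsup] at hv
        obtain ⟨w, hw, c, hc, rfl⟩ := Submodule.mem_sup.1 hv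
        refine ⟨(⟨w, hw⟩, ⟨⟨c, hc⟩, ?_⟩), rfl⟩
        rw [← hF1 w hw c (hCP hc)]
        exact hvv
    rw [← Nat.card_congr (Equiv.ofBijective f hfb), Nat.card_prod,
      Cfsg.Agent.Lib.Helper31.SpTICntA.card_sub, hj]
  have hφ : ∀ v : V, v ∈ P → v ∉ U → Q v = 0 →
      U ≤ U ⊔ Submodule.span F {v} ∧ finrank F ↥(U ⊔ Submodule.span F {v}) = j + 1 ∧
        TS Q (U ⊔ Submodule.span F {v}) := by
    intro v hvP hvW hvv
    have hv0 : v ≠ 0 := fun h => hvW (h ▸ U.zero_mem)
    refine ⟨le_sup_left, ?_, ?_⟩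
    · have hdis : Disjoint U (Submodule.span F {v}) :=
        (Submodule.disjoint_span_singleton' hv0).2 hvW
      have h := Submodule.finrank_sup_add_finrank_inf_eq U (Submodule.span F {v})
      rw [disjoint_iff.1 hdis, finrank_bot, add_zero, hj, finrank_span_singleton hv0] at h
      exact h
    · intro x hx
      obtain ⟨w, hw, y, hy, rfl⟩ := Submodule.mem_sup.1 hx
      obtain ⟨a, rfl⟩ := Submodule.mem_span_singleton.1 hy
      have h1 : B w (a • v) = 0 := by
        rw [hQ.form.smul_right, (hmemP v).1 hvP w hw, mul_zero]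
      rw [hQ.polar, hU w hw, hQ.smul, hvv, h1, mul_zero, add_zero, add_zero]
  have hmemP' : ∀ (W₁ : Submodule F V), U ≤ W₁ → TS Q W₁ → ∀ v ∈ W₁, v ∈ P :=
    fun W₁ h1 h2 v hv => (hmemP v).2 (fun w hw => hiso W₁ h2 w (h1 hw) v hv)
  let e : {v : V // v ∈ P ∧ v ∉ U ∧ Q v = 0} ≃
      Σ W₁ : {W₁ : Submodule F V // U ≤ W₁ ∧ finrank F W₁ = j + 1 ∧ TS Q W₁},
        {v : V // v ∈ W₁.1 ∧ v ∉ U} :=
    { toFun := fun v => ⟨⟨U ⊔ Submodule.span F {v.1}, hφ v.1 v.2.1 v.2.2.1 v.2.2.2⟩,
        ⟨v.1, Submodule.mem_sup_right (Submodule.mem_span_singleton_self v.1), v.2.2.1⟩⟩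
      invFun := fun s => ⟨s.2.1, hmemP' s.1.1 s.1.2.1 s.1.2.2.2 s.2.1 s.2.2.1, s.2.2.2,
        s.1.2.2.2 s.2.1 s.2.2.1⟩
      left_inv := fun v => rfl
      right_inv := fun s => by
        apply Sigma.subtype_ext
        · apply Subtype.ext
          show U ⊔ Submodule.span F {s.2.1} = s.1.1
          apply Submodule.eq_of_le_of_finrank_eq
          · exact sup_le s.1.2.1 ((Submodule.span_singleton_le_iff_mem _ _).2 s.2.2.1)
          · rw [(hφ s.2.1 (hmemP' s.1.1 s.1.2.1 s.1.2.2.2 s.2.1 s.2.2.1) s.2.2.2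
              (s.1.2.2.2 s.2.1 s.2.2.1)).2.1, s.1.2.2.1]
        · rfl }
  have hS5 : Nat.card {v : V // v ∈ P ∧ v ∉ U ∧ Q v = 0} +
      Fintype.card F ^ j = Nat.card {v : V // v ∈ P ∧ Q v = 0} := by
    have h1 : Nat.card {v : V // v ∈ P ∧ v ∉ U ∧ Q v = 0} =
        ({v : V | v ∈ P ∧ Q v = 0} \ (U : Set V)).ncard := by
      rw [← Nat.card_coe_set_eq]
      apply Nat.card_congr
      exact Equiv.subtypeEquivRight (fun v => by
        simp only [Set.mem_diff, Set.mem_setOf_eq, SetLike.mem_coe]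
        tauto)
    have h2 := Set.ncard_sdiff_add_ncard_of_subset (s := (U : Set V))
      (t := {v : V | v ∈ P ∧ Q v = 0})
      (fun x hx => ⟨hUP hx, hU x hx⟩) (Set.toFinite _)
    have h3 : (U : Set V).ncard = Fintype.card F ^ j := by
      rw [← Nat.card_coe_set_eq, ← hj]
      exact Cfsg.Agent.Lib.Helper31.SpTICntA.card_sub U
    have h4 : Nat.card {v : V // v ∈ P ∧ Q v = 0} =
        ({v : V | v ∈ P ∧ Q v = 0}).ncard :=
      Nat.card_coe_set_eq {v : V | v ∈ P ∧ Q v = 0}
    rw [h1, ← h3, h4]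
    exact h2
  haveI : Fintype {W₁ : Submodule F V // U ≤ W₁ ∧ finrank F W₁ = j + 1 ∧ TS Q W₁} :=
    Fintype.ofFinite _
  have hcard1 := Nat.card_congr e
  rw [Nat.card_sigma] at hcard1
  have hfib : ∀ W₁ : {W₁ : Submodule F V // U ≤ W₁ ∧ finrank F W₁ = j + 1 ∧ TS Q W₁},
      Nat.card {v : V // v ∈ W₁.1 ∧ v ∉ U} = Fintype.card F ^ (j + 1) - Fintype.card F ^ j := by
    intro W₁
    rw [Cfsg.Agent.Lib.Helper31.SpTICntA.card_diff W₁.2.1, W₁.2.2.1, hj]
  simp only [hfib] at hcard1
  rw [Finset.sum_const, Finset.card_univ, smul_eq_mul] at hcard1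
  rw [hcard1, hT] at hS5
  obtain ⟨k, hk⟩ := cntpa_card_sing_dvd (p := p) hQ C hC3
  rw [hk] at hS5
  rw [Nat.card_eq_fintype_card]
  have hq1 : 1 ≤ Fintype.card F := Fintype.card_pos
  have hpq0 : p ∣ Fintype.card F :=
    (CharP.cast_eq_zero_iff F p (Fintype.card F)).1 (Nat.cast_card_eq_zero F)
  generalize Fintype.card {W₁ : Submodule F V // U ≤ W₁ ∧ finrank F W₁ = j + 1 ∧ TS Q W₁}
    = c at hS5 ⊢
  generalize Fintype.card F = q at hS5 hq1 hpq0
  have hqj : 0 < q ^ j := pow_pos hq1 j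
  have key : c * q + 1 = p * k + c := by
    have h2 : q ^ j ≤ q ^ (j + 1) := Nat.pow_le_pow_right hq1 (by omega)
    have h3 : ((q : ℤ) ^ j) * ((c : ℤ) * q + 1 - p * k - c) = 0 := by
      have := congrArg (Nat.cast : ℕ → ℤ) hS5
      push_cast [Nat.cast_sub h2] at this
      linear_combination this
    have h4 : ((c : ℤ) * q + 1 - p * k - c) = 0 := by
      rcases mul_eq_zero.1 h3 with h | h
      · have : (0 : ℤ) < (q : ℤ) ^ j := by exact_mod_cast hqj
        omega
      · exact h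
    have h5 : ((c * q + 1 : ℕ) : ℤ) = ((p * k + c : ℕ) : ℤ) := by push_cast; linarith
    exact_mod_cast h5
  have hpq : (q : ZMod p) = 0 := (ZMod.natCast_eq_zero_iff q p).2 hpq0
  have hc1 : ((c : ℕ) : ZMod p) = ((1 : ℕ) : ZMod p) := by
    have := congrArg (Nat.cast : ℕ → ZMod p) key
    push_cast at this
    rw [hpq, mul_zero, zero_add, ZMod.natCast_self, zero_mul, zero_add] at this
    simpa using this.symm
  exact (ZMod.natCast_eq_natCast_iff c 1 p).1 hc1

end Cfsg.Agent.Lib.Helper98.T73
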