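import Cfsg.Agent.Lib.Helper36.U35Defs

set_option autoImplicit false
set_option maxRecDepth 100000

/-! Kernel-checked data for an element of order 7 in `SU(3,5)`. -/

namespace Cfsg.Agent.Lib.Helper36.U35

def X1 : ℕ := 77316817920
def X2 : ℕ := 9281513914440
def X3 : ℕ := 4505915728324
def X4 : ℕ := 5075688329316
def X5 : ℕ := 25358130811511
def X6 : ℕ := 1163942976
def Hc : ℕ := 20896799624710
def Vc : ℕ := 1073741824
def Bi : ℕ := 103079249248
def centL : List ℕ := [1099512676353, 13194152116236, 18691715498001, 77316817920, 840749035520, 316769879040, 9281513914440, 16890767704847, 7882647175463, 4505915728324, 20017073831282, 15029334875309, 5075688329316, 20502230485202, 14854874740397, 25358130811511, 25014583446166, 11304894248458, 1163942976, 13700717312, 18579728672]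

def xp (k : ℕ) : ℕ :=
  match k with
  | 0 => ONE
  | 1 => X1
  | 2 => X2
  | 3 => X3
  | 4 => X4
  | 5 => X5
  | 6 => X6
  | _ => ONE

def wp (b : ℕ) : ℕ :=
  match b with
  | 0 => 1
  | 1 => 12
  | _ => 17

def centel (t : ℕ) : ℕ := mmul (scal (wp (t % 3))) (xp (t / 3))

def Bc : ℕ := pack2 (fun i j => ent2 (mmul (xp j) Vc) i 0)

def pc (n : ℕ) : ℕ := lin3 (n % 25) (n / 25 % 25) (n / 625 % 25) ONE X1 X2

def chkOne (M : ℕ) : Bool :=
  !(isfr M) || (!(Nat.beq (det3 M) 1) || centL.any (fun y => Nat.beq M y))

theorem chk_frX : isfr X1 = true := by decide +kernel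

theorem chk_frH : isfr Hc = true := by decide +kernel

theorem chk_detX : det3 X1 = 1 := by decide +kernel

theorem chk_detH : det3 Hc = 1 := by decide +kernel

theorem chk_xp : (List.range 7).all (fun k => Nat.beq (mmul (xp k) X1) (xp (k + 1))) = true := by
  decide +kernel

theorem chk_H3 : mmul Hc (mmul Hc Hc) = ONE := by decide +kernel

theorem chk_HX : mmul Hc X1 = mmul X2 Hc := by decide +kernel

theorem chk_B : mmul Bc Bi = ONE := by decide +kernel

theorem chk_cent : centL = (List.range 21).map centel := by decide +kernel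

theorem chk_C : (List.range 15625).all (fun n => chkOne (pc n)) = true := by decide +kernel

theorem chk_T : (List.range 7).all (fun k => !(Nat.beq (tr (xp k)) (tr X1)) ||
    (Nat.beq k 1 || Nat.beq k 2 || Nat.beq k 4)) = true := by decide +kernel

end Cfsg.Agent.Lib.Helper36.U35
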