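import Mathlib
import Cfsg.Agent.Lib.Helper7.SUCenter

set_option autoImplicit false
set_option linter.unusedVariables false
set_option linter.unusedSectionVars false

/-! Codes for `3 × 3` matrices and vectors over the field with 25 elements `F₅[s]`, `s² = 2`:
field elements are `a + 5 b ↔ a + b s`, matrices and vectors are base-32 numerals. -/

namespace Cfsg.Agent.Lib.Helper36.U35

open Cfsg.Agent.Lib.Helper7 Matrix

def add25 (m n : ℕ) : ℕ := (m % 5 + n % 5) % 5 + 5 * ((m / 5 % 5 + n / 5 % 5) % 5)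

def mul25 (m n : ℕ) : ℕ :=
  ((m % 5) * (n % 5) + 2 * ((m / 5 % 5) * (n / 5 % 5))) % 5 +
    5 * (((m % 5) * (n / 5 % 5) + (m / 5 % 5) * (n % 5)) % 5)

def neg25 (m : ℕ) : ℕ := mul25 4 m

def frob (n : ℕ) : ℕ := mul25 n (mul25 (mul25 n n) (mul25 n n))

lemma add25_lt (m n : ℕ) : add25 m n < 25 := by unfold add25; omega

lemma mul25_lt (m n : ℕ) : mul25 m n < 25 := by unfold mul25; omega

lemma add25_lt' (m n : ℕ) : add25 m n < 32 := lt_trans (add25_lt m n) (by norm_num)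

lemma mul25_lt' (m n : ℕ) : mul25 m n < 32 := lt_trans (mul25_lt m n) (by norm_num)

def ent (M k : ℕ) : ℕ := M / 32 ^ k % 32

def ent2 (M i j : ℕ) : ℕ := ent M (3 * i + j)

lemma ent_lt (M k : ℕ) : ent M k < 32 := by unfold ent; exact Nat.mod_lt _ (by norm_num)

lemma ent2_lt (M i j : ℕ) : ent2 M i j < 32 := ent_lt _ _

def pack9 (f : ℕ → ℕ) : ℕ :=
  f 0 + 32 * (f 1 + 32 * (f 2 + 32 * (f 3 + 32 * (f 4 + 32 * (f 5 + 32 * (f 6 + 32 * (f 7 +
  32 * f 8)))))))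

def pack2 (g : ℕ → ℕ → ℕ) : ℕ := pack9 (fun k => g (k / 3) (k % 3))

def pack3 (f : ℕ → ℕ) : ℕ := f 0 + 32 * (f 1 + 32 * f 2)

lemma ent_pack9 (f : ℕ → ℕ) (hf : ∀ k, f k < 32) (k : ℕ) (hk : k < 9) :
    ent (pack9 f) k = f k := by
  unfold ent pack9
  have h0 := hf 0
  have h1 := hf 1
  have h2 := hf 2
  have h3 := hf 3
  have h4 := hf 4
  have h5 := hf 5
  have h6 := hf 6
  have h7 := hf 7
  have h8 := hf 8
  interval_cases k <;> omega

lemma ent2_pack2 (g : ℕ → ℕ → ℕ) (hg : ∀ i j, g i j < 32) (i j : ℕ) (hi : i < 3) (hj : j < 3) :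
    ent2 (pack2 g) i j = g i j := by
  unfold ent2 pack2
  rw [ent_pack9 _ (fun k => hg _ _) _ (by omega)]
  have e1 : (3 * i + j) / 3 = i := by omega
  have e2 : (3 * i + j) % 3 = j := by omega
  show g ((3 * i + j) / 3) ((3 * i + j) % 3) = g i j
  rw [e1, e2]

lemma ent_pack3 (f : ℕ → ℕ) (hf : ∀ k, f k < 32) (k : ℕ) (hk : k < 3) :
    ent (pack3 f) k = f k := by
  unfold ent pack3
  have h0 := hf 0
  have h1 := hf 1
  have h2 := hf 2
  interval_cases k <;> omega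

def mmul (A B : ℕ) : ℕ :=
  pack2 (fun i j => add25 (add25 (mul25 (ent2 A i 0) (ent2 B 0 j))
    (mul25 (ent2 A i 1) (ent2 B 1 j))) (mul25 (ent2 A i 2) (ent2 B 2 j)))

def lin3 (c0 c1 c2 A0 A1 A2 : ℕ) : ℕ :=
  pack2 (fun i j => add25 (add25 (mul25 c0 (ent2 A0 i j)) (mul25 c1 (ent2 A1 i j)))
    (mul25 c2 (ent2 A2 i j)))

def hdot (M i j : ℕ) : ℕ :=
  add25 (add25 (mul25 (ent2 M 0 i) (frob (ent2 M 0 j))) (mul25 (ent2 M 1 i) (frob (ent2 M 1 j))))
    (mul25 (ent2 M 2 i) (frob (ent2 M 2 j)))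

def dl (i j : ℕ) : ℕ := if i = j then 1 else 0

def isfr (M : ℕ) : Bool :=
  (List.range 3).all fun i => (List.range 3).all fun j => Nat.beq (hdot M i j) (dl i j)

def tr (M : ℕ) : ℕ := add25 (add25 (ent2 M 0 0) (ent2 M 1 1)) (ent2 M 2 2)

def det3 (M : ℕ) : ℕ :=
  add25 (add25 (add25 (add25 (add25
    (mul25 (mul25 (ent2 M 0 0) (ent2 M 1 1)) (ent2 M 2 2))
    (neg25 (mul25 (mul25 (ent2 M 0 0) (ent2 M 1 2)) (ent2 M 2 1))))
    (neg25 (mul25 (mul25 (ent2 M 0 1) (ent2 M 1 0)) (ent2 M 2 2))))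
    (mul25 (mul25 (ent2 M 0 1) (ent2 M 1 2)) (ent2 M 2 0)))
    (mul25 (mul25 (ent2 M 0 2) (ent2 M 1 0)) (ent2 M 2 1)))
    (neg25 (mul25 (mul25 (ent2 M 0 2) (ent2 M 1 1)) (ent2 M 2 0)))

def scal (c : ℕ) : ℕ := pack2 (fun i j => if i = j then c else 0)

def ONE : ℕ := 1099512676353

lemma ONE_eq : ONE = scal 1 := by decide +kernel

def mv (M v : ℕ) : ℕ :=
  pack3 (fun i => add25 (add25 (mul25 (ent2 M i 0) (ent v 0)) (mul25 (ent2 M i 1) (ent v 1)))
    (mul25 (ent2 M i 2) (ent v 2)))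

def vherm (v : ℕ) : ℕ :=
  add25 (add25 (mul25 (ent v 0) (frob (ent v 0))) (mul25 (ent v 1) (frob (ent v 1))))
    (mul25 (ent v 2) (frob (ent v 2)))

def vsm (c v : ℕ) : ℕ := pack3 (fun i => mul25 c (ent v i))

def minor (w v k l : ℕ) : ℕ :=
  add25 (mul25 (ent w k) (ent v l)) (neg25 (mul25 (ent w l) (ent v k)))

def par (w v : ℕ) : Bool :=
  Nat.beq (minor w v 0 1) 0 && (Nat.beq (minor w v 0 2) 0 && Nat.beq (minor w v 1 2) 0)

def vdec (t : ℕ) : ℕ := pack3 (fun i => t / 25 ^ i % 25)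

section
variable {K : Type*} [Field K]

/-- the field element with code `n`, relative to a square root `s` of `2` -/
def el (s : K) (n : ℕ) : K := ((n % 5 : ℕ) : K) + ((n / 5 % 5 : ℕ) : K) * s

structure Hyp (s : K) : Prop where
  h5 : (5 : K) = 0
  hs : s * s = 2

variable {s : K}

lemma cast_mod5 (h5 : (5 : K) = 0) (n : ℕ) : ((n % 5 : ℕ) : K) = (n : K) := by
  conv_rhs => rw [← Nat.div_add_mod n 5]
  push_cast
  rw [h5]
  ring

lemma el_add (h : Hyp s) (m n : ℕ) : el s (add25 m n) = el s m + el s n := by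
  have e1 : add25 m n % 5 = (m % 5 + n % 5) % 5 := by unfold add25; omega
  have e2 : add25 m n / 5 % 5 = (m / 5 % 5 + n / 5 % 5) % 5 := by unfold add25; omega
  unfold el
  rw [e1, e2, cast_mod5 h.h5 (m % 5 + n % 5), cast_mod5 h.h5 (m / 5 % 5 + n / 5 % 5)]
  push_cast
  ring

lemma el_mul (h : Hyp s) (m n : ℕ) : el s (mul25 m n) = el s m * el s n := by
  have e1 : mul25 m n % 5 = ((m % 5) * (n % 5) + 2 * ((m / 5 % 5) * (n / 5 % 5))) % 5 := by
    unfold mul25; omega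
  have e2 : mul25 m n / 5 % 5 = ((m % 5) * (n / 5 % 5) + (m / 5 % 5) * (n % 5)) % 5 := by
    unfold mul25; omega
  unfold el
  rw [e1, e2, cast_mod5 h.h5 ((m % 5) * (n % 5) + 2 * ((m / 5 % 5) * (n / 5 % 5))),
    cast_mod5 h.h5 ((m % 5) * (n / 5 % 5) + (m / 5 % 5) * (n % 5))]
  push_cast
  linear_combination (-(((m / 5 % 5 : ℕ) : K) * ((n / 5 % 5 : ℕ) : K))) * h.hs

lemma el_zero : el s 0 = 0 := by simp [el]

lemma el_one : el s 1 = 1 := by simp [el]

lemma el_four (h : Hyp s) : el s 4 = -1 := by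
  have : el s 4 = 4 := by norm_num [el]
  rw [this]
  linear_combination h.h5

lemma el_neg (h : Hyp s) (m : ℕ) : el s (neg25 m) = - el s m := by
  unfold neg25
  rw [el_mul h, el_four h]
  ring

lemma el_frob (h : Hyp s) (m : ℕ) : el s (frob m) = el s m ^ 5 := by
  unfold frob
  simp only [el_mul h]
  ring

lemma charP5 (h : Hyp s) : CharP K 5 :=
  (CharP.charP_iff_prime_eq_zero (by norm_num)).mpr (by exact_mod_cast h.h5)

lemma el_inj_key : ∀ a b c d : Fin 5,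
    (5 : ℤ) ∣ ((a.val : ℤ) - (c.val : ℤ)) ^ 2 - 2 * ((b.val : ℤ) - (d.val : ℤ)) ^ 2 →
      a = c ∧ b = d := by decide

lemma el_inj_aux (h : Hyp s) (a b c d : ℕ) (ha : a < 5) (hb : b < 5) (hc : c < 5) (hd : d < 5)
    (hmn : (a : K) + (b : K) * s = (c : K) + (d : K) * s) : a = c ∧ b = d := by
  have := charP5 h
  have hsq : ((((a : ℤ) - (c : ℤ)) ^ 2 - 2 * ((b : ℤ) - (d : ℤ)) ^ 2 : ℤ) : K) = 0 := by
    push_cast
    linear_combination (((a : K) - (c : K)) - ((b : K) - (d : K)) * s) * hmn +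
      ((b : K) - (d : K)) ^ 2 * h.hs
  have hdvd := (CharP.intCast_eq_zero_iff K 5 _).mp hsq
  have key := el_inj_key ⟨a, ha⟩ ⟨b, hb⟩ ⟨c, hc⟩ ⟨d, hd⟩ hdvd
  exact ⟨congrArg Fin.val key.1, congrArg Fin.val key.2⟩

lemma el_inj (h : Hyp s) {m n : ℕ} (hm : m < 25) (hn : n < 25) (hmn : el s m = el s n) :
    m = n := by
  unfold el at hmn
  have hfin := el_inj_aux h (m % 5) (m / 5 % 5) (n % 5) (n / 5 % 5) (Nat.mod_lt _ (by norm_num))
    (Nat.mod_lt _ (by norm_num)) (Nat.mod_lt _ (by norm_num)) (Nat.mod_lt _ (by norm_num)) hmn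
  omega

lemma el_surj [Fintype K] (h : Hyp s) (hK : Fintype.card K = 25) (c : K) :
    ∃ n, n < 25 ∧ el s n = c := by
  have hinj : Function.Injective (fun n : Fin 25 => el s (n : ℕ)) :=
    fun m n hmn => Fin.ext (el_inj h m.2 n.2 hmn)
  have hbij := (Fintype.bijective_iff_injective_and_card _).mpr
    ⟨hinj, by rw [Fintype.card_fin, hK]⟩
  obtain ⟨n, hn⟩ := hbij.2 c
  exact ⟨n, n.2, hn⟩

/-- the matrix with code `M` -/
def Mel (s : K) (M : ℕ) : Matrix (Fin 3) (Fin 3) K := Matrix.of fun i j => el s (ent2 M i j)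

lemma Mel_apply (M : ℕ) (i j : Fin 3) : Mel s M i j = el s (ent2 M i j) := rfl

/-- the vector with code `v` -/
def vel (s : K) (v : ℕ) : Fin 3 → K := fun i => el s (ent v i)

lemma vel_apply (v : ℕ) (i : Fin 3) : vel s v i = el s (ent v i) := rfl

lemma Mel_mmul (h : Hyp s) (A B : ℕ) : Mel s (mmul A B) = Mel s A * Mel s B := by
  ext i j
  rw [Matrix.mul_apply, Fin.sum_univ_three]
  simp only [Mel_apply]
  unfold mmul
  rw [ent2_pack2 _ (fun _ _ => add25_lt' _ _) _ _ i.2 j.2]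
  simp only [el_add h, el_mul h]
  rfl

lemma Mel_lin3 (h : Hyp s) (c0 c1 c2 A0 A1 A2 : ℕ) :
    Mel s (lin3 c0 c1 c2 A0 A1 A2) =
      el s c0 • Mel s A0 + el s c1 • Mel s A1 + el s c2 • Mel s A2 := by
  ext i j
  simp only [Matrix.add_apply, Matrix.smul_apply, smul_eq_mul, Mel_apply]
  unfold lin3
  rw [ent2_pack2 _ (fun _ _ => add25_lt' _ _) _ _ i.2 j.2]
  simp only [el_add h, el_mul h]

lemma herm_Mel (h : Hyp s) (M : ℕ) (i j : Fin 3) :
    Cfsg.hermForm 3 K 5 (colFr (Mel s M) i) (colFr (Mel s M) j) = el s (hdot M i j) := by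
  unfold Cfsg.hermForm colFr hdot
  rw [Fin.sum_univ_three]
  simp only [Mel_apply, el_add h, el_mul h, el_frob h]
  rfl

lemma dl_lt (i j : ℕ) : dl i j < 25 := by unfold dl; split <;> norm_num

lemma el_dl (i j : Fin 3) : el s (dl i j) = if i = j then (1 : K) else 0 := by
  unfold dl
  by_cases hij : i = j
  · subst hij
    simp [el_one]
  · have : (i : ℕ) ≠ (j : ℕ) := fun h => hij (Fin.ext h)
    simp [hij, this, el_zero]

lemma hdot_lt (M i j : ℕ) : hdot M i j < 25 := by unfold hdot; exact add25_lt _ _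

lemma isFr_iff (h : Hyp s) (M : ℕ) : IsFr 5 3 3 (colFr (Mel s M)) ↔ isfr M = true := by
  unfold isfr IsFr
  simp only [List.all_eq_true, List.mem_range, Nat.beq_eq]
  constructor
  · intro hfr i hi j hj
    have h1 := hfr ⟨i, hi⟩ ⟨j, hj⟩
    rw [herm_Mel h, ← el_dl] at h1
    exact el_inj h (hdot_lt _ _ _) (dl_lt _ _) h1
  · intro hc i j
    rw [herm_Mel h, ← el_dl, hc i i.2 j j.2]

lemma trace_Mel (h : Hyp s) (M : ℕ) : (Mel s M).trace = el s (tr M) := by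
  unfold Matrix.trace tr
  rw [Fin.sum_univ_three]
  simp only [Matrix.diag_apply, Mel_apply, el_add h]
  rfl

lemma det_Mel (h : Hyp s) (M : ℕ) : (Mel s M).det = el s (det3 M) := by
  rw [Matrix.det_fin_three]
  unfold det3
  simp only [Mel_apply, el_add h, el_mul h, el_neg h]
  have e0 : ((0 : Fin 3) : ℕ) = 0 := rfl
  have e1 : ((1 : Fin 3) : ℕ) = 1 := rfl
  have e2 : ((2 : Fin 3) : ℕ) = 2 := rfl
  rw [e0, e1, e2]
  ring

lemma det3_lt (M : ℕ) : det3 M < 25 := by unfold det3; exact add25_lt _ _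

lemma Mel_scal (c : ℕ) (hc : c < 32) :
    Mel s (scal c) = Matrix.diagonal (fun _ => el s c) := by
  ext i j
  rw [Mel_apply]
  unfold scal
  rw [ent2_pack2 _ (fun _ _ => by split <;> omega) _ _ i.2 j.2]
  by_cases hij : i = j
  · subst hij
    simp
  · have : (i : ℕ) ≠ (j : ℕ) := fun h => hij (Fin.ext h)
    simp [hij, this, el_zero]

lemma Mel_ONE : Mel s ONE = 1 := by
  rw [ONE_eq, Mel_scal 1 (by norm_num), el_one, ← Matrix.diagonal_one]

lemma Mel_mv (h : Hyp s) (M v : ℕ) : Mel s M *ᵥ vel s v = vel s (mv M v) := by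
  funext i
  have e : (Mel s M *ᵥ vel s v) i = ∑ j, Mel s M i j * vel s v j := rfl
  rw [e, Fin.sum_univ_three]
  simp only [vel_apply, Mel_apply]
  unfold mv
  rw [ent_pack3 _ (fun _ => add25_lt' _ _) _ i.2]
  simp only [el_add h, el_mul h]
  rfl

lemma herm_vel (h : Hyp s) (v : ℕ) :
    Cfsg.hermForm 3 K 5 (vel s v) (vel s v) = el s (vherm v) := by
  unfold Cfsg.hermForm vherm
  rw [Fin.sum_univ_three]
  simp only [vel_apply, el_add h, el_mul h, el_frob h]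
  rfl

lemma vherm_lt (v : ℕ) : vherm v < 25 := by unfold vherm; exact add25_lt _ _

lemma vel_vsm (h : Hyp s) (c v : ℕ) : vel s (vsm c v) = el s c • vel s v := by
  funext i
  rw [vel_apply, Pi.smul_apply, smul_eq_mul, vel_apply]
  unfold vsm
  rw [ent_pack3 _ (fun _ => mul25_lt' _ _) _ i.2, el_mul h]

lemma minor_lt (w v k l : ℕ) : minor w v k l < 25 := by unfold minor; exact add25_lt _ _

lemma minor_eq_zero (h : Hyp s) (w v : ℕ) (a : K) (hwv : vel s w = a • vel s v) (k l : Fin 3) :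
    minor w v k l = 0 := by
  apply el_inj h (minor_lt _ _ _ _) (by norm_num)
  unfold minor
  rw [el_add h, el_neg h, el_mul h, el_mul h, el_zero, ← vel_apply w k, ← vel_apply w l,
    ← vel_apply v k, ← vel_apply v l, hwv]
  simp only [Pi.smul_apply, smul_eq_mul]
  ring

lemma par_of_smul (h : Hyp s) (w v : ℕ) (a : K) (hwv : vel s w = a • vel s v) :
    par w v = true := by
  unfold par
  have h01 := minor_eq_zero h w v a hwv 0 1
  have h02 := minor_eq_zero h w v a hwv 0 2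
  have h12 := minor_eq_zero h w v a hwv 1 2
  have e0 : ((0 : Fin 3) : ℕ) = 0 := rfl
  have e1 : ((1 : Fin 3) : ℕ) = 1 := rfl
  have e2 : ((2 : Fin 3) : ℕ) = 2 := rfl
  rw [e0, e1] at h01
  rw [e0, e2] at h02
  rw [e1, e2] at h12
  rw [h01, h02, h12]
  rfl

lemma vel_surj [Fintype K] (h : Hyp s) (hK : Fintype.card K = 25) (u : Fin 3 → K) :
    ∃ t, t < 15625 ∧ vel s (vdec t) = u := by
  obtain ⟨n0, hn0, e0⟩ := el_surj h hK (u 0)
  obtain ⟨n1, hn1, e1⟩ := el_surj h hK (u 1)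
  obtain ⟨n2, hn2, e2⟩ := el_surj h hK (u 2)
  refine ⟨n0 + 25 * n1 + 625 * n2, by omega, ?_⟩
  have hb : ∀ k, (n0 + 25 * n1 + 625 * n2) / 25 ^ k % 25 < 32 := fun k =>
    lt_trans (Nat.mod_lt _ (by norm_num)) (by norm_num)
  funext i
  rw [vel_apply]
  unfold vdec
  rw [ent_pack3 _ hb _ i.2]
  fin_cases i
  · show el s ((n0 + 25 * n1 + 625 * n2) / 25 ^ 0 % 25) = u 0
    rw [show (n0 + 25 * n1 + 625 * n2) / 25 ^ 0 % 25 = n0 by omega, e0]
  · show el s ((n0 + 25 * n1 + 625 * n2) / 25 ^ 1 % 25) = u 1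
    rw [show (n0 + 25 * n1 + 625 * n2) / 25 ^ 1 % 25 = n1 by omega, e1]
  · show el s ((n0 + 25 * n1 + 625 * n2) / 25 ^ 2 % 25) = u 2
    rw [show (n0 + 25 * n1 + 625 * n2) / 25 ^ 2 % 25 = n2 by omega, e2]

/-- a matrix commuting with a cyclic `3 × 3` matrix `X` is a polynomial in `X` -/
lemma commutant (X G V B' : Matrix (Fin 3) (Fin 3) K)
    (hB : (Matrix.of fun i j : Fin 3 => (X ^ (j : ℕ) * V) i 0) * B' = 1)
    (hG : G * X = X * G) :
    ∃ c : Fin 3 → K,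
      G = c 0 • (1 : Matrix (Fin 3) (Fin 3) K) + c 1 • X + c 2 • X ^ 2 := by
  set B : Matrix (Fin 3) (Fin 3) K := Matrix.of fun i j : Fin 3 => (X ^ (j : ℕ) * V) i 0
    with hBdef
  set c : Fin 3 → K := fun j => (B' * (G * V)) j 0 with hc
  refine ⟨c, ?_⟩
  set P : Matrix (Fin 3) (Fin 3) K :=
    c 0 • (1 : Matrix (Fin 3) (Fin 3) K) + c 1 • X + c 2 • X ^ 2 with hP
  have hPX : ∀ n : ℕ, P * X ^ n = X ^ n * P := by
    intro n
    rw [hP]
    simp only [add_mul, mul_add, smul_mul_assoc, mul_smul_comm, one_mul, mul_one, ← pow_add,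
      ← pow_succ, ← pow_succ']
    congr 2 <;> rw [add_comm]
  have hGX : ∀ n : ℕ, G * X ^ n = X ^ n * G := by
    intro n
    induction n with
    | zero => simp
    | succ n ih => rw [pow_succ, ← mul_assoc, ih, mul_assoc, hG, ← mul_assoc]
  have hcol : ∀ i, (P * V) i 0 = (G * V) i 0 := by
    intro i
    have h1 : (P * V) i 0 = ∑ j, B i j * c j := by
      rw [Fin.sum_univ_three, hP]
      simp only [Matrix.add_mul, Matrix.smul_mul, Matrix.add_apply, Matrix.smul_apply,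
        smul_eq_mul, hBdef, Matrix.of_apply, Matrix.one_mul]
      have e0 : (X ^ ((0 : Fin 3) : ℕ) * V) i 0 = V i 0 := by
        show (X ^ 0 * V) i 0 = V i 0
        rw [pow_zero, Matrix.one_mul]
      have e1 : (X ^ ((1 : Fin 3) : ℕ) * V) i 0 = (X * V) i 0 := by
        show (X ^ 1 * V) i 0 = (X * V) i 0
        rw [pow_one]
      have e2 : (X ^ ((2 : Fin 3) : ℕ) * V) i 0 = (X ^ 2 * V) i 0 := rfl
      rw [e0, e1, e2]
      ring
    have h2 : ∑ j, B i j * c j = ((B * B') * (G * V)) i 0 := by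
      rw [Matrix.mul_assoc, Matrix.mul_apply]
    rw [h1, h2, hB, Matrix.one_mul]
  have hGB : G * B = P * B := by
    ext i j
    have e1 : ∀ Q : Matrix (Fin 3) (Fin 3) K, (Q * B) i j = (Q * (X ^ (j : ℕ) * V)) i 0 := by
      intro Q
      rw [Matrix.mul_apply, Matrix.mul_apply]
      rfl
    rw [e1, e1, ← Matrix.mul_assoc, ← Matrix.mul_assoc, hGX, hPX, Matrix.mul_assoc,
      Matrix.mul_assoc, Matrix.mul_apply, Matrix.mul_apply]
    exact Finset.sum_congr rfl (fun k _ => by rw [hcol k])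
  calc G = G * (B * B') := by rw [hB, Matrix.mul_one]
    _ = P * (B * B') := by rw [← Matrix.mul_assoc, hGB, Matrix.mul_assoc]
    _ = P := by rw [hB, Matrix.mul_one]

end

end Cfsg.Agent.Lib.Helper36.U35
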