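import Mathlib
import Cfsg.Agent.Lib.Helper36.U35DataS
import Cfsg.Agent.Lib.Helper36.U43Grp
import Cfsg.Agent.S0280

set_option autoImplicit false
set_option linter.unusedVariables false
set_option linter.unusedSectionVars false

/-! `PSU(3,5)`: a subgroup of order 7 whose normalizer has order 21. -/

namespace Cfsg.Agent.Lib.Helper36.U35

open Cfsg.Agent.Lib.Helper7

section
variable {K : Type*} [Field K] [Fintype K] {s : K}

lemma hF_of (hK : Fintype.card K = 25) : Fintype.card K = 5 ^ 2 := by rw [hK]; norm_num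

lemma Mel_xp (h : Hyp s) (k : ℕ) (hk : k ≤ 7) : Mel s (xp k) = Mel s X1 ^ k := by
  induction k with
  | zero => rw [pow_zero]; exact Mel_ONE
  | succ k ih =>
    rw [pow_succ, ← ih (by omega), ← Mel_mmul h]
    have h1 := chk_xp
    rw [List.all_eq_true] at h1
    have h2 := h1 k (List.mem_range.mpr (by omega))
    rw [Nat.beq_eq] at h2
    rw [h2]

lemma Mel_X1_pow7 (h : Hyp s) : Mel s X1 ^ 7 = 1 := by
  rw [← Mel_xp h 7 le_rfl]
  exact Mel_ONE

lemma frX (h : Hyp s) : IsFr 5 3 3 (colFr (Mel s X1)) := (isFr_iff h X1).mpr chk_frX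

lemma frH (h : Hyp s) : IsFr 5 3 3 (colFr (Mel s Hc)) := (isFr_iff h Hc).mpr chk_frH

lemma detX (h : Hyp s) : (Mel s X1).det = 1 := by
  rw [det_Mel h, chk_detX, el_one]

lemma detH (h : Hyp s) : (Mel s Hc).det = 1 := by
  rw [det_Mel h, chk_detH, el_one]

/-- the element of order 7 -/
noncomputable def xS (hK : Fintype.card K = 25) (h : Hyp s) : Cfsg.SU 3 K 5 :=
  suMk (hF_of hK) (Mel s X1) (detX h) (frX h)

/-- the element of order 3 normalizing it -/
noncomputable def hS (hK : Fintype.card K = 25) (h : Hyp s) : Cfsg.SU 3 K 5 :=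
  suMk (hF_of hK) (Mel s Hc) (detH h) (frH h)

/-- the underlying matrix -/
def mat (g : Cfsg.SU 3 K 5) : Matrix (Fin 3) (Fin 3) K := (g.1 : Matrix (Fin 3) (Fin 3) K)

lemma mat_mul (g g' : Cfsg.SU 3 K 5) : mat (g * g') = mat g * mat g' := rfl

lemma mat_one : mat (1 : Cfsg.SU 3 K 5) = 1 := rfl

lemma mat_pow (g : Cfsg.SU 3 K 5) (n : ℕ) : mat (g ^ n) = mat g ^ n := by
  induction n with
  | zero => rw [pow_zero, pow_zero]; rfl
  | succ n ih => rw [pow_succ, pow_succ, mat_mul, ih]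

lemma mat_inj {g g' : Cfsg.SU 3 K 5} (hgg : mat g = mat g') : g = g' := by
  apply Subtype.ext
  apply Subtype.ext
  exact hgg

lemma mat_xS (hK : Fintype.card K = 25) (h : Hyp s) : mat (xS hK h) = Mel s X1 := rfl

lemma mat_hS (hK : Fintype.card K = 25) (h : Hyp s) : mat (hS hK h) = Mel s Hc := rfl

lemma det_mat (g : Cfsg.SU 3 K 5) : (mat g).det = 1 := g.1.2

lemma xS_pow7 (hK : Fintype.card K = 25) (h : Hyp s) : xS hK h ^ 7 = 1 := by
  apply mat_inj
  rw [mat_pow, mat_xS, Mel_X1_pow7 h, mat_one]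

lemma hS_conj (hK : Fintype.card K = 25) (h : Hyp s) :
    hS hK h * xS hK h * (hS hK h)⁻¹ = xS hK h ^ 2 := by
  rw [mul_inv_eq_iff_eq_mul]
  apply mat_inj
  rw [mat_mul, mat_mul, mat_pow, mat_xS, mat_hS, ← Mel_xp h 2 (by norm_num), ← Mel_mmul h,
    ← Mel_mmul h]
  exact congrArg (Mel s) chk_HX

lemma wp_cases (z : ℕ) : wp z = 1 ∨ wp z = 12 ∨ wp z = 17 := by
  unfold wp
  split <;> simp

lemma el_wp_pow (h : Hyp s) (z : ℕ) : el s (wp z) ^ 3 = 1 := by
  have e : ∀ w : ℕ, mul25 w (mul25 w w) = 1 → el s w ^ 3 = 1 := by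
    intro w hw
    have : el s w ^ 3 = el s (mul25 w (mul25 w w)) := by
      rw [el_mul h, el_mul h]
      ring
    rw [this, hw, el_one]
  rcases wp_cases z with e1 | e1 | e1 <;> rw [e1] <;> exact e _ (by decide)

lemma el_wp_pow6 (h : Hyp s) (z : ℕ) : el s (wp z) ^ (5 + 1) = 1 := by
  have e : el s (wp z) ^ (5 + 1) = (el s (wp z) ^ 3) ^ 2 := by ring
  rw [e, el_wp_pow h, one_pow]

/-- the centralizer of `xS` in `SU(3,5)` -/
lemma cent_SU (hK : Fintype.card K = 25) (h : Hyp s) (g : Cfsg.SU 3 K 5)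
    (hg : g * xS hK h = xS hK h * g) :
    ∃ z ∈ Subgroup.center (Cfsg.SU 3 K 5), ∃ k : ℕ, g = z * xS hK h ^ k := by
  have hG : mat g * Mel s X1 = Mel s X1 * mat g := congrArg mat hg
  have hB : (Matrix.of fun i j : Fin 3 => (Mel s X1 ^ (j : ℕ) * Mel s Vc) i 0) * Mel s Bi = 1 := by
    have e : (Matrix.of fun i j : Fin 3 => (Mel s X1 ^ (j : ℕ) * Mel s Vc) i 0) = Mel s Bc := by
      ext i j
      rw [Matrix.of_apply, Mel_apply]
      unfold Bc
      rw [ent2_pack2 _ (fun _ _ => ent2_lt _ _ _) _ _ i.2 j.2, ← Mel_xp h j (by omega),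
        ← Mel_mmul h]
      rfl
    rw [e, ← Mel_mmul h, chk_B]
    exact Mel_ONE
  obtain ⟨c, hc⟩ := commutant (Mel s X1) (mat g) (Mel s Vc) (Mel s Bi) hB hG
  obtain ⟨n0, hn0, e0⟩ := el_surj h hK (c 0)
  obtain ⟨n1, hn1, e1⟩ := el_surj h hK (c 1)
  obtain ⟨n2, hn2, e2⟩ := el_surj h hK (c 2)
  have hGM : mat g = Mel s (pc (n0 + 25 * n1 + 625 * n2)) := by
    unfold pc
    have d0 : (n0 + 25 * n1 + 625 * n2) % 25 = n0 := by omega
    have d1 : (n0 + 25 * n1 + 625 * n2) / 25 % 25 = n1 := by omega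
    have d2 : (n0 + 25 * n1 + 625 * n2) / 625 % 25 = n2 := by omega
    rw [d0, d1, d2, Mel_lin3 h, Mel_ONE, e0, e1, e2, hc,
      show Mel s X2 = Mel s X1 ^ 2 from Mel_xp h 2 (by norm_num)]
  have hfr : isfr (pc (n0 + 25 * n1 + 625 * n2)) = true := by
    rw [← isFr_iff h, ← hGM]
    exact (mem_SU_iff_isFr (hF_of hK) g.1).mp g.2
  have hdet : det3 (pc (n0 + 25 * n1 + 625 * n2)) = 1 := by
    apply el_inj h (det3_lt _) (by norm_num)
    rw [← det_Mel h, ← hGM, det_mat, el_one]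
  have hchk := chk_C
  rw [List.all_eq_true] at hchk
  have h5 := hchk (n0 + 25 * n1 + 625 * n2) (List.mem_range.mpr (by omega))
  unfold chkOne at h5
  rw [hfr, hdet] at h5
  simp only [Bool.not_true, Bool.false_or, List.any_eq_true, Nat.beq_eq, Nat.beq_refl] at h5
  obtain ⟨y, hy, hMy⟩ := h5
  rw [chk_cent, List.mem_map] at hy
  obtain ⟨t, ht, rfl⟩ := hy
  rw [List.mem_range] at ht
  rw [hMy] at hGM
  unfold centel at hGM
  rw [Mel_mmul h, Mel_xp h (t / 3) (by omega)] at hGM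
  have hζ := el_wp_pow h (t % 3)
  have hζ6 := el_wp_pow6 h (t % 3)
  have hsc : wp (t % 3) < 32 := by
    rcases wp_cases (t % 3) with e | e | e <;> omega
  set zS : Cfsg.SU 3 K 5 := suScalar (hF_of hK) 3 (el s (wp (t % 3))) hζ hζ6 with hzS
  have hzc : zS ∈ Subgroup.center (Cfsg.SU 3 K 5) := suScalar_mem_center (hF_of hK) 3 _ hζ hζ6
  have hmz : mat zS = Mel s (scal (wp (t % 3))) := by
    rw [Mel_scal _ hsc]
    rfl
  have hprod : mat (zS * xS hK h ^ (t / 3)) =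
      Mel s (scal (wp (t % 3))) * Mel s X1 ^ (t / 3) := by
    rw [mat_mul, mat_pow, hmz, mat_xS]
  rw [← hprod] at hGM
  exact ⟨zS, hzc, t / 3, mat_inj hGM⟩

/-- conjugates of `xS` among its powers -/
lemma tr_SU (hK : Fintype.card K = 25) (h : Hyp s) (g : Cfsg.SU 3 K 5) (k : ℕ) (hk : k < 7)
    (hg : g * xS hK h * g⁻¹ = xS hK h ^ k) : k = 1 ∨ k = 2 ∨ k = 4 := by
  have e1 : xS hK h = g⁻¹ * (xS hK h ^ k * g) := by
    rw [← hg]
    group
  have e2 := congrArg (fun w => (mat w).trace) e1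
  beta_reduce at e2
  rw [mat_mul, Matrix.trace_mul_comm, mat_mul, Matrix.mul_assoc, ← mat_mul g, mul_inv_cancel,
    mat_one, Matrix.mul_one, mat_pow, mat_xS, ← Mel_xp h k (by omega), trace_Mel h,
    trace_Mel h] at e2
  have e3 : tr X1 = tr (xp k) := el_inj h (add25_lt _ _) (add25_lt _ _) e2
  have hchk := chk_T
  rw [List.all_eq_true] at hchk
  have h5 := hchk k (List.mem_range.mpr hk)
  rw [← e3] at h5
  simp only [Nat.beq_refl, Bool.not_true, Bool.false_or, Bool.or_eq_true, Nat.beq_eq] at h5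
  rcases h5 with (h5 | h5) | h5
  · exact Or.inl h5
  · exact Or.inr (Or.inl h5)
  · exact Or.inr (Or.inr h5)

lemma card_center (hK : Fintype.card K = 25) :
    Nat.card (Subgroup.center (Cfsg.SU 3 K 5)) = 3 := by
  rw [card_center_SU (hF_of hK) 3 (by norm_num)]
  rfl

instance finiteSU : Finite (Cfsg.SU 3 K 5) :=
  Finite.of_injective (fun g : Cfsg.SU 3 K 5 => mat g) (fun _ _ hgg => mat_inj hgg)

lemma card_PSU (hK : Fintype.card K = 25) : Nat.card (Cfsg.PSU 3 K 5) = 126000 := by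
  have h1 := Cfsg.Agent.S0280.result (hF_of hK) 3 (by norm_num)
  have e : 5 ^ (3 * (3 - 1) / 2) * ∏ i ∈ Finset.range 3,
      (if Even i then 5 ^ (i + 1) + 1 else 5 ^ (i + 1) - 1) = 2268000 := by decide
  have e2 : Nat.gcd 3 (5 + 1) = 3 := rfl
  rw [e, e2] at h1
  omega

theorem conj_lift3 {S : Type*} [Group S] (hZ : Nat.card (Subgroup.center S) = 3)
    (x g : S) (k : ℕ) (hx : x ^ 7 = 1)
    (h : (QuotientGroup.mk g : S ⧸ Subgroup.center S) * QuotientGroup.mk x *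
      (QuotientGroup.mk g)⁻¹ = (QuotientGroup.mk x) ^ k) :
    g * x * g⁻¹ = x ^ k := by
  have h1 : ((g * x * g⁻¹ : S) : S ⧸ Subgroup.center S) =
      ((x ^ k : S) : S ⧸ Subgroup.center S) := by
    rw [QuotientGroup.mk_mul, QuotientGroup.mk_mul, QuotientGroup.mk_inv, QuotientGroup.mk_pow]
    exact h
  rw [QuotientGroup.eq] at h1
  set z := (g * x * g⁻¹)⁻¹ * x ^ k with hz
  have hz3 : z ^ 3 = 1 := by
    have e := pow_card_eq_one' (G := Subgroup.center S) (x := ⟨z, h1⟩)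
    rw [hZ] at e
    exact congrArg Subtype.val e
  have hz7 : z ^ 7 = 1 := by
    have e : x ^ k = (g * x * g⁻¹) * z := by rw [hz]; group
    have hc : Commute (g * x * g⁻¹) z := (Subgroup.mem_center_iff.mp h1 _)
    have e2 := hc.mul_pow 7
    rw [← e, ← pow_mul, mul_comm k 7, pow_mul, hx, one_pow, conj_pow, hx] at e2
    simpa using e2.symm
  have hz1 : z = 1 := by
    calc z = z ^ 7 * ((z ^ 3) ^ 2)⁻¹ := by group
      _ = 1 := by rw [hz3, hz7]; simp
  rw [hz] at hz1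
  exact inv_mul_eq_one.mp hz1

theorem syl7_aux (hK : Fintype.card K = 25) (h : Hyp s) :
    ∃ S : Subgroup (Cfsg.PSU 3 K 5), Nat.card S = 7 ∧
      Nat.card ↥(Subgroup.normalizer ((S : Subgroup (Cfsg.PSU 3 K 5)) : Set (Cfsg.PSU 3 K 5)))
        = 21 := by
  have hZ := card_center hK
  set a : Cfsg.PSU 3 K 5 := QuotientGroup.mk (xS hK h) with ha
  set b : Cfsg.PSU 3 K 5 := QuotientGroup.mk (hS hK h) with hb
  have ha7 : a ^ 7 = 1 := by
    rw [ha, ← QuotientGroup.mk_pow, xS_pow7 hK h]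
    rfl
  have hba : b * a * b⁻¹ = a ^ 2 := by
    rw [ha, hb, ← QuotientGroup.mk_inv, ← QuotientGroup.mk_mul, ← QuotientGroup.mk_mul,
      ← QuotientGroup.mk_pow, hS_conj hK h]
  have F2 : ∀ (g : Cfsg.PSU 3 K 5) (k : ℕ), k < 7 → g * a * g⁻¹ = a ^ k →
      k = 1 ∨ k = 2 ∨ k = 4 := by
    intro g k hk hg
    induction g using QuotientGroup.induction_on with
    | H g => exact tr_SU hK h g k hk (conj_lift3 hZ (xS hK h) g k (xS_pow7 hK h) hg)
  have F1 : ∀ g : Cfsg.PSU 3 K 5, g * a = a * g → g ∈ Subgroup.zpowers a := by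
    intro g hg
    induction g using QuotientGroup.induction_on with
    | H g =>
      have h1 : (QuotientGroup.mk g : Cfsg.PSU 3 K 5) * a * (QuotientGroup.mk g)⁻¹ = a ^ 1 := by
        rw [hg, mul_inv_cancel_right, pow_one]
      have h2 := conj_lift3 hZ (xS hK h) g 1 (xS_pow7 hK h) h1
      rw [pow_one, mul_inv_eq_iff_eq_mul] at h2
      obtain ⟨z, hz, k, rfl⟩ := cent_SU hK h g h2
      rw [QuotientGroup.mk_mul, (QuotientGroup.eq_one_iff z).mpr hz, one_mul,
        QuotientGroup.mk_pow]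
      exact Subgroup.pow_mem _ (Subgroup.mem_zpowers a) k
  have ha1 : a ≠ 1 := by
    intro h1
    have h2 := F2 1 0 (by norm_num) (by rw [h1]; simp)
    omega
  have hfrob := Cfsg.Agent.Lib.Helper36.U43.frob21 a b ha7 ha1 hba F1 F2
  have : Fact (Nat.Prime 7) := ⟨by norm_num⟩
  have h0 : Nat.card (Subgroup.zpowers a) = 7 := by
    rw [Nat.card_zpowers, orderOf_eq_prime ha7 ha1]
  exact ⟨Subgroup.zpowers a, h0, hfrob.1⟩

/-- a square root of `2` in the field with 25 elements -/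
lemma exists_hyp (hK : Fintype.card K = 25) : ∃ s : K, Hyp s := by
  have : Fact (Nat.Prime 5) := ⟨by norm_num⟩
  have hch : CharP K 5 := charP_of_card_eq_prime_pow (hF_of hK)
  have h5 : (5 : K) = 0 := by exact_mod_cast CharP.cast_eq_zero K 5
  have h2 : (2 : K) ^ 4 = 1 := by
    have : (2 : K) ^ 4 = 3 * 5 + 1 := by norm_num
    rw [this, h5]
    ring
  have hsq : IsSquare (2 : K) := by
    have h20 : (2 : K) ≠ 0 := by
      intro h0
      rw [h0] at h2
      norm_num at h2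
    have hc2 : ringChar K ≠ 2 := by
      rw [ringChar.eq K 5]
      norm_num
    rw [FiniteField.isSquare_iff hc2 h20, hK]
    have : 25 / 2 = 4 * 3 := by norm_num
    rw [this, pow_mul, h2, one_pow]
  obtain ⟨s, hs⟩ := hsq
  exact ⟨s, ⟨h5, hs.symm⟩⟩

theorem exists_syl7 (hK : Fintype.card K = 25) :
    ∃ S : Subgroup (Cfsg.PSU 3 K 5), Nat.card S = 7 ∧
      Nat.card ↥(Subgroup.normalizer ((S : Subgroup (Cfsg.PSU 3 K 5)) : Set (Cfsg.PSU 3 K 5)))
        = 21 := by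
  obtain ⟨s, hs⟩ := exists_hyp hK
  exact syl7_aux hK hs

end

end Cfsg.Agent.Lib.Helper36.U35
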