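import Mathlib
import Cfsg.Agent.Lib.Helper36.U35DataK
import Cfsg.Agent.Lib.Helper36.U35S
import Cfsg.Agent.Lib.Helper7.U3Unip

set_option autoImplicit false
set_option linter.unusedVariables false
set_option linter.unusedSectionVars false

/-! `SU(3,5)`: a proper subgroup containing the centre, of order at least `7560`
(it is `3.A₇`, of index 50). -/

namespace Cfsg.Agent.Lib.Helper36.U35

open Cfsg.Agent.Lib.Helper7 Matrix

theorem card_ge_transv {G : Type*} [Group G] [Finite G] {Δ : Type*} [MulAction G Δ]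
    (K : Subgroup G) (δ₁ δ₂ : Δ) {ι₁ ι₂ ι₃ : Type*} [Finite ι₁] [Finite ι₂] [Finite ι₃]
    (t₁ : ι₁ → G) (t₂ : ι₂ → G) (t₃ : ι₃ → G)
    (h1 : ∀ i, t₁ i ∈ K) (h2 : ∀ j, t₂ j ∈ K) (h3 : ∀ l, t₃ l ∈ K)
    (i1 : ∀ i i', t₁ i • δ₁ = t₁ i' • δ₁ → i = i')
    (f2 : ∀ j, t₂ j • δ₁ = δ₁) (i2 : ∀ j j', t₂ j • δ₂ = t₂ j' • δ₂ → j = j')
    (f3 : ∀ l, t₃ l • δ₁ = δ₁) (f3' : ∀ l, t₃ l • δ₂ = δ₂) (i3 : Function.Injective t₃) :
    Nat.card ι₁ * Nat.card ι₂ * Nat.card ι₃ ≤ Nat.card K := by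
  let f : (ι₁ × ι₂) × ι₃ → K := fun x =>
    ⟨t₁ x.1.1 * t₂ x.1.2 * t₃ x.2, K.mul_mem (K.mul_mem (h1 _) (h2 _)) (h3 _)⟩
  have hf : Function.Injective f := by
    rintro ⟨⟨i, j⟩, l⟩ ⟨⟨i', j'⟩, l'⟩ hx
    have e : t₁ i * t₂ j * t₃ l = t₁ i' * t₂ j' * t₃ l' := congrArg Subtype.val hx
    have e1 : i = i' := by
      apply i1
      have := congrArg (fun g => g • δ₁) e
      simp only [mul_smul, f3, f2] at this
      exact this
    subst e1
    have e' : t₂ j * t₃ l = t₂ j' * t₃ l' := by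
      rw [mul_assoc, mul_assoc] at e
      exact mul_left_cancel e
    have e2 : j = j' := by
      apply i2
      have := congrArg (fun g => g • δ₂) e'
      simp only [mul_smul, f3'] at this
      exact this
    subst e2
    have e3 : l = l' := i3 (mul_left_cancel e')
    rw [e3]
  have := Nat.card_le_card_of_injective f hf
  rwa [Nat.card_prod, Nat.card_prod] at this

lemma nonpar_spec (L : List ℕ) (n : ℕ) (hL : nonpar L n = true) (i j : ℕ) (hi : i < n)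
    (hj : j < n) (h1 : par (L.getD i 0) (L.getD j 0) = true)
    (h2 : par (L.getD j 0) (L.getD i 0) = true) : i = j := by
  unfold nonpar at hL
  simp only [List.all_eq_true, List.mem_range, Bool.not_eq_true'] at hL
  rcases Nat.lt_trichotomy i j with hlt | heq | hgt
  · have := hL j hj i hlt
    rw [h2] at this
    exact absurd this (by simp)
  · exact heq
  · have := hL i hi j hgt
    rw [h1] at this
    exact absurd this (by simp)

section
variable {K : Type*} [Field K] [Fintype K] {s : K}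

lemma frA (h : Hyp s) : IsFr 5 3 3 (colFr (Mel s Ac)) := (isFr_iff h Ac).mpr chk_frA

lemma frB (h : Hyp s) : IsFr 5 3 3 (colFr (Mel s Bc2)) := (isFr_iff h Bc2).mpr chk_frB

lemma detA (h : Hyp s) : (Mel s Ac).det = 1 := by
  rw [det_Mel h, chk_detA, el_one]

lemma detB (h : Hyp s) : (Mel s Bc2).det = 1 := by
  rw [det_Mel h, chk_detB, el_one]

/-- first generator of `3.A₇` -/
noncomputable def aS (hK : Fintype.card K = 25) (h : Hyp s) : Cfsg.SU 3 K 5 :=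
  suMk (hF_of hK) (Mel s Ac) (detA h) (frA h)

/-- second generator of `3.A₇` -/
noncomputable def bS (hK : Fintype.card K = 25) (h : Hyp s) : Cfsg.SU 3 K 5 :=
  suMk (hF_of hK) (Mel s Bc2) (detB h) (frB h)

lemma mat_aS (hK : Fintype.card K = 25) (h : Hyp s) : mat (aS hK h) = Mel s Ac := rfl

lemma mat_bS (hK : Fintype.card K = 25) (h : Hyp s) : mat (bS hK h) = Mel s Bc2 := rfl

/-- the subgroup `3.A₇` -/
def KS (hK : Fintype.card K = 25) (h : Hyp s) : Subgroup (Cfsg.SU 3 K 5) :=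
  Subgroup.closure ({aS hK h, bS hK h} ∪ (Subgroup.center (Cfsg.SU 3 K 5) : Set (Cfsg.SU 3 K 5)))

lemma aS_mem (hK : Fintype.card K = 25) (h : Hyp s) : aS hK h ∈ KS hK h :=
  Subgroup.subset_closure (Or.inl (Set.mem_insert _ _))

lemma bS_mem (hK : Fintype.card K = 25) (h : Hyp s) : bS hK h ∈ KS hK h :=
  Subgroup.subset_closure (Or.inl (Set.mem_insert_of_mem _ rfl))

lemma center_le_KS (hK : Fintype.card K = 25) (h : Hyp s) :
    Subgroup.center (Cfsg.SU 3 K 5) ≤ KS hK h :=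
  fun z hz => Subgroup.subset_closure (Or.inr hz)

lemma mat_gen (hK : Fintype.card K = 25) (h : Hyp s) (k : ℕ) :
    ∃ g ∈ KS hK h, mat g = Mel s (gen k) := by
  unfold gen
  split
  · exact ⟨aS hK h, aS_mem hK h, rfl⟩
  · exact ⟨bS hK h, bS_mem hK h, rfl⟩

lemma exists_E (hK : Fintype.card K = 25) (h : Hyp s) (i : ℕ) (hi : i < 238) :
    ∃ g ∈ KS hK h, mat g = Mel s (EL.getD i 0) := by
  induction i using Nat.strong_induction_on with
  | _ i ih =>
    have h1 := chk_E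
    rw [List.all_eq_true] at h1
    have h2 := h1 i (List.mem_range.mpr hi)
    simp only [Bool.or_eq_true, Bool.and_eq_true, Nat.beq_eq, Nat.blt_eq] at h2
    rcases h2 with h2 | ⟨h2, h3⟩
    · subst h2
      exact ⟨1, Subgroup.one_mem _, by rw [mat_one, chk_E0, Mel_ONE]⟩
    · obtain ⟨g, hg, hgm⟩ := ih _ h2 (lt_trans h2 hi)
      obtain ⟨g', hg', hgm'⟩ := mat_gen hK h (GI.getD i 0)
      exact ⟨g' * g, Subgroup.mul_mem _ hg' hg, by rw [mat_mul, hgm, hgm', h3, Mel_mmul h]⟩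

/-- the listed elements of `3.A₇` -/
noncomputable def eK (hK : Fintype.card K = 25) (h : Hyp s) (i : ℕ) : Cfsg.SU 3 K 5 :=
  if hi : i < 238 then Classical.choose (exists_E hK h i hi) else 1

lemma eK_mem (hK : Fintype.card K = 25) (h : Hyp s) (i : ℕ) : eK hK h i ∈ KS hK h := by
  unfold eK
  split
  · rename_i hi
    exact (Classical.choose_spec (exists_E hK h i hi)).1
  · exact Subgroup.one_mem _

lemma mat_eK (hK : Fintype.card K = 25) (h : Hyp s) (i : ℕ) (hi : i < 238) :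
    mat (eK hK h i) = Mel s (EL.getD i 0) := by
  unfold eK
  rw [dif_pos hi]
  exact (Classical.choose_spec (exists_E hK h i hi)).2

lemma vel_ne_zero (v k : ℕ) (hk : k < 3) (hv : ent v k = 1) : vel s v ≠ 0 := by
  intro h0
  have h1 := congrFun h0 ⟨k, hk⟩
  rw [vel_apply] at h1
  simp only [hv, el_one, Pi.zero_apply] at h1
  exact one_ne_zero h1

lemma iso_of (h : Hyp s) (v : ℕ) (hv : vherm v = 0) :
    Cfsg.hermForm 3 K 5 (vel s v) (vel s v) = 0 := by
  rw [herm_vel h, hv, el_zero]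

/-- the first base point -/
noncomputable def pt1 (h : Hyp s) : SUPt K 5 3 :=
  suMkPt 3 (vel s D1) (iso_of h D1 chk_D1.1) (vel_ne_zero D1 1 (by norm_num) chk_D1.2)

/-- the second base point -/
noncomputable def pt2 (h : Hyp s) : SUPt K 5 3 :=
  suMkPt 3 (vel s D2) (iso_of h D2 chk_D2.1) (vel_ne_zero D2 1 (by norm_num) chk_D2.2)

lemma smul_pt (h : Hyp s) (g : Cfsg.SU 3 K 5) (M v w : ℕ) (hg : mat g = Mel s M)
    (hw : mv M v = w)
    (hv : Cfsg.hermForm 3 K 5 (vel s v) (vel s v) = 0) (hv0 : vel s v ≠ 0) :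
    ∃ (hw1 : Cfsg.hermForm 3 K 5 (vel s w) (vel s w) = 0) (hw0 : vel s w ≠ 0),
      g • suMkPt 3 (vel s v) hv hv0 = suMkPt 3 (vel s w) hw1 hw0 := by
  obtain ⟨hgv, hgv0, e⟩ := smul_suMkPt g (vel s v) hv hv0
  have e2 : ((g : Matrix.SpecialLinearGroup (Fin 3) K) : Matrix (Fin 3) (Fin 3) K) *ᵥ vel s v =
      vel s w := by
    rw [← hw, ← Mel_mv h, ← hg]
    rfl
  refine ⟨e2 ▸ hgv, e2 ▸ hgv0, ?_⟩
  rw [e]
  exact suMkPt_congr e2 _ _ _ _

lemma pt_eq_par (hK : Fintype.card K = 25) (h : Hyp s) (v w : ℕ)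
    (hv : Cfsg.hermForm 3 K 5 (vel s v) (vel s v) = 0) (hv0 : vel s v ≠ 0)
    (hw : Cfsg.hermForm 3 K 5 (vel s w) (vel s w) = 0) (hw0 : vel s w ≠ 0)
    (e : suMkPt 3 (vel s v) hv hv0 = suMkPt 3 (vel s w) hw hw0) : par w v = true := by
  have e1 : suRoot 3 (vel s w) hw = suRoot 3 (vel s v) hv := (congrArg Subtype.val e).symm
  obtain ⟨a, ha⟩ := suRoot_eq_imp (hF_of hK) 3 (vel s v) (vel s w) hv hw hw0 e1
  exact par_of_smul h w v a ha

lemma eK_smul_pt1 (hK : Fintype.card K = 25) (h : Hyp s) (i : ℕ) (hi : i < 126) :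
    ∃ (hw1 : Cfsg.hermForm 3 K 5 (vel s (IM1.getD i 0)) (vel s (IM1.getD i 0)) = 0)
      (hw0 : vel s (IM1.getD i 0) ≠ 0),
      eK hK h i • pt1 h = suMkPt 3 (vel s (IM1.getD i 0)) hw1 hw0 := by
  have h1 := chk_IM1
  rw [List.all_eq_true] at h1
  have h2 := h1 i (List.mem_range.mpr hi)
  rw [Nat.beq_eq] at h2
  exact smul_pt h (eK hK h i) (EL.getD i 0) D1 _ (mat_eK hK h i (by omega)) h2 _ _

lemma chk_I2_spec (j : ℕ) (hj : j < 20) :
    I2.getD j 0 < 238 ∧ mv (EL.getD (I2.getD j 0) 0) D1 = vsm (C2.getD j 0) D1 ∧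
      0 < C2.getD j 0 ∧ C2.getD j 0 < 25 ∧ mv (EL.getD (I2.getD j 0) 0) D2 = IM2.getD j 0 := by
  have h1 := chk_I2
  rw [List.all_eq_true] at h1
  have h2 := h1 j (List.mem_range.mpr hj)
  simp only [Bool.and_eq_true, Nat.beq_eq, Nat.blt_eq] at h2
  exact ⟨h2.1, h2.2.1, h2.2.2.1, h2.2.2.2.1, h2.2.2.2.2⟩

lemma eK_fix_pt1 (hK : Fintype.card K = 25) (h : Hyp s) (j : ℕ) (hj : j < 20) :
    eK hK h (I2.getD j 0) • pt1 h = pt1 h := by
  obtain ⟨c1, c2, c3, c4, c5⟩ := chk_I2_spec j hj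
  obtain ⟨hw1, hw0, e⟩ := smul_pt h (eK hK h (I2.getD j 0)) (EL.getD (I2.getD j 0) 0) D1 _
    (mat_eK hK h _ c1) c2 (iso_of h D1 chk_D1.1) (vel_ne_zero D1 1 (by norm_num) chk_D1.2)
  unfold pt1
  rw [e]
  have hc0 : el s (C2.getD j 0) ≠ 0 := by
    intro h0
    rw [← el_zero (s := s)] at h0
    have := el_inj h c4 (by norm_num) h0
    omega
  have e3 : vel s (vsm (C2.getD j 0) D1) = el s (C2.getD j 0) • vel s D1 := vel_vsm h _ _
  rw [suMkPt_congr e3 hw1 hw0 (e3 ▸ hw1) (e3 ▸ hw0)]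
  exact suMkPt_smul _ hc0 _ _ _ _ _

lemma eK_smul_pt2 (hK : Fintype.card K = 25) (h : Hyp s) (j : ℕ) (hj : j < 20) :
    ∃ (hw1 : Cfsg.hermForm 3 K 5 (vel s (IM2.getD j 0)) (vel s (IM2.getD j 0)) = 0)
      (hw0 : vel s (IM2.getD j 0) ≠ 0),
      eK hK h (I2.getD j 0) • pt2 h = suMkPt 3 (vel s (IM2.getD j 0)) hw1 hw0 := by
  obtain ⟨c1, c2, c3, c4, c5⟩ := chk_I2_spec j hj
  exact smul_pt h (eK hK h (I2.getD j 0)) (EL.getD (I2.getD j 0) 0) D2 _ (mat_eK hK h _ c1) c5 _ _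

lemma card_KS_ge (hK : Fintype.card K = 25) (h : Hyp s) : 7560 ≤ Nat.card (KS hK h) := by
  have key := card_ge_transv (KS hK h) (pt1 h) (pt2 h)
    (fun i : Fin 126 => eK hK h (i : ℕ)) (fun j : Fin 20 => eK hK h (I2.getD (j : ℕ) 0))
    (fun z : Subgroup.center (Cfsg.SU 3 K 5) => (z : Cfsg.SU 3 K 5))
    (fun i => eK_mem hK h _) (fun j => eK_mem hK h _) (fun z => center_le_KS hK h z.2)
    (by
      intro i i' e
      obtain ⟨a1, a2, a3⟩ := eK_smul_pt1 hK h i i.2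
      obtain ⟨b1, b2, b3⟩ := eK_smul_pt1 hK h i' i'.2
      rw [a3, b3] at e
      have p1 := pt_eq_par hK h _ _ a1 a2 b1 b2 e
      have p2 := pt_eq_par hK h _ _ b1 b2 a1 a2 e.symm
      exact Fin.ext (nonpar_spec IM1 126 chk_NP1 i i' i.2 i'.2 p2 p1))
    (fun j => eK_fix_pt1 hK h j j.2)
    (by
      intro j j' e
      obtain ⟨a1, a2, a3⟩ := eK_smul_pt2 hK h j j.2
      obtain ⟨b1, b2, b3⟩ := eK_smul_pt2 hK h j' j'.2
      rw [a3, b3] at e
      have p1 := pt_eq_par hK h _ _ a1 a2 b1 b2 e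
      have p2 := pt_eq_par hK h _ _ b1 b2 a1 a2 e.symm
      exact Fin.ext (nonpar_spec IM2 20 chk_NP2 j j' j.2 j'.2 p2 p1))
    (fun z => center_smul_suPt z.1 z.2 _) (fun z => center_smul_suPt z.1 z.2 _)
    Subtype.val_injective
  rw [Nat.card_eq_fintype_card, Nat.card_eq_fintype_card, Fintype.card_fin, Fintype.card_fin,
    card_center hK] at key
  exact key

/-- preservation of the 105-point orbit -/
def PSig (s : K) (M : Matrix (Fin 3) (Fin 3) K) : Prop :=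
  ∀ i, i < 105 → ∃ j, j < 105 ∧ ∃ c : K, M *ᵥ vel s (SL.getD i 0) = c • vel s (SL.getD j 0)

lemma PSig_one : PSig s 1 := fun i hi => ⟨i, hi, 1, by rw [Matrix.one_mulVec, one_smul]⟩

lemma PSig_mul {M N : Matrix (Fin 3) (Fin 3) K} (hM : PSig s M) (hN : PSig s N) :
    PSig s (M * N) := by
  intro i hi
  obtain ⟨j, hj, c, hc⟩ := hN i hi
  obtain ⟨k, hk, d, hd⟩ := hM j hj
  refine ⟨k, hk, c * d, ?_⟩
  rw [← Matrix.mulVec_mulVec, hc, Matrix.mulVec_smul, hd, smul_smul]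

lemma PSig_pow {M : Matrix (Fin 3) (Fin 3) K} (hM : PSig s M) (n : ℕ) : PSig s (M ^ n) := by
  induction n with
  | zero => rw [pow_zero]; exact PSig_one
  | succ n ih => rw [pow_succ]; exact PSig_mul ih hM

lemma PSig_of_chk (h : Hyp s) (M : ℕ) (J C : List ℕ) (hc : sigchk M J C = true) :
    PSig s (Mel s M) := by
  intro i hi
  unfold sigchk at hc
  rw [List.all_eq_true] at hc
  have h1 := hc i (List.mem_range.mpr hi)
  simp only [Bool.and_eq_true, Nat.blt_eq, Nat.beq_eq] at h1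
  exact ⟨J.getD i 0, h1.1, el s (C.getD i 0), by rw [Mel_mv h, h1.2, vel_vsm h]⟩

lemma PSig_KS (hK : Fintype.card K = 25) (h : Hyp s) (g : Cfsg.SU 3 K 5) (hg : g ∈ KS hK h) :
    PSig s (mat g) := by
  unfold KS at hg
  induction hg using Subgroup.closure_induction with
  | mem x hx =>
    rcases hx with hx | hx
    · rcases hx with rfl | rfl
      · exact PSig_of_chk h Ac JA CA chk_SA
      · exact PSig_of_chk h Bc2 JB CB chk_SB
    · intro i hi
      exact ⟨i, hi, _, center_mulVec (hF_of hK) (0 : Fin 3) x hx _⟩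
  | one => exact PSig_one
  | mul x y _ _ hx hy => exact PSig_mul hx hy
  | inv x _ hx =>
    have e : x⁻¹ = x ^ (orderOf x - 1) := by
      rw [inv_eq_iff_mul_eq_one, ← pow_succ', Nat.sub_add_cancel (orderOf_pos x),
        pow_orderOf_eq_one]
    rw [e, mat_pow]
    exact PSig_pow hx _

lemma xS_not_mem (hK : Fintype.card K = 25) (h : Hyp s) : xS hK h ∉ KS hK h := by
  intro hx
  obtain ⟨j, hj, c, hc⟩ := PSig_KS hK h _ hx 0 (by norm_num)
  rw [mat_xS, Mel_mv h] at hc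
  have hp := par_of_smul h _ _ c hc
  have h1 := chk_G0
  rw [List.all_eq_true] at h1
  have h2 := h1 j (List.mem_range.mpr hj)
  rw [hp] at h2
  exact absurd h2 (by simp)

theorem exists_K (hK : Fintype.card K = 25) :
    ∃ K' : Subgroup (Cfsg.SU 3 K 5), Subgroup.center (Cfsg.SU 3 K 5) ≤ K' ∧ K' ≠ ⊤ ∧
      7560 ≤ Nat.card K' := by
  obtain ⟨s, hs⟩ := exists_hyp hK
  refine ⟨KS hK hs, center_le_KS hK hs, ?_, card_KS_ge hK hs⟩
  intro htop
  exact xS_not_mem hK hs (htop ▸ Subgroup.mem_top _)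

end

end Cfsg.Agent.Lib.Helper36.U35
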