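import Mathlib
import Cfsg.Agent.Lib.Helper36.U35K
import Cfsg.Agent.Lib.Helper58.U35S
import Cfsg.Agent.Lib.Helper58.U35PT
import Cfsg.Agent.Lib.Helper58.U35U
import Cfsg.Agent.Lib.Helper69.U35T
import Cfsg.Agent.S0283

set_option autoImplicit false
set_option linter.unusedVariables false
set_option linter.unusedSectionVars false

/-! The minimal index of a proper subgroup of `PSU(3,5)` is 50. -/

namespace Cfsg.Agent.Lib.Helper36.U35

open Cfsg.Agent.Lib.Helper7

lemma arith50 (d n m k : ℕ) (h1 : d * n = 126000) (h2 : d < 50)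
    (h3 : 126000 ∣ d.factorial) (h4 : 126 ∣ n) (h5 : n = m * k) (h6 : m % 7 = 1)
    (h7 : k ∣ 21) (h8 : 7 ∣ k) : False := by
  have hk : k = 7 ∨ k = 21 := by
    have hle := Nat.le_of_dvd (by norm_num) h7
    interval_cases k <;> omega
  rcases hk with rfl | rfl <;> interval_cases d <;>
    first
    | omega
    | exact absurd h3 (by decide)

section
variable {K : Type*} [Field K] [Fintype K]

lemma card_SU35 (hK : Fintype.card K = 25) : Nat.card (Cfsg.SU 3 K 5) = 378000 := by
  rw [card_SU3 (hF_of hK)]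
  norm_num

theorem index_ge (hK : Fintype.card K = 25) (H : Subgroup (Cfsg.PSU 3 K 5)) (hH : H ≠ ⊤) :
    50 ≤ H.index := by
  by_contra hlt
  rw [not_le] at hlt
  have hF := hF_of hK
  have hcard := card_PSU hK
  have : Finite (Cfsg.PSU 3 K 5) := Nat.finite_of_card_ne_zero (by rw [hcard]; norm_num)
  have : IsSimpleGroup (Cfsg.PSU 3 K 5) :=
    Cfsg.Agent.S0283.result hF 3 le_rfl (by omega)
  have f1 := Cfsg.Agent.Lib.Helper58.U35S.card_dvd_factorial_index H hH
  rw [hcard] at f1
  have hidx := H.index_mul_card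
  rw [hcard] at hidx
  -- the preimage in `SU(3,5)`
  set π : Cfsg.SU 3 K 5 →* Cfsg.PSU 3 K 5 :=
    QuotientGroup.mk' (Subgroup.center (Cfsg.SU 3 K 5)) with hπ
  have hπs : Function.Surjective π := QuotientGroup.mk'_surjective _
  have hidx2 : (H.comap π).index = H.index := Subgroup.index_comap_of_surjective H hπs
  have hidx3 := (H.comap π).index_mul_card
  rw [hidx2, card_SU35 hK] at hidx3
  have hpos : 0 < H.index := by
    rcases Nat.eq_zero_or_pos H.index with h0 | h0
    · rw [h0] at hidx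
      omega
    · exact h0
  have hc3 : Nat.card (H.comap π) = 3 * Nat.card H := by
    have e : H.index * Nat.card (H.comap π) = H.index * (3 * Nat.card H) := by
      rw [hidx3, ← mul_assoc, mul_comm H.index 3, mul_assoc, hidx]
      norm_num
    exact Nat.eq_of_mul_eq_mul_left hpos e
  -- transitivity on the isotropic points
  obtain ⟨P, δ₀, hP, hPc, hfix, hTI⟩ := Cfsg.Agent.Lib.Helper58.U35U.exists_TI35 hF
  have : Fact (Nat.Prime 5) := ⟨by norm_num⟩
  have : Finite (SUPt K 5 3) := finite_suPt 5 3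
  have : MulAction.IsPretransitive (Cfsg.SU 3 K 5) (SUPt K 5 3) := suPt_pretransitive hF 3
  have hZH : Subgroup.center (Cfsg.SU 3 K 5) ≤ H.comap π := by
    intro z hz
    rw [Subgroup.mem_comap]
    have : π z = 1 := (QuotientGroup.eq_one_iff z).mpr hz
    rw [this]
    exact H.one_mem
  have hbig : Nat.card (Cfsg.SU 3 K 5) < Nat.card (H.comap π) * Nat.card P := by
    rw [card_SU35 hK]
    have h1 : 7560 < Nat.card (H.comap π) := by
      by_contra hle
      rw [not_lt] at hle
      have : H.index * Nat.card (H.comap π) ≤ 49 * 7560 := Nat.mul_le_mul (by omega) hle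
      omega
    calc 378000 < 7561 * 125 := by norm_num
      _ ≤ Nat.card (H.comap π) * Nat.card P := Nat.mul_le_mul h1 hPc
  have hT := Cfsg.Agent.Lib.Helper69.U35T.card_dvd_of_TI 5 P hP δ₀ hfix hTI (H.comap π)
    (Subgroup.center (Cfsg.SU 3 K 5)) hZH (fun z hz δ => center_smul_suPt z hz δ) hbig
  rw [Cfsg.Agent.Lib.Helper58.U35PT.card_suPt35 hF, card_center hK, hc3] at hT
  have h126 : 126 ∣ Nat.card H := by omega
  -- Sylow 7-subgroups
  obtain ⟨S7, hS7, hN7⟩ := exists_syl7 hK
  have : Fact (Nat.Prime 7) := ⟨by norm_num⟩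
  obtain ⟨m, k, e1, e2, e3, e4⟩ := Cfsg.Agent.Lib.Helper58.U35S.sylow_count 7 S7 hS7
    (by rw [hcard]; decide) 21 hN7 H (by omega)
  exact arith50 H.index (Nat.card H) m k hidx hlt f1 h126 e1 e2 e3 e4

theorem main (hK : Fintype.card K = 25) :
    (∀ H : Subgroup (Cfsg.PSU 3 K 5), H ≠ ⊤ → 50 ≤ H.index) ∧
      (∃ H : Subgroup (Cfsg.PSU 3 K 5), H.index = 50) := by
  refine ⟨index_ge hK, ?_⟩
  obtain ⟨K', hZK, hKtop, hKcard⟩ := exists_K hK
  set π : Cfsg.SU 3 K 5 →* Cfsg.PSU 3 K 5 :=
    QuotientGroup.mk' (Subgroup.center (Cfsg.SU 3 K 5)) with hπ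
  have hπs : Function.Surjective π := QuotientGroup.mk'_surjective _
  have hker : π.ker ≤ K' := by
    rw [hπ, QuotientGroup.ker_mk']
    exact hZK
  refine ⟨K'.map π, ?_⟩
  have hne : K'.map π ≠ ⊤ := by
    intro htop
    apply hKtop
    have e := Subgroup.comap_map_eq_self hker
    rw [htop, Subgroup.comap_top] at e
    exact e.symm
  have hge := index_ge hK _ hne
  have hidx : (K'.map π).index = K'.index := Subgroup.index_map_eq K' hπs hker
  have h3 := K'.index_mul_card
  rw [card_SU35 hK] at h3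
  have hle : K'.index ≤ 50 := by
    by_contra hgt
    rw [not_le] at hgt
    have : 51 * 7560 ≤ K'.index * Nat.card K' := Nat.mul_le_mul hgt hKcard
    omega
  omega

end

end Cfsg.Agent.Lib.Helper36.U35
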