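import Mathlib
import Cfsg.Agent.Lib.Helper44.UDDefs

/-!
# S5655 piece BLKPROPER: a transvection of `SU_n(q)` that does not permute the coordinate blocks
-/

set_option autoImplicit false

namespace Cfsg.Agent.Lib.Helper44.UD

open Matrix Cfsg.Agent.Lib.Helper93 Cfsg.Agent.Lib.Helper18 Cfsg.Agent.Lib.Helper7

private theorem udblkproper_exists_notMem {n : ℕ} (S : Finset (Fin n)) (h : S.card < n) :
    ∃ z, z ∉ S := by
  by_contra hcon
  have hall : ∀ z, z ∈ S := by
    intro z
    by_contra hz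
    exact hcon ⟨z, hz⟩
  have h1 : S = Finset.univ := Finset.eq_univ_iff_forall.mpr hall
  rw [h1, Finset.card_univ, Fintype.card_fin] at h
  exact lt_irrefl _ h

theorem ud_blkproper {F : Type*} [Field F] [Fintype F] (q : ℕ) : BlkProperStmt F q := by
  classical
  intro hF n t k e hn ht
  -- indices
  have hn0 : 0 < n := by omega
  obtain ⟨b, -⟩ : ∃ b : Fin n, b = ⟨0, hn0⟩ := ⟨_, rfl⟩
  have : Nontrivial (Fin t) := Fin.nontrivial_iff_two_le.mpr ht
  obtain ⟨c1, hc1⟩ := exists_ne (e b).1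
  obtain ⟨a2, ha2⟩ : ∃ a2 : Fin n, a2 = e.symm (c1, (e b).2) := ⟨_, rfl⟩
  have hblk : blkOf e a2 ≠ blkOf e b := by
    unfold blkOf
    rw [ha2, Equiv.apply_symm_apply]
    exact hc1
  have ha2b : a2 ≠ b := fun h => hblk (by rw [h])
  obtain ⟨a, ha⟩ := udblkproper_exists_notMem ({b, a2} : Finset (Fin n))
    (lt_of_le_of_lt Finset.card_le_two (by omega))
  obtain ⟨b2, hb2⟩ := udblkproper_exists_notMem ({b, a2, a} : Finset (Fin n))
    (lt_of_le_of_lt Finset.card_le_three (by omega))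
  simp only [Finset.mem_insert, Finset.mem_singleton, not_or] at ha hb2
  obtain ⟨hab, haa2⟩ := ha
  obtain ⟨hb2b, hb2a2, hb2a⟩ := hb2
  -- scalars
  obtain ⟨ε, hε0, hε⟩ := exists_omega hF
  obtain ⟨a', ha'0, ha'⟩ := exists_trace_zero_ne hF
  have hL : a' + a' ^ q = 0 := by rw [ha']; ring
  -- the vector
  obtain ⟨c, hcdef⟩ : ∃ c : Fin n → F,
      c = Pi.single a 1 + ε • Pi.single b 1 + Pi.single a2 1 + ε • Pi.single b2 1 := ⟨_, rfl⟩
  have hca : c a = 1 := by
    rw [hcdef]
    simp [hab, haa2, Ne.symm hb2a]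
  have hcb : c b = ε := by
    rw [hcdef]
    simp [Ne.symm hab, Ne.symm ha2b, Ne.symm hb2b]
  have hca2 : c a2 = 1 := by
    rw [hcdef]
    simp [Ne.symm haa2, ha2b, Ne.symm hb2a2]
  have hcb2 : c b2 = ε := by
    rw [hcdef]
    simp [hb2a, hb2b, hb2a2]
  have hεε : ε * ε ^ q = -1 := by rw [← pow_succ']; exact hε
  have hcc : Cfsg.hermForm n F q c c = 0 := by
    have h1 : Cfsg.hermForm n F q c c = c a ^ q + ε * c b ^ q + c a2 ^ q + ε * c b2 ^ q := by
      nth_rewrite 1 [hcdef]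
      rw [hf_add_left, hf_add_left, hf_add_left, hf_smul_left, hf_smul_left, hf_single_left,
        hf_single_left, hf_single_left, hf_single_left]
    rw [h1, hca, hcb, hca2, hcb2, one_pow]
    linear_combination 2 * hεε
  -- the transvection
  obtain ⟨g, hgA, hgmem⟩ := exists_gl_of_pres
    (A := Cfsg.unitaryTransvection n q c a')
    (fun x y => transvection_preserves hF n c a' hcc hL x y) (transvection_det n c a' hcc)
  refine ⟨g, hgmem, ?_⟩
  rintro ⟨σ, hσ⟩
  have hcol : ∀ i, (g : Matrix (Fin n) (Fin n) F) i a =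
      (Pi.single a 1 + a' • c : Fin n → F) i := by
    intro i
    have h1 : (Cfsg.unitaryTransvection n q c a' *ᵥ Pi.single a 1) i =
        (g : Matrix (Fin n) (Fin n) F) i a := by
      rw [Matrix.mulVec_single_one, hgA]
      rfl
    rw [← h1, unitaryTransvection_mulVec, hf_single_left, hca, one_pow, mul_one]
  have hb' : (g : Matrix (Fin n) (Fin n) F) b a ≠ 0 := by
    rw [hcol]
    simp only [Pi.add_apply, Pi.smul_apply, smul_eq_mul]
    rw [Pi.single_eq_of_ne (Ne.symm hab), zero_add, hcb]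
    exact mul_ne_zero ha'0 hε0
  have ha2' : (g : Matrix (Fin n) (Fin n) F) a2 a ≠ 0 := by
    rw [hcol]
    simp only [Pi.add_apply, Pi.smul_apply, smul_eq_mul]
    rw [Pi.single_eq_of_ne (Ne.symm haa2), zero_add, hca2, mul_one]
    exact ha'0
  exact hblk ((hσ a2 a ha2').trans (hσ b a hb').symm)

end Cfsg.Agent.Lib.Helper44.UD
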