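import Mathlib
import Cfsg.Agent.Lib.Helper44.UDDefs

/-!
# S5655 piece K1EQ: for blocks of size one, block-permuting = monomial (on `GL`)
-/

set_option autoImplicit false

namespace Cfsg.Agent.Lib.Helper44.UD

open Matrix Cfsg.Agent.Lib.Helper93 Cfsg.Agent.Lib.Helper18 Cfsg.Agent.Lib.Helper7

theorem ud_k1eq {F : Type*} [Field F] [Fintype F] (q : ℕ) : K1EqStmt F := by
  intro n t e g
  -- the block map as an equivalence
  let B : Fin n ≃ Fin t := e.trans (Equiv.prodUnique (Fin t) (Fin 1))
  have hB : ∀ i, blkOf e i = B i := fun i => rfl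
  constructor
  · rintro ⟨σ, hσ⟩ j
    refine ⟨B.symm (σ (B j)), fun i' hi' => ?_⟩
    have := hσ i' j hi'
    rw [hB, hB] at this
    rw [← this, Equiv.symm_apply_apply]
  · intro hmono
    classical
    choose π hπ using hmono
    have hsum : ∀ j j', ∑ k, ((g⁻¹ : GL (Fin n) F) : Matrix (Fin n) (Fin n) F) j k *
        (g : Matrix (Fin n) (Fin n) F) k j' =
        ((g⁻¹ : GL (Fin n) F) : Matrix (Fin n) (Fin n) F) j (π j') *
          (g : Matrix (Fin n) (Fin n) F) (π j') j' := by
      intro j j'
      apply Finset.sum_eq_single (π j')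
      · intro k _ hk
        by_contra hne
        exact hk (hπ j' k (right_ne_zero_of_mul hne))
      · intro h; exact absurd (Finset.mem_univ _) h
    have h1 : ∀ j, ((g⁻¹ : GL (Fin n) F) : Matrix (Fin n) (Fin n) F) j (π j) *
        (g : Matrix (Fin n) (Fin n) F) (π j) j = 1 := by
      intro j
      have := Cfsg.Agent.Lib.Helper65.Mono.gl_inv_mul_apply g j j
      rw [if_pos rfl, hsum] at this
      exact this
    have hinj : Function.Injective π := by
      intro j j' hjj
      by_contra hne
      have h0 := Cfsg.Agent.Lib.Helper65.Mono.gl_inv_mul_apply g j j'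
      rw [if_neg hne, hsum] at h0
      have h3 := h1 j
      have h4 := h1 j'
      have h5 : (g : Matrix (Fin n) (Fin n) F) (π j') j' ≠ 0 := by
        intro h; rw [h, mul_zero] at h4; exact zero_ne_one h4
      have h6 : ((g⁻¹ : GL (Fin n) F) : Matrix (Fin n) (Fin n) F) j (π j') = 0 := by
        rcases mul_eq_zero.mp h0 with h | h
        · exact h
        · exact absurd h h5
      rw [hjj, h6, zero_mul] at h3
      exact zero_ne_one h3
    let P : Fin n ≃ Fin n := Equiv.ofBijective π (Finite.injective_iff_bijective.mp hinj)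
    refine ⟨B.symm.trans (P.trans B), fun i j hij => ?_⟩
    rw [hB, hB]
    have hi : i = π j := hπ j i hij
    subst hi
    simp [P]

end Cfsg.Agent.Lib.Helper44.UD
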