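import Mathlib
import Cfsg.Prelude.Def_GeometricClasses
import Cfsg.Prelude.Def_LieClassical
import Cfsg.Agent.Lib.Helper71.SPGTIF

/-! Project SUG (S5663, architect helper49), sub-project UTIF (sub-architect helper36): the
tensor-induced branch for subgroups of `GU_n(q)`; unitary twin of `Helper71.SPGTIF`.
Piece Q23.  PLACEHOLDER: replace the `sorry` (keep name + statement; prefix auxiliary
lemmas with `Q23_`; add imports of landed modules if you need them). -/

set_option autoImplicit false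
set_option linter.unusedSectionVars false

namespace Cfsg.Agent.Lib.Helper36.UTIF

open Matrix Cfsg.Geo Cfsg.Agent.Lib.Helper71.Asch
open Cfsg.Agent.Lib.Helper71.SPGTIF (permM)

variable {n : ℕ} {F : Type*} [Field F] [Fintype F] {q : ℕ}

theorem Q23_prod {k m : ℕ} (P : Matrix (Fin n) (Fin k → Fin m) F)
    (Q : Matrix (Fin k → Fin m) (Fin n) F) (hQP : Q * P = 1)
    (cs ds : Fin k → Matrix (Fin m) (Fin m) F) :
    (P * pt cs * Q) * (P * pt ds * Q) = P * pt (fun i => cs i * ds i) * Q := by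
  calc (P * pt cs * Q) * (P * pt ds * Q) = P * (pt cs * (Q * P) * pt ds) * Q := by
        simp only [Matrix.mul_assoc]
    _ = P * pt (fun i => cs i * ds i) * Q := by rw [hQP, Matrix.mul_one, pt_mul]

/-- the homomorphism `(A_i) ↦ P (⊗ A_i) Q` -/
def Q23_Phi {k m : ℕ} (P : Matrix (Fin n) (Fin k → Fin m) F)
    (Q : Matrix (Fin k → Fin m) (Fin n) F) (hPQ : P * Q = 1) (hQP : Q * P = 1) :
    (Fin k → GL (Fin m) F) →* GL (Fin n) F where
  toFun As := ⟨P * pt (fun i => (As i).1) * Q,
    P * pt (fun i => ((As i)⁻¹ : GL (Fin m) F).1) * Q,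
    by rw [Q23_prod P Q hQP]; simp [pt_one, hPQ],
    by rw [Q23_prod P Q hQP]; simp [pt_one, hPQ]⟩
  map_one' := by
    apply Units.ext
    simp [pt_one, hPQ]
  map_mul' As Bs := by
    apply Units.ext
    simp only [Units.val_mul, Pi.mul_apply]
    rw [Q23_prod P Q hQP]

theorem Q23_Phi_val {k m : ℕ} (P : Matrix (Fin n) (Fin k → Fin m) F)
    (Q : Matrix (Fin k → Fin m) (Fin n) F) (hPQ : P * Q = 1) (hQP : Q * P = 1)
    (As : Fin k → GL (Fin m) F) :
    (Q23_Phi P Q hPQ hQP As).1 = P * pt (fun i => (As i).1) * Q := rfl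

/-- the derived series of a subgroup, computed inside the ambient group -/
def Q23_ds {G : Type*} [Group G] (H : Subgroup G) : ℕ → Subgroup G
  | 0 => H
  | j + 1 => ⁅Q23_ds H j, Q23_ds H j⁆

theorem Q23_ds_eq {G : Type*} [Group G] (H : Subgroup G) (j : ℕ) :
    Q23_ds H j = (derivedSeries ↥H j).map H.subtype := by
  induction j with
  | zero =>
    rw [derivedSeries_zero, ← MonoidHom.range_eq_map, Subgroup.range_subtype]
    rfl
  | succ j ih =>
    rw [derivedSeries_succ, Subgroup.map_commutator, ← ih]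
    rfl

theorem Q23_ds_bot_of_le {G : Type*} [Group G] (H : Subgroup G) {j j' : ℕ} (hjj : j ≤ j')
    (h : Q23_ds H j = ⊥) : Q23_ds H j' = ⊥ := by
  induction j', hjj using Nat.le_induction with
  | base => exact h
  | succ j' _ ih =>
    show ⁅Q23_ds H j', Q23_ds H j'⁆ = ⊥
    rw [ih]
    exact Subgroup.commutator_bot_left ⊥

/-- Q23 (twin of `Helper67.TIFT5.T5`, copy-adapt): if every factor group `R i` is solvable then
`L = ⨆ Ps i` is solvable, and perfect, hence trivial, contradicting `hns`.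
Proof as in `TIFT5.T5` with `GL (Fin 2) F` (solvable over `F_3`) replaced by the solvable groups
`R i`: the map `(A i)_i ↦ P * (∏ i, iota i (A i)) * Q` is a homomorphism from `Π i, R i` (solvable)
whose range contains every `Ps i`, hence `L`; so `L` is solvable; `⁅L, L⁆ = L` ⇒ `L = ⊥`
(`derivedSeries` stabilises at `L`), so `Ps i = ⊥ ≤ scalars`. -/
theorem Q23 (L : Subgroup (GL (Fin n) F)) (hc : ⁅L, L⁆ = L)
    (k : ℕ) (Ps : Fin k → Subgroup (GL (Fin n) F)) (hk : 2 ≤ k)
    (hns : ∀ i, ¬ Ps i ≤ scalars (Fin n) F) (hsup : L = ⨆ i, Ps i) {m : ℕ}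
    (P : Matrix (Fin n) (Fin k → Fin m) F) (Q : Matrix (Fin k → Fin m) (Fin n) F)
    (hPQ : P * Q = 1) (hQP : Q * P = 1) (R : Fin k → Subgroup (GL (Fin m) F))
    (hR2 : ∀ i, ∀ x ∈ Ps i, ∃ A ∈ R i, x.1 = P * iota i A.1 * Q)
    (hsol : ∀ i, Group.IsSolvable ↥(R i)) : False := by
  classical
  have hex : ∀ i, ∃ j, Q23_ds (R i) j = ⊥ := by
    intro i
    obtain ⟨j, hj⟩ := (Group.isSolvable_def ↥(R i)).1 (hsol i)
    refine ⟨j, ?_⟩
    rw [Q23_ds_eq, hj, Subgroup.map_bot]
  choose jf hjf using hex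
  obtain ⟨J, hJ⟩ : ∃ J, ∀ i, Q23_ds (R i) J = ⊥ :=
    ⟨Finset.univ.sup jf, fun i =>
      Q23_ds_bot_of_le (R i) (Finset.le_sup (Finset.mem_univ i)) (hjf i)⟩
  have hrange : L ≤ (Subgroup.pi Set.univ (fun i : Fin k => R i)).map
      (Q23_Phi P Q hPQ hQP) := by
    rw [hsup]
    apply iSup_le
    intro i x hx
    obtain ⟨A, hAR, hA⟩ := hR2 i x hx
    refine ⟨Function.update (fun _ => (1 : GL (Fin m) F)) i A, ?_, ?_⟩
    · intro j' _
      by_cases hji : j' = i
      · subst hji
        simpa using hAR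
      · simp only [Function.update_of_ne hji]
        exact (R j').one_mem
    · apply Units.ext
      have e : (fun j' => ((Function.update (fun _ => (1 : GL (Fin m) F)) i A j' :
          GL (Fin m) F) : Matrix (Fin m) (Fin m) F)) =
          Function.update (fun _ => (1 : Matrix (Fin m) (Fin m) F)) i A.1 := by
        funext j'
        by_cases hji : j' = i
        · subst hji
          simp
        · simp [Function.update_of_ne hji]
      rw [Q23_Phi_val, hA, iota_eq_pt, e]
  have hstep : ∀ j : ℕ, L ≤ (Subgroup.pi Set.univ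
      (fun i : Fin k => Q23_ds (R i) j)).map (Q23_Phi P Q hPQ hQP) := by
    intro j
    induction j with
    | zero => exact hrange
    | succ j ih =>
      calc L = ⁅L, L⁆ := hc.symm
        _ ≤ ⁅(Subgroup.pi Set.univ
              (fun i : Fin k => Q23_ds (R i) j)).map (Q23_Phi P Q hPQ hQP),
            (Subgroup.pi Set.univ
              (fun i : Fin k => Q23_ds (R i) j)).map (Q23_Phi P Q hPQ hQP)⁆ :=
          Subgroup.commutator_mono ih ih
        _ = (⁅Subgroup.pi Set.univ (fun i : Fin k => Q23_ds (R i) j),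
            Subgroup.pi Set.univ (fun i : Fin k => Q23_ds (R i) j)⁆).map
              (Q23_Phi P Q hPQ hQP) := (Subgroup.map_commutator _ _ _).symm
        _ ≤ _ := Subgroup.map_mono (Subgroup.commutator_pi_pi_le _ _)
  have hbot : L ≤ ⊥ := by
    have h := hstep J
    have e : (fun i : Fin k => Q23_ds (R i) J) = fun _ => ⊥ := funext hJ
    rw [e, Subgroup.pi_bot, Subgroup.map_bot] at h
    exact h
  have h0 : Ps ⟨0, by omega⟩ ≤ L := by
    rw [hsup]
    exact le_iSup Ps _
  exact hns ⟨0, by omega⟩ (h0.trans (hbot.trans bot_le))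

end Cfsg.Agent.Lib.Helper36.UTIF
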