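import Mathlib
import Cfsg.Prelude.Def_GeometricClasses
import Cfsg.Prelude.Def_LieClassical
import Cfsg.Agent.Lib.Helper71.SPGTIF
import Cfsg.Agent.Lib.Helper7.GUOrder

/-! Project SUG (S5663, architect helper49), sub-project UTIF (sub-architect helper36): the
tensor-induced branch for subgroups of `GU_n(q)`; unitary twin of `Helper71.SPGTIF`.
Piece T2au (filled by helper67). -/

set_option autoImplicit false
set_option linter.unusedSectionVars false

namespace Cfsg.Agent.Lib.Helper36.UTIF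

open Matrix Cfsg.Geo Cfsg.Agent.Lib.Helper71.Asch
open Cfsg.Agent.Lib.Helper71.SPGTIF (permM)

variable {n : ℕ} {F : Type*} [Field F] [Fintype F] {q : ℕ}

/-- the ring homomorphism `x ↦ x ^ q` -/
def T2au_sig (hF : Fintype.card F = q ^ 2) : F →+* F where
  toFun x := x ^ q
  map_one' := one_pow q
  map_mul' x y := mul_pow x y q
  map_zero' := zero_pow (Cfsg.Agent.Lib.Helper7.herm_q_ne_zero hF)
  map_add' x y := Cfsg.Agent.Lib.Helper7.herm_add_pow hF x y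

theorem T2au_sig_apply (hF : Fintype.card F = q ^ 2) (x : F) : T2au_sig hF x = x ^ q := rfl

theorem T2au_sig_sig (hF : Fintype.card F = q ^ 2) (x : F) :
    T2au_sig hF (T2au_sig hF x) = x := by
  rw [T2au_sig_apply, T2au_sig_apply]
  exact Cfsg.Agent.Lib.Helper7.herm_pow_pow hF x

/-- an element `ε ≠ 0` with `ε ^ q = -ε` -/
theorem T2au_eps (hF : Fintype.card F = q ^ 2) : ∃ ε : F, ε ≠ 0 ∧ T2au_sig hF ε = -ε := by
  classical
  have hq2 : 2 ≤ q := Cfsg.Agent.Lib.Helper7.herm_two_le hF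
  obtain ⟨g, hg⟩ := IsCyclic.exists_generator (α := Fˣ)
  have hord : orderOf g = q ^ 2 - 1 := by
    rw [orderOf_eq_card_of_forall_mem_zpowers hg, Nat.card_eq_fintype_card, Fintype.card_units, hF]
  have hne : (g : F) ^ q ≠ (g : F) := by
    intro h
    have h1 : g ^ (q - 1) = 1 := by
      apply Units.ext
      rw [Units.val_pow_eq_pow_val, Units.val_one]
      have h2 : (g : F) ^ (q - 1) * (g : F) = 1 * (g : F) := by
        rw [← pow_succ, Nat.sub_add_cancel (by omega), h, one_mul]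
      exact mul_right_cancel₀ g.ne_zero h2
    have h3 : orderOf g ∣ q - 1 := orderOf_dvd_of_pow_eq_one h1
    rw [hord] at h3
    have h4 : q ^ 2 - 1 ≤ q - 1 := Nat.le_of_dvd (by omega) h3
    have h5 : q < q ^ 2 := by nlinarith
    omega
  refine ⟨(g : F) - (g : F) ^ q, sub_ne_zero.mpr (Ne.symm hne), ?_⟩
  rw [T2au_sig_apply, Cfsg.Agent.Lib.Helper7.herm_sub_pow hF,
    Cfsg.Agent.Lib.Helper7.herm_pow_pow hF]
  ring

theorem T2au_map_map (σ : F →+* F) (hσ : ∀ x, σ (σ x) = x) {m : ℕ}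
    (Y : Matrix (Fin m) (Fin m) F) : (Y.map σ).map σ = Y := by
  ext a b
  simp [hσ]

theorem T2au_map_add (σ : F →+* F) {m : ℕ} (X Y : Matrix (Fin m) (Fin m) F) :
    (X + Y).map σ = X.map σ + Y.map σ := by
  ext a b
  simp

theorem T2au_map_smul (σ : F →+* F) {m : ℕ} (c : F) (X : Matrix (Fin m) (Fin m) F) :
    (c • X).map σ = σ c • X.map σ := by
  ext a b
  simp

theorem T2au_map_zero (σ : F →+* F) {m : ℕ} :
    (0 : Matrix (Fin m) (Fin m) F).map σ = 0 := by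
  ext a b
  simp

/-- for invariant `M` and `A ∈ R`: `M * A^σ = (A⁻¹)ᵀ * M` -/
theorem T2au_swap (σ : F →+* F) {m : ℕ} (R : Subgroup (GL (Fin m) F))
    (M : Matrix (Fin m) (Fin m) F)
    (hM : ∀ A ∈ R, A.1ᵀ * M * A.1.map σ = M) (A : GL (Fin m) F) (hA : A ∈ R) :
    M * A.1.map σ = (A⁻¹).1ᵀ * M := by
  have h := hM A⁻¹ (R.inv_mem hA)
  have e : (A⁻¹).1.map σ * A.1.map σ = 1 := by
    rw [← Matrix.map_mul, ← Units.val_mul, inv_mul_cancel, Units.val_one,
      Matrix.map_one _ σ.map_zero σ.map_one]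
  calc M * A.1.map σ = ((A⁻¹).1ᵀ * M * (A⁻¹).1.map σ) * A.1.map σ := by rw [h]
    _ = (A⁻¹).1ᵀ * M * ((A⁻¹).1.map σ * A.1.map σ) := by rw [Matrix.mul_assoc]
    _ = (A⁻¹).1ᵀ * M := by rw [e, Matrix.mul_one]

/-- induction over the span of the matrices of `R` -/
theorem T2au_span {m : ℕ} (R : Subgroup (GL (Fin m) F))
    (hspan : Submodule.span F (matrixSet R) = ⊤)
    (p : Matrix (Fin m) (Fin m) F → Prop) (hmem : ∀ A ∈ R, p A.1) (h0 : p 0)
    (hadd : ∀ X Y, p X → p Y → p (X + Y)) (hsmul : ∀ (c : F) X, p X → p (c • X)) :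
    ∀ X, p X := by
  intro X
  have hX : X ∈ Submodule.span F (matrixSet R) := by rw [hspan]; exact Submodule.mem_top
  refine Submodule.span_induction (p := fun X _ => p X) ?_ h0 (fun X Y _ _ => hadd X Y)
    (fun c X _ => hsmul c X) hX
  rintro _ ⟨A, hA, rfl⟩
  exact hmem A hA

/-- a nonzero invariant form is non-degenerate -/
theorem T2au_det (σ : F →+* F) (hσ : ∀ x, σ (σ x) = x) {m : ℕ} (R : Subgroup (GL (Fin m) F))
    (hspan : Submodule.span F (matrixSet R) = ⊤) (M₀ : Matrix (Fin m) (Fin m) F)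
    (hM₀ : M₀ ≠ 0) (hinv₀ : ∀ A ∈ R, A.1ᵀ * M₀ * A.1.map σ = M₀) : M₀.det ≠ 0 := by
  classical
  intro hd
  obtain ⟨v, hv, hMv⟩ := Matrix.exists_mulVec_eq_zero_iff.mpr hd
  have hall : ∀ X : Matrix (Fin m) (Fin m) F, M₀ *ᵥ (X.map σ *ᵥ v) = 0 := by
    apply T2au_span R hspan
    · intro A hA
      rw [Matrix.mulVec_mulVec, T2au_swap σ R M₀ hinv₀ A hA, ← Matrix.mulVec_mulVec, hMv,
        Matrix.mulVec_zero]
    · rw [T2au_map_zero]
      simp
    · intro X Y hX hY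
      rw [T2au_map_add, Matrix.add_mulVec, Matrix.mulVec_add, hX, hY, add_zero]
    · intro c X hX
      rw [T2au_map_smul, Matrix.smul_mulVec, Matrix.mulVec_smul, hX, smul_zero]
  have hall' : ∀ Y : Matrix (Fin m) (Fin m) F, M₀ *ᵥ (Y *ᵥ v) = 0 := by
    intro Y
    have h := hall (Y.map σ)
    rwa [T2au_map_map σ hσ] at h
  obtain ⟨i, hi⟩ := Function.ne_iff.mp hv
  have hi' : v i ≠ 0 := hi
  apply hM₀
  ext a j
  have h1 := hall' (Matrix.single j i (v i)⁻¹)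
  rw [Matrix.single_mulVec, inv_mul_cancel₀ hi'] at h1
  have h2 : Function.update (0 : Fin m → F) j 1 = Pi.single j 1 := rfl
  rw [h2, Matrix.mulVec_single_one] at h1
  simpa using congrFun h1 a

/-- every invariant form is a multiple of a non-degenerate invariant form -/
theorem T2au_scalar (σ : F →+* F) (hσ : ∀ x, σ (σ x) = x) {m : ℕ} (R : Subgroup (GL (Fin m) F))
    (hspan : Submodule.span F (matrixSet R) = ⊤) (M₀ : Matrix (Fin m) (Fin m) F)
    (hdet : M₀.det ≠ 0) (hinv₀ : ∀ A ∈ R, A.1ᵀ * M₀ * A.1.map σ = M₀)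
    (M : Matrix (Fin m) (Fin m) F) (hM : ∀ A ∈ R, A.1ᵀ * M * A.1.map σ = M) :
    ∃ c : F, M = c • M₀ := by
  classical
  have hMinv : IsUnit M₀.det := isUnit_iff_ne_zero.mpr hdet
  have hcomm : ∀ X : Matrix (Fin m) (Fin m) F,
      X.map σ * (M₀⁻¹ * M) = (M₀⁻¹ * M) * X.map σ := by
    apply T2au_span R hspan
    · intro A hA
      have h1 := T2au_swap σ R M hM A hA
      have h2 := T2au_swap σ R M₀ hinv₀ A hA
      have h3 : M₀⁻¹ * (A⁻¹).1ᵀ = A.1.map σ * M₀⁻¹ := by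
        calc M₀⁻¹ * (A⁻¹).1ᵀ = M₀⁻¹ * ((A⁻¹).1ᵀ * M₀) * M₀⁻¹ := by
              rw [Matrix.mul_assoc, Matrix.mul_assoc, Matrix.mul_nonsing_inv _ hMinv,
                Matrix.mul_one]
          _ = M₀⁻¹ * (M₀ * A.1.map σ) * M₀⁻¹ := by rw [h2]
          _ = A.1.map σ * M₀⁻¹ := by
              rw [← Matrix.mul_assoc M₀⁻¹, Matrix.nonsing_inv_mul _ hMinv, Matrix.one_mul]
      calc A.1.map σ * (M₀⁻¹ * M) = (A.1.map σ * M₀⁻¹) * M := by rw [Matrix.mul_assoc]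
        _ = M₀⁻¹ * (A⁻¹).1ᵀ * M := by rw [h3]
        _ = M₀⁻¹ * (M * A.1.map σ) := by rw [Matrix.mul_assoc, h1]
        _ = (M₀⁻¹ * M) * A.1.map σ := by rw [Matrix.mul_assoc]
    · rw [T2au_map_zero]
      simp
    · intro X Y hX hY
      rw [T2au_map_add, Matrix.add_mul, Matrix.mul_add, hX, hY]
    · intro c X hX
      rw [T2au_map_smul, Matrix.smul_mul, Matrix.mul_smul, hX]
  have hcomm' : ∀ Y : Matrix (Fin m) (Fin m) F, Y * (M₀⁻¹ * M) = (M₀⁻¹ * M) * Y := by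
    intro Y
    have h := hcomm (Y.map σ)
    rwa [T2au_map_map σ hσ] at h
  have hsc : M₀⁻¹ * M ∈ Set.range (Matrix.scalar (Fin m)) :=
    Matrix.mem_range_scalar_of_commute_single (fun i j _ => hcomm' (Matrix.single i j 1))
  obtain ⟨c, hc⟩ := hsc
  refine ⟨c, ?_⟩
  calc M = M₀ * (M₀⁻¹ * M) := by
        rw [← Matrix.mul_assoc, Matrix.mul_nonsing_inv _ hMinv, Matrix.one_mul]
    _ = M₀ * (Matrix.scalar (Fin m) c) := by rw [hc]
    _ = c • M₀ := by
        ext a b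
        simp [Matrix.scalar_apply, Matrix.mul_apply, Matrix.diagonal_apply, mul_comm]

/-- the conjugate transpose of an invariant form is invariant -/
theorem T2au_star (σ : F →+* F) (hσ : ∀ x, σ (σ x) = x) {m : ℕ} (R : Subgroup (GL (Fin m) F))
    (M : Matrix (Fin m) (Fin m) F) (hM : ∀ A ∈ R, A.1ᵀ * M * A.1.map σ = M) :
    ∀ A ∈ R, A.1ᵀ * (M.map σ)ᵀ * A.1.map σ = (M.map σ)ᵀ := by
  intro A hA
  have h : ((A.1ᵀ * M * A.1.map σ).map σ)ᵀ = (M.map σ)ᵀ := by rw [hM A hA]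
  rw [Matrix.map_mul, Matrix.map_mul, T2au_map_map σ hσ, Matrix.transpose_mul,
    Matrix.transpose_mul] at h
  have e : (A.1ᵀ.map σ)ᵀ = A.1.map σ := rfl
  rw [e, ← Matrix.mul_assoc] at h
  exact h

theorem T2au_core (σ : F →+* F) (hσ : ∀ x, σ (σ x) = x) (hε : ∃ ε : F, ε ≠ 0 ∧ σ ε = -ε)
    {m : ℕ} (R : Subgroup (GL (Fin m) F)) (hspan : Submodule.span F (matrixSet R) = ⊤) :
    ∃ G₀ : Matrix (Fin m) (Fin m) F, G₀.det ≠ 0 ∧ (∀ a b, G₀ a b = σ (G₀ b a)) ∧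
      ∀ M : Matrix (Fin m) (Fin m) F,
        (∀ A ∈ R, A.1ᵀ * M * A.1.map σ = M) → ∃ c : F, M = c • G₀ := by
  classical
  by_cases hex : ∃ M₀ : Matrix (Fin m) (Fin m) F, M₀ ≠ 0 ∧ ∀ A ∈ R, A.1ᵀ * M₀ * A.1.map σ = M₀
  swap
  · refine ⟨1, by simp, ?_, ?_⟩
    · intro a b
      by_cases hab : a = b
      · subst hab
        simp
      · rw [Matrix.one_apply_ne hab, Matrix.one_apply_ne (Ne.symm hab), map_zero]
    · intro M hM
      refine ⟨0, ?_⟩
      rw [zero_smul]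
      by_contra hne
      exact hex ⟨M, hne, hM⟩
  obtain ⟨M₀, hM₀, hinv₀⟩ := hex
  have hdet := T2au_det σ hσ R hspan M₀ hM₀ hinv₀
  have hstar := T2au_star σ hσ R M₀ hinv₀
  by_cases hsum : M₀ + (M₀.map σ)ᵀ = 0
  · obtain ⟨ε, hε0, hεσ⟩ := hε
    refine ⟨ε • M₀, ?_, ?_, ?_⟩
    · rw [Matrix.det_smul]
      exact mul_ne_zero (pow_ne_zero _ hε0) hdet
    · intro a b
      have h1 : (M₀.map σ)ᵀ = -M₀ := eq_neg_of_add_eq_zero_right hsum
      have h2 : σ (M₀ b a) = - M₀ a b := by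
        have h3 := congrFun (congrFun h1 a) b
        simpa using h3
      rw [Matrix.smul_apply, Matrix.smul_apply, smul_eq_mul, smul_eq_mul, map_mul, hεσ, h2]
      ring
    · intro M hM
      obtain ⟨c, hc⟩ := T2au_scalar σ hσ R hspan M₀ hdet hinv₀ M hM
      refine ⟨c * ε⁻¹, ?_⟩
      rw [smul_smul, inv_mul_cancel_right₀ hε0]
      exact hc
  · have hinvG : ∀ A ∈ R, A.1ᵀ * (M₀ + (M₀.map σ)ᵀ) * A.1.map σ = M₀ + (M₀.map σ)ᵀ := by
      intro A hA
      rw [Matrix.mul_add, Matrix.add_mul, hinv₀ A hA, hstar A hA]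
    have hdetG := T2au_det σ hσ R hspan _ hsum hinvG
    refine ⟨M₀ + (M₀.map σ)ᵀ, hdetG, ?_,
      fun M hM => T2au_scalar σ hσ R hspan _ hdetG hinvG M hM⟩
    intro a b
    simp only [Matrix.add_apply, Matrix.transpose_apply, Matrix.map_apply, map_add, hσ]
    ring

/-- T2au (twin of `Helper33.TIFT2a.T2a`): the sesquilinear forms `M` invariant under a group `R`
spanning the full matrix algebra (`Aᵀ * M * A.map (· ^ q) = M` for all `A ∈ R`) are the multiples of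
one non-degenerate HERMITIAN form `G₀`. -/
theorem T2au (hF : Fintype.card F = q ^ 2) {m : ℕ} (R : Subgroup (GL (Fin m) F))
    (hspan : Submodule.span F (matrixSet R) = ⊤) :
    ∃ G₀ : Matrix (Fin m) (Fin m) F, G₀.det ≠ 0 ∧ (∀ a b, G₀ a b = (G₀ b a) ^ q) ∧
      ∀ M : Matrix (Fin m) (Fin m) F,
        (∀ A ∈ R, A.1ᵀ * M * A.1.map (fun x : F => x ^ q) = M) → ∃ c : F, M = c • G₀ :=
  T2au_core (T2au_sig hF) (T2au_sig_sig hF) (T2au_eps hF) R hspan

end Cfsg.Agent.Lib.Helper36.UTIF
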