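import Mathlib
import Cfsg.Prelude.Def_GeometricClasses
import Cfsg.Prelude.Def_LieClassical
import Cfsg.Agent.Lib.Helper71.SPGTIF

/-! Project SUG (S5663, architect helper49), sub-project UTIF (sub-architect helper36): the
tensor-induced branch for subgroups of `GU_n(q)`; unitary twin of `Helper71.SPGTIF`.
Piece T2cu (filled by helper12). -/

set_option autoImplicit false
set_option linter.unusedSectionVars false

namespace Cfsg.Agent.Lib.Helper36.UTIF

open Matrix Cfsg.Geo Cfsg.Agent.Lib.Helper71.Asch
open Cfsg.Agent.Lib.Helper71.SPGTIF (permM)

variable {n : ℕ} {F : Type*} [Field F] [Fintype F] {q : ℕ}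

omit [Fintype F] in
/-- summing over the functions that agree with `a` off `i` -/
theorem T2cu_slice_sum {m k : ℕ} (i : Fin k) (a : Fin k → Fin m) (f : (Fin k → Fin m) → F) :
    ∑ c : Fin k → Fin m, (if ∀ j, j ≠ i → c j = a j then f c else 0) =
      ∑ u' : Fin m, f (Function.update a i u') := by
  classical
  rw [← Finset.sum_filter]
  have himg : Finset.univ.filter (fun c : Fin k → Fin m => ∀ j, j ≠ i → c j = a j) =
      Finset.univ.image (Function.update a i) := by
    ext c
    simp only [Finset.mem_filter, Finset.mem_univ, true_and, Finset.mem_image]
    constructor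
    · intro hc
      refine ⟨c i, ?_⟩
      funext j
      by_cases hj : j = i
      · subst hj
        simp
      · rw [Function.update_of_ne hj]
        exact (hc j hj).symm
    · rintro ⟨u', rfl⟩ j hj
      exact Function.update_of_ne hj _ _
  rw [himg, Finset.sum_image]
  intro x _ y _ hxy
  exact Function.update_injective a i hxy

/-- T2cu (twin of `Helper30.TIFT2c.T2c`): the `i`-slices of a matrix invariant (in the twisted
sense) under `iota i A` are invariant under `A`.  Note `(iota i A).map (· ^ q) = iota i (A.map (· ^ q))`
(`0 ^ q = 0` as `q ≠ 0`, from `hF`); then copy the proof of `T2c` with the right factor replaced. -/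
theorem T2cu (hF : Fintype.card F = q ^ 2) {m k : ℕ} (i : Fin k) (A : Matrix (Fin m) (Fin m) F)
    (G : Matrix (Fin k → Fin m) (Fin k → Fin m) F) (a b : Fin k → Fin m)
    (h : (iota i A)ᵀ * G * (iota i A).map (fun x : F => x ^ q) = G) :
    Aᵀ * (Matrix.of fun u v => G (Function.update a i u) (Function.update b i v)) *
        A.map (fun x : F => x ^ q) =
      Matrix.of fun u v => G (Function.update a i u) (Function.update b i v) := by
  classical
  have hq : q ≠ 0 := by
    rintro rfl
    have h0 : 0 < Fintype.card F := Fintype.card_pos
    rw [hF] at h0
    simp at h0
  ext u v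
  have h1 := congrFun (congrFun h (Function.update a i u)) (Function.update b i v)
  rw [Matrix.of_apply, ← h1]
  rw [Matrix.mul_apply, Matrix.mul_apply]
  have hx : ∀ d : Fin k → Fin m,
      ((iota i A)ᵀ * G) (Function.update a i u) d =
        ∑ u' : Fin m, A u' u * G (Function.update a i u') d := by
    intro d
    rw [Matrix.mul_apply]
    have h2 := T2cu_slice_sum i (Function.update a i u)
      (fun c => A (c i) u * G c d)
    calc ∑ c, (iota i A)ᵀ (Function.update a i u) c * G c d
        = ∑ c : Fin k → Fin m, (if ∀ j, j ≠ i → c j = Function.update a i u j
            then A (c i) u * G c d else 0) := by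
          apply Finset.sum_congr rfl
          intro c _
          rw [Matrix.transpose_apply, iota_apply, ite_mul, zero_mul, Function.update_self]
      _ = ∑ u' : Fin m, A (Function.update (Function.update a i u) i u' i) u *
            G (Function.update (Function.update a i u) i u') d := h2
      _ = ∑ u' : Fin m, A u' u * G (Function.update a i u') d := by
          apply Finset.sum_congr rfl
          intro u' _
          rw [Function.update_idem, Function.update_self]
  have hy : ∀ g : (Fin k → Fin m) → F,
      ∑ d, g d * ((iota i A).map (fun x : F => x ^ q)) d (Function.update b i v) =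
        ∑ v' : Fin m, g (Function.update b i v') * (A.map (fun x : F => x ^ q)) v' v := by
    intro g
    have h2 := T2cu_slice_sum i (Function.update b i v)
      (fun d => g d * (A (d i) v) ^ q)
    calc ∑ d, g d * ((iota i A).map (fun x : F => x ^ q)) d (Function.update b i v)
        = ∑ d : Fin k → Fin m, (if ∀ j, j ≠ i → d j = Function.update b i v j
            then g d * (A (d i) v) ^ q else 0) := by
          apply Finset.sum_congr rfl
          intro d _
          rw [Matrix.map_apply, iota_apply, Function.update_self]
          split_ifs with hc
          · rfl
          · rw [zero_pow hq, mul_zero]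
      _ = ∑ v' : Fin m, g (Function.update (Function.update b i v) i v') *
            (A (Function.update (Function.update b i v) i v' i) v) ^ q := h2
      _ = ∑ v' : Fin m, g (Function.update b i v') * (A.map (fun x : F => x ^ q)) v' v := by
          apply Finset.sum_congr rfl
          intro v' _
          rw [Function.update_idem, Function.update_self, Matrix.map_apply]
  rw [hy]
  apply Finset.sum_congr rfl
  intro v' _
  rw [hx, Matrix.mul_apply]
  congr 1

end Cfsg.Agent.Lib.Helper36.UTIF
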