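import Mathlib
import Cfsg.Prelude.Def_GeometricClasses
import Cfsg.Prelude.Def_LieClassical
import Cfsg.Agent.Lib.Helper71.SPGTIF
import Cfsg.Agent.Lib.Helper30.TIFT2c

/-! Project SUG (S5663, architect helper49), sub-project UTIF (sub-architect helper36): the
tensor-induced branch for subgroups of `GU_n(q)`; unitary twin of `Helper71.SPGTIF`.
Piece T2eu (filled in place by helper30; auxiliary lemma `T2eu_slice` = twisted slice lemma). -/

set_option autoImplicit false
set_option linter.unusedSectionVars false

namespace Cfsg.Agent.Lib.Helper36.UTIF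

open Matrix Cfsg.Geo Cfsg.Agent.Lib.Helper71.Asch
open Cfsg.Agent.Lib.Helper71.SPGTIF (permM)

variable {n : ℕ} {F : Type*} [Field F] [Fintype F] {q : ℕ}

/-- the twisted slice lemma: the `i`-slices of a matrix invariant under `iota i A` in the twisted
sense are invariant under `A` in the twisted sense -/
theorem T2eu_slice {m k : ℕ} (σ : F → F) (hσ : σ 0 = 0) (i : Fin k)
    (A : Matrix (Fin m) (Fin m) F) (G : Matrix (Fin k → Fin m) (Fin k → Fin m) F)
    (a b : Fin k → Fin m) (h : (iota i A)ᵀ * G * (iota i A).map σ = G) :
    Aᵀ * (Matrix.of fun u v => G (Function.update a i u) (Function.update b i v)) * A.map σ =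
      Matrix.of fun u v => G (Function.update a i u) (Function.update b i v) := by
  classical
  ext u v
  have h1 := congrFun (congrFun h (Function.update a i u)) (Function.update b i v)
  rw [Matrix.of_apply, ← h1]
  rw [Matrix.mul_apply, Matrix.mul_apply]
  have hx : ∀ d : Fin k → Fin m,
      ((iota i A)ᵀ * G) (Function.update a i u) d =
        ∑ u' : Fin m, A u' u * G (Function.update a i u') d := by
    intro d
    rw [Matrix.mul_apply]
    have h2 := Cfsg.Agent.Lib.Helper30.TIFT2c.T2c_slice_sum i (Function.update a i u)
      (fun c => A (c i) u * G c d)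
    calc ∑ c, (iota i A)ᵀ (Function.update a i u) c * G c d
        = ∑ c : Fin k → Fin m, (if ∀ j, j ≠ i → c j = Function.update a i u j
            then A (c i) u * G c d else 0) := by
          apply Finset.sum_congr rfl
          intro c _
          rw [Matrix.transpose_apply, iota_apply, ite_mul, zero_mul, Function.update_self]
      _ = ∑ u' : Fin m, A (Function.update (Function.update a i u) i u' i) u *
            G (Function.update (Function.update a i u) i u') d := h2
      _ = ∑ u' : Fin m, A u' u * G (Function.update a i u') d := by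
          apply Finset.sum_congr rfl
          intro u' _
          rw [Function.update_idem, Function.update_self]
  have hy : ∀ g : (Fin k → Fin m) → F,
      ∑ d, g d * (iota i A).map σ d (Function.update b i v) =
        ∑ v' : Fin m, g (Function.update b i v') * σ (A v' v) := by
    intro g
    have h2 := Cfsg.Agent.Lib.Helper30.TIFT2c.T2c_slice_sum i (Function.update b i v)
      (fun d => g d * σ (A (d i) v))
    calc ∑ d, g d * (iota i A).map σ d (Function.update b i v)
        = ∑ d : Fin k → Fin m, (if ∀ j, j ≠ i → d j = Function.update b i v j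
            then g d * σ (A (d i) v) else 0) := by
          apply Finset.sum_congr rfl
          intro d _
          rw [Matrix.map_apply, iota_apply, Function.update_self]
          split_ifs with hcond
          · rfl
          · rw [hσ, mul_zero]
      _ = ∑ v' : Fin m, g (Function.update (Function.update b i v) i v') *
            σ (A (Function.update (Function.update b i v) i v' i) v) := h2
      _ = ∑ v' : Fin m, g (Function.update b i v') * σ (A v' v) := by
          apply Finset.sum_congr rfl
          intro v' _
          rw [Function.update_idem, Function.update_self]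
  rw [hy]
  apply Finset.sum_congr rfl
  intro v' _
  rw [hx, Matrix.mul_apply]
  congr 1

/-- T2eu: if `G = c • ⊗ Gs` (all `Gs j` invertible, `c ≠ 0`) is invariant under `iota i A` in the
twisted sense, then `Gs i` is invariant under `A` EXACTLY.
Proof: pick for every `j` indices `(a j, b j)` with `Gs j (a j) (b j) ≠ 0` (`det ≠ 0` ⇒ `Gs j ≠ 0`;
for `m = 0` everything is trivial).  The `(a, b)`-slice of `G` at `i` is `κ • Gs i` with
`κ = c * ∏ j ≠ i, Gs j (a j) (b j) ≠ 0` (`Function.update`, `Finset.prod_update_of_mem` /
`Fin.prod_univ...`/`Finset.mul_prod_erase`).  By the twisted slice lemma (= statement of piece `T2cu`,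
twin of `Helper30.TIFT2c.T2c`; re-prove it here or copy from the landed `UTIFT2cu.lean` if it is on
main, do not import an unfilled placeholder) `Aᵀ * (κ • Gs i) * A.map σ = κ • Gs i`; cancel `κ`. -/
theorem T2eu (hF : Fintype.card F = q ^ 2) {m k : ℕ} (c : F) (hc : c ≠ 0)
    (Gs : Fin k → Matrix (Fin m) (Fin m) F) (hdet : ∀ i, (Gs i).det ≠ 0)
    (G : Matrix (Fin k → Fin m) (Fin k → Fin m) F)
    (hG : ∀ a b, G a b = c * ∏ i, Gs i (a i) (b i)) (i : Fin k) (A : Matrix (Fin m) (Fin m) F)
    (h : (iota i A)ᵀ * G * (iota i A).map (fun x : F => x ^ q) = G) :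
    Aᵀ * Gs i * A.map (fun x : F => x ^ q) = Gs i := by
  classical
  rcases Nat.eq_zero_or_pos m with rfl | hm
  · exact Subsingleton.elim _ _
  have hq : q ≠ 0 := by
    rintro rfl
    have h0 : Fintype.card F = 0 := by rw [hF]; simp
    exact Fintype.card_ne_zero h0
  have hσ : (fun x : F => x ^ q) 0 = 0 := zero_pow hq
  haveI : Nonempty (Fin m) := ⟨⟨0, hm⟩⟩
  have hne : ∀ j, ∃ p : Fin m × Fin m, Gs j p.1 p.2 ≠ 0 := by
    intro j
    by_contra hcon
    apply hdet j
    have h0 : Gs j = 0 := by
      ext u v
      by_contra h'
      exact hcon ⟨(u, v), h'⟩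
    rw [h0, Matrix.det_zero]
  choose p hp using hne
  have hslice := T2eu_slice (fun x : F => x ^ q) hσ i A G (fun j => (p j).1) (fun j => (p j).2) h
  have hκ0 : c * ∏ j ∈ Finset.univ.erase i, Gs j (p j).1 (p j).2 ≠ 0 :=
    mul_ne_zero hc (Finset.prod_ne_zero_iff.2 fun j _ => hp j)
  have hS : (Matrix.of fun u v => G (Function.update (fun j => (p j).1) i u)
      (Function.update (fun j => (p j).2) i v)) =
      (c * ∏ j ∈ Finset.univ.erase i, Gs j (p j).1 (p j).2) • Gs i := by
    ext u v
    rw [Matrix.of_apply, hG, Matrix.smul_apply, smul_eq_mul,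
      ← Finset.mul_prod_erase Finset.univ _ (Finset.mem_univ i), Function.update_self,
      Function.update_self]
    have hprod : ∏ j ∈ Finset.univ.erase i, Gs j (Function.update (fun j => (p j).1) i u j)
        (Function.update (fun j => (p j).2) i v j) =
        ∏ j ∈ Finset.univ.erase i, Gs j (p j).1 (p j).2 := by
      apply Finset.prod_congr rfl
      intro j hj
      rw [Function.update_of_ne (Finset.ne_of_mem_erase hj),
        Function.update_of_ne (Finset.ne_of_mem_erase hj)]
    rw [hprod]
    ring
  rw [hS, Matrix.mul_smul, Matrix.smul_mul] at hslice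
  ext u v
  have h2 := congrFun (congrFun hslice u) v
  rw [Matrix.smul_apply, Matrix.smul_apply, smul_eq_mul, smul_eq_mul] at h2
  exact mul_left_cancel₀ hκ0 h2

end Cfsg.Agent.Lib.Helper36.UTIF
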