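import Mathlib
import Cfsg.Prelude.Def_GeometricClasses
import Cfsg.Prelude.Def_LieClassical
import Cfsg.Agent.Lib.Helper71.SPGTIF

/-! Project SUG (S5663, architect helper49), sub-project UTIF (sub-architect helper36): the
tensor-induced branch for subgroups of `GU_n(q)`; unitary twin of `Helper71.SPGTIF`.
Piece T3xu (filled by helper42). -/

set_option autoImplicit false
set_option linter.unusedSectionVars false

namespace Cfsg.Agent.Lib.Helper36.UTIF

open Matrix Cfsg.Geo Cfsg.Agent.Lib.Helper71.Asch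
open Cfsg.Agent.Lib.Helper71.SPGTIF (permM)

variable {n : ℕ} {F : Type*} [Field F] [Fintype F] {q : ℕ}

theorem T3xu_mul_permM {m k : ℕ} (σ : Equiv.Perm (Fin k))
    (M : Matrix (Fin k → Fin m) (Fin k → Fin m) F) (x z : Fin k → Fin m) :
    (M * permM m σ : Matrix (Fin k → Fin m) (Fin k → Fin m) F) x z = M x (z ∘ σ.symm) :=
  Cfsg.Agent.Lib.Helper88.TIFT3x.mul_permM σ M x z

theorem T3xu_permMT_mul {m k : ℕ} (σ : Equiv.Perm (Fin k))
    (M : Matrix (Fin k → Fin m) (Fin k → Fin m) F) (x z : Fin k → Fin m) :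
    ((permM m σ)ᵀ * M : Matrix (Fin k → Fin m) (Fin k → Fin m) F) x z = M (x ∘ σ.symm) z :=
  Cfsg.Agent.Lib.Helper88.TIFT3x.permMT_mul σ M x z

theorem T3xu_two {m k : ℕ} (c : F) (Gs : Fin k → Matrix (Fin m) (Fin m) F)
    (G : Matrix (Fin k → Fin m) (Fin k → Fin m) F)
    (hG : ∀ a b, G a b = c * ∏ i, Gs i (a i) (b i)) (cs ds : Fin k → Matrix (Fin m) (Fin m) F)
    (σ : Equiv.Perm (Fin k)) (a b : Fin k → Fin m) :
    ((pt cs * permM m σ)ᵀ * G * (pt ds * permM m σ) :
        Matrix (Fin k → Fin m) (Fin k → Fin m) F) a b =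
      c * ∏ i, ((cs (σ i))ᵀ * Gs (σ i) * ds (σ i)) (a i) (b i) := by
  have hGeq : G = c • pt Gs := by
    ext x y
    rw [hG, Matrix.smul_apply, pt_apply, smul_eq_mul]
  have h1 : (pt cs * permM m σ)ᵀ * G * (pt ds * permM m σ) =
      (permM m σ)ᵀ * (c • pt (fun i => (cs i)ᵀ * Gs i * ds i)) * permM m σ := by
    have h2 : pt (fun i => (cs i)ᵀ) * (c • pt Gs) * pt ds =
        c • pt (fun i => (cs i)ᵀ * Gs i * ds i) := by
      rw [Matrix.mul_smul, Matrix.smul_mul, pt_mul, pt_mul]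
    rw [Matrix.transpose_mul, hGeq, pt_transpose, ← h2]
    simp only [Matrix.mul_assoc]
  rw [h1, T3xu_mul_permM, T3xu_permMT_mul, Matrix.smul_apply, pt_apply, smul_eq_mul]
  congr 1
  refine (Equiv.prod_comp σ (fun i => ((cs i)ᵀ * Gs i * ds i) ((a ∘ σ.symm) i)
    ((b ∘ σ.symm) i))).symm.trans ?_
  apply Finset.prod_congr rfl
  intro i _
  simp only [Function.comp_apply, Equiv.symm_apply_apply]

theorem T3xu_map {m k : ℕ} (cs : Fin k → Matrix (Fin m) (Fin m) F) (σ : Equiv.Perm (Fin k))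
    (q : ℕ) :
    (pt cs * permM m σ).map (fun x : F => x ^ q) =
      pt (fun i => (cs i).map (fun x : F => x ^ q)) * permM m σ := by
  ext x z
  rw [Matrix.map_apply, T3xu_mul_permM, T3xu_mul_permM, pt_apply, pt_apply, ← Finset.prod_pow]
  rfl

/-- T3xu (twin of `Helper88.TIFT3x.T3x`): twisted congruence of a tensor product form by
`pure tensor * factor permutation`.  `(pt cs * permM m σ).map (· ^ q) = pt (fun i => (cs i).map (· ^ q)) * permM m σ`
(entries of `permM` are `0`/`1`, `x ↦ x ^ q` is multiplicative and additive on `F`, `|F| = q^2`);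
then copy the proof of `T3x` with two different families (`cs` on the left, `cs.map σ` on the right):
`((pt cs * permM σ)ᵀ * G * (pt ds * permM σ)) a b = c * ∏ i, ((cs (σ i))ᵀ * Gs (σ i) * ds (σ i)) (a i) (b i)`. -/
theorem T3xu (hF : Fintype.card F = q ^ 2) {m k : ℕ} (c : F)
    (Gs : Fin k → Matrix (Fin m) (Fin m) F) (G : Matrix (Fin k → Fin m) (Fin k → Fin m) F)
    (hG : ∀ a b, G a b = c * ∏ i, Gs i (a i) (b i)) (cs : Fin k → Matrix (Fin m) (Fin m) F)
    (σ : Equiv.Perm (Fin k)) (a b : Fin k → Fin m) :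
    ((pt cs * permM m σ)ᵀ * G * (pt cs * permM m σ).map (fun x : F => x ^ q) :
        Matrix (Fin k → Fin m) (Fin k → Fin m) F) a b =
      c * ∏ i, ((cs (σ i))ᵀ * Gs (σ i) * (cs (σ i)).map (fun x : F => x ^ q)) (a i) (b i) := by
  rw [T3xu_map]
  exact T3xu_two c Gs G hG cs _ σ a b

end Cfsg.Agent.Lib.Helper36.UTIF
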