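import Mathlib
import Cfsg.Prelude.Def_GeometricClasses
import Cfsg.Prelude.Def_LieClassical
import Cfsg.Agent.Lib.Helper71.SPGTIF
import Cfsg.Agent.Lib.Helper38.O9B8X
import Cfsg.Agent.Lib.Helper7.GUOrder

/-! Project SUG (S5663, architect helper49), sub-project UTIF (sub-architect helper36): the
tensor-induced branch for subgroups of `GU_n(q)`; unitary twin of `Helper71.SPGTIF`.
Piece T4u (helper36; adapted from `Helper77.TIFT4.T4`): normalisation of the factor forms to a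
single hermitian form by a pure tensor; the tensor power form structure and the tensor-wreath
subgroup. -/

set_option autoImplicit false
set_option linter.unusedSectionVars false
set_option linter.unusedVariables false

namespace Cfsg.Agent.Lib.Helper36.UTIF

open Matrix Cfsg.Geo Cfsg.Agent.Lib.Helper71.Asch
open Cfsg.Agent.Lib.Helper71.SPGTIF (permM)

variable {n : ℕ} {F : Type*} [Field F] [Fintype F] {q : ℕ}

theorem T4u_conj {I : Type*} [Fintype I] [DecidableEq I] (T T' M : Matrix I I F) (x y : I → F) :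
    (T *ᵥ x) ⬝ᵥ M *ᵥ (T' *ᵥ y) = x ⬝ᵥ (Tᵀ * M * T') *ᵥ y := by
  rw [← Matrix.vecMul_transpose T x, ← Matrix.dotProduct_mulVec, Matrix.mulVec_mulVec,
    Matrix.mulVec_mulVec, Matrix.mul_assoc]

theorem T4u_map_mulVec (hF : Fintype.card F = q ^ 2) {I : Type*} [Fintype I]
    (T : Matrix I I F) (y : I → F) :
    (fun b => ((T *ᵥ y) b) ^ q) = (T.map (fun x : F => x ^ q)) *ᵥ (fun b => (y b) ^ q) := by
  funext b
  simp only [Matrix.mulVec, dotProduct, Matrix.map_apply]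
  rw [Cfsg.Agent.Lib.Helper7.herm_sum_pow hF]
  refine Finset.sum_congr rfl fun a _ => ?_
  rw [mul_pow]

/-- T4u (twin of `Helper77.TIFT4.T4`): normalisation of the factor forms to ONE hermitian form; the
tensor power form structure and the tensor-wreath subgroup. -/
theorem T4u (hF : Fintype.card F = q ^ 2) (H : Subgroup (GL (Fin n) F)) {m k : ℕ} (hm : 2 ≤ m)
    (hk : 2 ≤ k) (P : Matrix (Fin n) (Fin k → Fin m) F) (Q : Matrix (Fin k → Fin m) (Fin n) F)
    (hPQ : P * Q = 1) (hQP : Q * P = 1) (c : F) (hc : c ≠ 0)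
    (Gs : Fin k → Matrix (Fin m) (Fin m) F) (hdet : ∀ i, (Gs i).det ≠ 0)
    (hherm : ∀ i a b, Gs i a b = (Gs i b a) ^ q)
    (hconj : ∀ i j, ∃ (μ : F) (B : GL (Fin m) F), μ ≠ 0 ∧
      B.1ᵀ * Gs j * B.1.map (fun x : F => x ^ q) = μ • Gs i)
    (hform : ∀ x y : (Fin k → Fin m) → F, Cfsg.hermForm n F q (P *ᵥ x) (P *ᵥ y) =
      ∑ a, ∑ b, x a * (c * ∏ i, Gs i (a i) (b i)) * (y b) ^ q)
    (hH : ∀ h ∈ H, ∃ g : GL (Fin k → Fin m) F, g ∈ tensorWreathStandard m k F ∧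
      h.1 = P * g.1 * Q) :
    ∃ (e : Fin n ≃ (Fin k → Fin m)) (P' : GL (Fin n) F) (f₁ : (Fin m → F) → (Fin m → F) → F),
      IsUnitaryFormPow q f₁ ∧
      IsTensorPowerFormStructure (fun x : F => x ^ q) (Cfsg.hermForm n F q) f₁ e P' ∧
      H ≤ tensorWreathSubgroup m k e P' := by
  classical
  have hq0 : q ≠ 0 := Cfsg.Agent.Lib.Helper7.herm_q_ne_zero hF
  have hk0 : 0 < k := by omega
  obtain ⟨i₀⟩ : Nonempty (Fin k) := ⟨⟨0, hk0⟩⟩
  have hch := fun i => hconj i₀ i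
  choose μ B hμ hB using hch
  obtain ⟨G₀, hG₀⟩ : ∃ G₀ : Matrix (Fin m) (Fin m) F, G₀ = Gs i₀ := ⟨_, rfl⟩
  have hG₀herm : ∀ a b, G₀ a b = (G₀ b a) ^ q := by rw [hG₀]; exact hherm i₀
  have hG₀det : G₀.det ≠ 0 := by rw [hG₀]; exact hdet i₀
  have hB' : ∀ i, ((B i : GL (Fin m) F) : Matrix (Fin m) (Fin m) F)ᵀ * Gs i *
      (B i).1.map (fun x : F => x ^ q) = μ i • G₀ := by
    intro i
    rw [hG₀]
    exact hB i
  -- the factor form
  obtain ⟨f₁, hf₁def⟩ : ∃ f₁ : (Fin m → F) → (Fin m → F) → F,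
      f₁ = fun u v => u ⬝ᵥ G₀ *ᵥ (fun b => (v b) ^ q) := ⟨_, rfl⟩
  have hf₁herm : ∀ v w : Fin m → F, f₁ v w = (f₁ w v) ^ q := by
    intro v w
    rw [hf₁def]
    simp only [dotProduct, Matrix.mulVec]
    rw [Cfsg.Agent.Lib.Helper7.herm_sum_pow hF]
    have h1 : ∀ a, (w a * ∑ b, G₀ a b * (v b) ^ q) ^ q = ∑ b, (w a) ^ q * G₀ b a * v b := by
      intro a
      rw [mul_pow, Cfsg.Agent.Lib.Helper7.herm_sum_pow hF, Finset.mul_sum]
      refine Finset.sum_congr rfl fun b _ => ?_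
      rw [mul_pow, Cfsg.Agent.Lib.Helper7.herm_pow_pow hF, ← hG₀herm b a]
      ring
    rw [Finset.sum_congr rfl fun a _ => h1 a, Finset.sum_comm]
    refine Finset.sum_congr rfl fun b _ => ?_
    rw [Finset.mul_sum]
    refine Finset.sum_congr rfl fun a _ => ?_
    ring
  have hf₁ : IsUnitaryFormPow q f₁ := by
    refine ⟨?_, ?_, hf₁herm, ?_⟩
    · intro x y v
      rw [hf₁def]
      exact add_dotProduct x y _
    · intro c x v
      rw [hf₁def]
      exact smul_dotProduct c x _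
    · intro v hv
      have hvq : (fun b => (v b) ^ q) ≠ 0 := by
        intro h0
        apply hv
        funext b
        have h1 := congrFun h0 b
        exact pow_eq_zero_iff hq0 |>.mp h1
      have hne : G₀ *ᵥ (fun b => (v b) ^ q) ≠ 0 :=
        fun h0 => hvq (Matrix.eq_zero_of_mulVec_eq_zero hG₀det h0)
      obtain ⟨a, ha⟩ := Function.ne_iff.mp hne
      have h1 : f₁ (Pi.single a (1 : F)) v ≠ 0 := by
        rw [hf₁def]
        show (Pi.single a (1 : F) : Fin m → F) ⬝ᵥ G₀ *ᵥ (fun b => (v b) ^ q) ≠ 0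
        rw [single_dotProduct, one_mul]
        exact ha
      refine ⟨⟨Pi.single a 1, h1⟩, ⟨Pi.single a 1, ?_⟩⟩
      rw [hf₁herm]
      exact pow_ne_zero q h1
  have hgram : ∀ a b, gramMatrix f₁ a b = G₀ a b := by
    intro a b
    have hs : (fun c => ((Pi.single b (1 : F) : Fin m → F) c) ^ q) = Pi.single b 1 := by
      funext c
      by_cases h : c = b
      · subst h
        simp
      · simp [Pi.single_apply, h, zero_pow hq0]
    unfold gramMatrix
    rw [hf₁def]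
    beta_reduce
    rw [hs, single_dotProduct, one_mul]
    simp [Matrix.mulVec, dotProduct, Pi.single_apply]
  -- the normalising pure tensor
  obtain ⟨T, hT⟩ : ∃ T : Matrix (Fin k → Fin m) (Fin k → Fin m) F,
      T = pt (fun i => (B i).1) := ⟨_, rfl⟩
  obtain ⟨Ti, hTi⟩ : ∃ Ti : Matrix (Fin k → Fin m) (Fin k → Fin m) F,
      Ti = pt (fun i => ((B i)⁻¹ : GL (Fin m) F).1) := ⟨_, rfl⟩
  have hTTi : T * Ti = 1 := by
    rw [hT, hTi, pt_mul]
    have h1 : (fun i => (B i).1 * ((B i)⁻¹ : GL (Fin m) F).1) =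
        fun _ : Fin k => (1 : Matrix (Fin m) (Fin m) F) := by
      funext i
      rw [← Units.val_mul, mul_inv_cancel, Units.val_one]
    rw [h1, pt_one]
  have hTiT : Ti * T = 1 := by
    rw [hT, hTi, pt_mul]
    have h1 : (fun i => ((B i)⁻¹ : GL (Fin m) F).1 * (B i).1) =
        fun _ : Fin k => (1 : Matrix (Fin m) (Fin m) F) := by
      funext i
      rw [← Units.val_mul, inv_mul_cancel, Units.val_one]
    rw [h1, pt_one]
  have hTmap : T.map (fun x : F => x ^ q) = pt (fun i => (B i).1.map (fun x : F => x ^ q)) := by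
    rw [hT]
    ext x y
    simp only [Matrix.map_apply, pt_apply, Finset.prod_pow]
  have hcong : Tᵀ * pt Gs * T.map (fun x : F => x ^ q) =
      (∏ i, μ i) • pt (fun _ : Fin k => G₀) := by
    rw [hTmap, hT, pt_transpose, pt_mul, pt_mul, ← pt_smul]
    congr 1
    funext i
    exact hB' i
  have hP₂Q₂ : (P * T) * (Ti * Q) = 1 := by
    rw [Matrix.mul_assoc, ← Matrix.mul_assoc T, hTTi, Matrix.one_mul, hPQ]
  have hQ₂P₂ : (Ti * Q) * (P * T) = 1 := by
    rw [Matrix.mul_assoc, ← Matrix.mul_assoc Q, hQP, Matrix.one_mul, hTiT]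
  obtain ⟨e, P', hP'x, hP'mem⟩ :=
    Cfsg.Agent.Lib.Helper77.TIFT4.tift4_wreath (P * T) (Ti * Q) hP₂Q₂ hQ₂P₂
  have hstruct : IsTensorPowerFormStructure (fun x : F => x ^ q) (Cfsg.hermForm n F q) f₁ e P' := by
    unfold IsTensorPowerFormStructure
    refine ⟨c * ∏ i, μ i, mul_ne_zero hc (Finset.prod_ne_zero_iff.mpr fun i _ => hμ i), ?_⟩
    intro x y
    rw [hP'x, hP'x, ← Matrix.mulVec_mulVec, ← Matrix.mulVec_mulVec, hform]
    have h1 : ∀ x' y' : (Fin k → Fin m) → F,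
        ∑ a, ∑ b, x' a * (c * ∏ i, Gs i (a i) (b i)) * y' b = c * (x' ⬝ᵥ pt Gs *ᵥ y') := by
      intro x' y'
      rw [← Cfsg.Agent.Lib.Helper77.TIFT4.tift4_sum_eq, Finset.mul_sum]
      refine Finset.sum_congr rfl fun a _ => ?_
      rw [Finset.mul_sum]
      refine Finset.sum_congr rfl fun b _ => ?_
      rw [pt_apply]
      ring
    have h2 : ∑ a, ∑ b, x a * (∏ i, gramMatrix f₁ (a i) (b i)) * (fun x : F => x ^ q) (y b) =
        x ⬝ᵥ pt (fun _ : Fin k => G₀) *ᵥ (fun b => (y b) ^ q) := by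
      rw [← Cfsg.Agent.Lib.Helper77.TIFT4.tift4_sum_eq]
      refine Finset.sum_congr rfl fun a _ => Finset.sum_congr rfl fun b _ => ?_
      rw [pt_apply]
      simp only [hgram]
    have h3 : ∑ a, ∑ b, (T *ᵥ x) a * (c * ∏ i, Gs i (a i) (b i)) * ((T *ᵥ y) b) ^ q =
        c * ((T *ᵥ x) ⬝ᵥ pt Gs *ᵥ (fun b => ((T *ᵥ y) b) ^ q)) :=
      h1 (T *ᵥ x) (fun b => ((T *ᵥ y) b) ^ q)
    rw [h3, h2, T4u_map_mulVec hF, T4u_conj, hcong, Matrix.smul_mulVec, dotProduct_smul,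
      smul_eq_mul, mul_assoc]
  refine ⟨e, P', f₁, hf₁, hstruct, ?_⟩
  intro h hh
  obtain ⟨g, hg, hhg⟩ := hH h hh
  obtain ⟨tT, htT1, htT2⟩ : ∃ tT : GL (Fin k → Fin m) F, tT.1 = T ∧
      (tT⁻¹ : GL (Fin k → Fin m) F).1 = Ti := ⟨⟨T, Ti, hTTi, hTiT⟩, rfl, rfl⟩
  have hpure : IsPureTensor m k tT := by
    unfold IsPureTensor
    refine ⟨B, fun x y => ?_⟩
    rw [htT1, hT, pt_apply]
  have htT : tT ∈ tensorWreathStandard m k F := Subgroup.subset_closure (Or.inl hpure)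
  have hg' : tT⁻¹ * g * tT ∈ tensorWreathStandard m k F :=
    mul_mem (mul_mem (inv_mem htT) hg) htT
  apply hP'mem h (tT⁻¹ * g * tT) hg'
  rw [hhg, Units.val_mul, Units.val_mul, htT1, htT2]
  calc P * g.1 * Q = P * (T * Ti) * g.1 * (T * Ti) * Q := by
        rw [hTTi, Matrix.mul_one, Matrix.mul_one]
    _ = P * T * (Ti * g.1 * T) * (Ti * Q) := by simp only [Matrix.mul_assoc]

end Cfsg.Agent.Lib.Helper36.UTIF
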