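import Mathlib
import Cfsg.Prelude.Def_GeometricClasses
import Cfsg.Prelude.Def_LieClassical
import Cfsg.Agent.Lib.Helper71.SPGTIF
import Cfsg.Agent.Lib.Helper7.GUOrder

/-! Project SUG (S5663, architect helper49), sub-project UTIF (sub-architect helper36): the
tensor-induced branch for subgroups of `GU_n(q)`; unitary twin of `Helper71.SPGTIF`.
Piece TGu.  PLACEHOLDER: replace the `sorry` (keep name + statement; prefix auxiliary
lemmas with `TGu_`; add imports of landed modules if you need them). -/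

set_option autoImplicit false
set_option linter.unusedSectionVars false

namespace Cfsg.Agent.Lib.Helper36.UTIF

open Matrix Cfsg.Geo Cfsg.Agent.Lib.Helper71.Asch
open Cfsg.Agent.Lib.Helper71.SPGTIF (permM)

variable {n : ℕ} {F : Type*} [Field F] [Fintype F] {q : ℕ}

/-- `x ↦ x ^ q` as a ring homomorphism -/
def TGu_sig (hF : Fintype.card F = q ^ 2) : F →+* F where
  toFun x := x ^ q
  map_one' := one_pow q
  map_mul' x y := mul_pow x y q
  map_zero' := zero_pow (Cfsg.Agent.Lib.Helper7.herm_q_ne_zero hF)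
  map_add' x y := Cfsg.Agent.Lib.Helper7.herm_add_pow hF x y

theorem TGu_sig_apply (hF : Fintype.card F = q ^ 2) (x : F) : TGu_sig hF x = x ^ q := rfl

/-- the form formula in rectangular coordinates -/
theorem TGu_form (hF : Fintype.card F = q ^ 2) {I : Type} [Fintype I] [DecidableEq I]
    (P : Matrix (Fin n) I F) (x y : I → F) :
    Cfsg.hermForm n F q (P *ᵥ x) (P *ᵥ y) =
      ∑ a, ∑ b, x a * (∑ i, P i a * (P i b) ^ q) * (y b) ^ q := by
  unfold Cfsg.hermForm
  have e : ∀ i, ((P *ᵥ y) i) ^ q = ∑ b, (P i b) ^ q * (y b) ^ q := by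
    intro i
    have h3 := map_sum (TGu_sig hF) (fun b => P i b * y b) Finset.univ
    simp only [TGu_sig_apply, mul_pow] at h3
    exact h3
  have hL : ∀ i, (P *ᵥ x) i * ∑ b, P i b ^ q * y b ^ q =
      ∑ a, ∑ b, (P i a * x a) * (P i b ^ q * y b ^ q) := by
    intro i
    simp only [Matrix.mulVec, dotProduct]
    exact Finset.sum_mul_sum _ _ _ _
  rw [Finset.sum_congr rfl (fun i _ => by rw [e i, hL i])]
  rw [Finset.sum_comm]
  refine Finset.sum_congr rfl fun a _ => ?_
  rw [Finset.sum_comm]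
  refine Finset.sum_congr rfl fun b _ => ?_
  rw [Finset.mul_sum, Finset.sum_mul]
  refine Finset.sum_congr rfl fun i _ => ?_
  ring

omit [Fintype F] in
/-- evaluating a double sum against two basis vectors -/
theorem TGu_single (hq0 : q ≠ 0) {I : Type} [Fintype I] [DecidableEq I] (a b : I)
    (M : I → I → F) :
    ∑ a', ∑ b', (Pi.single a (1 : F) : I → F) a' * M a' b' *
      ((Pi.single b (1 : F) : I → F) b') ^ q = M a b := by
  rw [Finset.sum_eq_single a]
  · rw [Finset.sum_eq_single b]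
    · simp
    · intro b' _ hb'
      simp [Pi.single_apply, hb', hq0]
    · intro h
      exact absurd (Finset.mem_univ _) h
  · intro a' _ ha'
    refine Finset.sum_eq_zero fun b' _ => ?_
    simp [Pi.single_apply, ha']
  · intro h
    exact absurd (Finset.mem_univ _) h

/-- TGu (twin of `Helper68.TIFTG.TG`): the Gram matrix of the standard hermitian form in rectangular
coordinates.  Take `G := Pᵀ * P.map (· ^ q)`, i.e. `G a b = ∑ i, P i a * (P i b) ^ q`.
`G ≠ 0` since `P` is invertible (`P * Q = 1`, `n ≥ 1`: if `G = 0` the form would vanish on the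
image of `P`, which is everything, but `hermForm e₀ e₀ = 1`).  Hermitian: `x ^ (q ^ 2) = x`
(`FiniteField.pow_card` + `hF`).  Invariance: `h = P * g * Q` on the image, expand
`hermForm (h (P x)) (h (P y)) = hermForm (P x) (P y)` for all `x y` and compare Gram matrices
(`(g.map σ) *ᵥ (y.map σ) = (g *ᵥ y).map σ` because `x ↦ x ^ q` is a ring hom: `frobenius`-like,
`add_pow_card`/`iterateFrobenius`, or see `Helper28.U9SOLG.SOLG_sig`). -/
theorem TGu (hF : Fintype.card F = q ^ 2) (hn : 1 ≤ n) {I : Type} [Fintype I] [DecidableEq I]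
    (P : Matrix (Fin n) I F) (Q : Matrix I (Fin n) F) (hPQ : P * Q = 1) (hQP : Q * P = 1) :
    ∃ G : Matrix I I F, G ≠ 0 ∧ (∀ a b, G a b = (G b a) ^ q) ∧
      (∀ x y : I → F, Cfsg.hermForm n F q (P *ᵥ x) (P *ᵥ y) =
        ∑ a, ∑ b, x a * G a b * (y b) ^ q) ∧
      (∀ (h : Matrix (Fin n) (Fin n) F) (g : Matrix I I F),
        (∀ u v, Cfsg.hermForm n F q (h *ᵥ u) (h *ᵥ v) = Cfsg.hermForm n F q u v) →
        Q * h * P = g → gᵀ * G * g.map (fun x : F => x ^ q) = G) := by
  classical
  have hq0 : q ≠ 0 := Cfsg.Agent.Lib.Helper7.herm_q_ne_zero hF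
  refine ⟨Matrix.of fun a b => ∑ i, P i a * (P i b) ^ q, ?_, ?_, ?_, ?_⟩
  · intro hG
    have h1 : ∀ u : Fin n → F, P *ᵥ (Q *ᵥ u) = u := by
      intro u
      rw [Matrix.mulVec_mulVec, hPQ, Matrix.one_mulVec]
    have h0 : Cfsg.hermForm n F q (Pi.single ⟨0, hn⟩ 1) (Pi.single ⟨0, hn⟩ 1) = 1 := by
      unfold Cfsg.hermForm
      rw [Finset.sum_eq_single ⟨0, hn⟩]
      · simp
      · intro b _ hb
        simp [Pi.single_apply, hb]
      · intro h
        exact absurd (Finset.mem_univ _) h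
    rw [← h1 (Pi.single ⟨0, hn⟩ 1), TGu_form hF] at h0
    have hz : (∑ a, ∑ b, (Q *ᵥ Pi.single ⟨0, hn⟩ 1) a * (∑ i, P i a * (P i b) ^ q) *
        ((Q *ᵥ Pi.single ⟨0, hn⟩ 1) b) ^ q) = 0 := by
      refine Finset.sum_eq_zero fun a _ => Finset.sum_eq_zero fun b _ => ?_
      have h2 := congrFun (congrFun hG a) b
      rw [Matrix.of_apply, Matrix.zero_apply] at h2
      rw [h2, mul_zero, zero_mul]
    rw [hz] at h0
    exact zero_ne_one h0
  · intro a b
    rw [Matrix.of_apply, Matrix.of_apply]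
    have h3 := map_sum (TGu_sig hF) (fun i => P i b * (P i a) ^ q) Finset.univ
    simp only [TGu_sig_apply, mul_pow] at h3
    rw [h3]
    refine Finset.sum_congr rfl fun i _ => ?_
    rw [Cfsg.Agent.Lib.Helper7.herm_pow_pow hF, mul_comm]
  · intro x y
    rw [TGu_form hF]
    rfl
  · intro h g hh hg
    ext a b
    have h1 : ∀ u : I → F, P *ᵥ (g *ᵥ u) = h *ᵥ (P *ᵥ u) := by
      intro u
      rw [← hg, Matrix.mulVec_mulVec, Matrix.mulVec_mulVec]
      congr 1
      rw [← Matrix.mul_assoc, ← Matrix.mul_assoc, hPQ, Matrix.one_mul]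
    have h2 : Cfsg.hermForm n F q (P *ᵥ (g *ᵥ Pi.single a 1)) (P *ᵥ (g *ᵥ Pi.single b 1)) =
        Cfsg.hermForm n F q (P *ᵥ Pi.single a 1) (P *ᵥ Pi.single b 1) := by
      rw [h1, h1, hh]
    rw [TGu_form hF, TGu_form hF, TGu_single hq0] at h2
    rw [Matrix.of_apply, ← h2, Matrix.mul_apply]
    simp only [Matrix.mul_apply, Matrix.transpose_apply, Matrix.of_apply, Matrix.map_apply,
      Matrix.mulVec_single_one, Matrix.col_apply, Finset.sum_mul]
    exact Finset.sum_comm

end Cfsg.Agent.Lib.Helper36.UTIF
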