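import Mathlib
import Cfsg.Prelude.Def_GeometricClasses
import Cfsg.Prelude.Def_LieClassical
import Cfsg.Agent.Lib.Helper71.SPGTIF
import Cfsg.Agent.Lib.Helper38.O9B8X
import Cfsg.Agent.Lib.Helper37.SU8TW2F
import Cfsg.Agent.Lib.Helper36.UTIFTGu
import Cfsg.Agent.Lib.Helper36.UTIFT2au
import Cfsg.Agent.Lib.Helper36.UTIFT2cu
import Cfsg.Agent.Lib.Helper36.UTIFT2eu
import Cfsg.Agent.Lib.Helper36.UTIFT3xu
import Cfsg.Agent.Lib.Helper36.UTIFT4u
import Cfsg.Agent.Lib.Helper36.UTIFSOLR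
import Cfsg.Agent.Lib.Helper36.UTIFQ23

/-! Project SUG (S5663, architect helper49), sub-project UTIF (sub-architect helper36): the
tensor-induced branch for subgroups of `GU_n(q)`; unitary twin of `Helper71.SPGTIF.TIF`.
Assembly of `utif_main` from the team pieces `TGu T2au T2cu T2eu T3xu T4u SOLR Q23` and the
form-free pieces `T1a T1b T1c T1d T2b T3y` of `SPGTIF`. -/

set_option autoImplicit false
set_option linter.unusedSectionVars false

namespace Cfsg.Agent.Lib.Helper36.UTIF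

open Matrix Cfsg.Geo Cfsg.Agent.Lib.Helper71.Asch
open Cfsg.Agent.Lib.Helper71.SPGTIF (permM T1a T1b T1c T1d T2b T3y)

variable {n : ℕ} {F : Type*} [Field F] [Fintype F] {q : ℕ}

/-- T2u: a sesquilinear form on the tensor power invariant under factor groups spanning the full
matrix algebras is a scalar multiple of a tensor product of hermitian forms on the factors. -/
theorem T2u (hF : Fintype.card F = q ^ 2) {m k : ℕ}
    (G : Matrix (Fin k → Fin m) (Fin k → Fin m) F) (hG : G ≠ 0)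
    (R : Fin k → Subgroup (GL (Fin m) F)) (hspan : ∀ i, Submodule.span F (matrixSet (R i)) = ⊤)
    (hinv : ∀ i, ∀ A ∈ R i,
      (iota i A.1)ᵀ * G * (iota i A.1).map (fun x : F => x ^ q) = G) :
    ∃ (c : F) (Gs : Fin k → Matrix (Fin m) (Fin m) F), c ≠ 0 ∧ (∀ i, (Gs i).det ≠ 0) ∧
      (∀ i a b, Gs i a b = (Gs i b a) ^ q) ∧
      ∀ a b, G a b = c * ∏ i, Gs i (a i) (b i) := by
  classical
  have h1 := fun i => T2au hF (R i) (hspan i)
  choose Gs hdet hherm huniq using h1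
  have hfac : ∀ i (a b : Fin k → Fin m), ∃ c : F, ∀ u v,
      G (Function.update a i u) (Function.update b i v) = c * Gs i u v := by
    intro i a b
    obtain ⟨c, hc⟩ := huniq i (Matrix.of fun u v => G (Function.update a i u)
      (Function.update b i v)) (fun A hA => T2cu hF i A.1 G a b (hinv i A hA))
    refine ⟨c, fun u v => ?_⟩
    have h3 := congrFun (congrFun hc u) v
    simpa using h3
  obtain ⟨c, hc, hG'⟩ := T2b G hG Gs hdet hfac
  exact ⟨c, Gs, hc, hdet, hherm, hG'⟩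

/-- T3u: an element `pure tensor * factor permutation` fixing a tensor product sesquilinear form
conjugates the factor forms into each other up to scalars. -/
theorem T3u (hF : Fintype.card F = q ^ 2) {m k : ℕ} (c : F) (hc : c ≠ 0)
    (Gs : Fin k → Matrix (Fin m) (Fin m) F)
    (hdet : ∀ i, (Gs i).det ≠ 0) (G : Matrix (Fin k → Fin m) (Fin k → Fin m) F)
    (hG : ∀ a b, G a b = c * ∏ i, Gs i (a i) (b i)) (cs : Fin k → GL (Fin m) F)
    (σ : Equiv.Perm (Fin k))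
    (hinv : (pt (fun i => (cs i).1) * permM m σ)ᵀ * G *
      (pt (fun i => (cs i).1) * permM m σ).map (fun x : F => x ^ q) = G) :
    ∀ i, ∃ μ : F, μ ≠ 0 ∧
      (cs (σ i)).1ᵀ * Gs (σ i) * (cs (σ i)).1.map (fun x : F => x ^ q) = μ • Gs i := by
  classical
  rcases Nat.eq_zero_or_pos m with rfl | hm
  · intro i
    exact ⟨1, one_ne_zero, Subsingleton.elim _ _⟩
  · have hN : ∀ i, ∃ u v, Gs i u v ≠ 0 := by
      intro i
      by_contra hcon
      have h0 : Gs i = 0 := by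
        ext u v
        by_contra huv
        exact hcon ⟨u, v, huv⟩
      apply hdet i
      rw [h0]
      have : Nonempty (Fin m) := ⟨⟨0, hm⟩⟩
      exact Matrix.det_zero
    have hprod : ∀ a b : Fin k → Fin m,
        ∏ i, ((cs (σ i)).1ᵀ * Gs (σ i) * (cs (σ i)).1.map (fun x : F => x ^ q)) (a i) (b i) =
          ∏ i, Gs i (a i) (b i) := by
      intro a b
      have h1 := congrFun (congrFun hinv a) b
      rw [T3xu hF c Gs G hG (fun i => (cs i).1) σ a b, hG a b] at h1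
      exact mul_left_cancel₀ hc h1
    exact T3y _ Gs hN hprod

/-- UTIF: the tensor-induced branch for subgroups of `GU_n(q)`. -/
theorem utif_main (hF : Fintype.card F = q ^ 2) (hn : 3 ≤ n) (H L : Subgroup (GL (Fin n) F))
    (hH : H ≤ Cfsg.GU n F q) (hL : IsMinNS H L)
    (hLa : ActsAbsolutelyIrreducibly (matrixSet L)) (hc : ⁅L, L⁆ = L) (k : ℕ)
    (Ps : Fin k → Subgroup (GL (Fin n) F)) (hk : 2 ≤ k)
    (hns : ∀ i, ¬ Ps i ≤ scalars (Fin n) F)
    (hcomm : ∀ i j, i ≠ j → ∀ x ∈ Ps i, ∀ y ∈ Ps j, x * y = y * x) (hsup : L = ⨆ i, Ps i)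
    (hperm : ∀ h ∈ H, ∃ σ : Equiv.Perm (Fin k), ∀ i,
      (Ps i).map (MulAut.conj h).toMonoidHom = Ps (σ i))
    (htrans : ∀ i j, ∃ h ∈ H, (Ps i).map (MulAut.conj h).toMonoidHom = Ps j) :
    (∃ (d t : ℕ) (e : Fin n ≃ (Fin t → Fin d)) (P : GL (Fin n) F)
      (f₁ : (Fin d → F) → (Fin d → F) → F), 3 ≤ d ∧ 2 ≤ t ∧ ¬ (q = 2 ∧ d = 3) ∧
      IsUnitaryFormPow q f₁ ∧
      IsTensorPowerFormStructure (fun x : F => x ^ q) (Cfsg.hermForm n F q) f₁ e P ∧
      H ≤ tensorWreathSubgroup d t e P) ∨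
    (∃ f : (Fin n → F) → (Fin n → F) → F, IsBilinearForm f ∧ IsNondegenerateForm f ∧
      FixesForm (matrixSet L) f) := by
  classical
  obtain ⟨m, P, Q, hm, hPQ, hQP, hsP⟩ := T1a hn H L hLa k Ps hk hns hcomm hsup hperm htrans
  have hR := fun i => T1b P Q hPQ hQP i (Ps i) (hsP i)
  choose R hspan hR1 hR2 using hR
  have hinj : Function.Injective Ps := T1d hm P Q hPQ hQP Ps hcomm hsP
  have hshape : ∀ h ∈ H, ∃ σ : Equiv.Perm (Fin k),
      (∀ i, (Ps i).map (MulAut.conj h).toMonoidHom = Ps (σ i)) ∧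
      ∃ (g : GL (Fin k → Fin m) F) (cs : Fin k → GL (Fin m) F), g ∈ tensorWreathStandard m k F ∧
        h.1 = P * g.1 * Q ∧ Q * h.1 * P = pt (fun i => (cs i).1) * permM m σ := by
    intro h hh
    obtain ⟨σ, hσ⟩ := hperm h hh
    obtain ⟨g, cs, hg, hhg, hgs⟩ := T1c hm hk P Q hPQ hQP Ps hsP h σ hσ
    refine ⟨σ, hσ, g, cs, hg, hhg, ?_⟩
    rw [← hgs, hhg]
    calc Q * (P * g.1 * Q) * P = (Q * P) * g.1 * (Q * P) := by simp only [Matrix.mul_assoc]
      _ = g.1 := by rw [hQP, Matrix.one_mul, Matrix.mul_one]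
  have hHg : ∀ h ∈ H, ∃ g : GL (Fin k → Fin m) F, g ∈ tensorWreathStandard m k F ∧
      h.1 = P * g.1 * Q := by
    intro h hh
    obtain ⟨σ, -, g, cs, hg, hhg, -⟩ := hshape h hh
    exact ⟨g, hg, hhg⟩
  have hHt : ∀ i j, ∃ h ∈ H, ∃ (σ : Equiv.Perm (Fin k)) (cs : Fin k → GL (Fin m) F), σ i = j ∧
      Q * h.1 * P = pt (fun i => (cs i).1) * permM m σ := by
    intro i j
    obtain ⟨h, hh, hij⟩ := htrans i j
    obtain ⟨σ, hσ, g, cs, -, -, hdec⟩ := hshape h hh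
    refine ⟨h, hh, σ, cs, hinj ?_, hdec⟩
    rw [← hσ i, hij]
  -- factors of dimension 2: a bilinear form fixed by `L`
  by_cases hm2 : m = 2
  · subst hm2
    right
    obtain ⟨e, P', hmem, -⟩ := Cfsg.Agent.Lib.Helper44.O9.B8X_wreath P Q hPQ hQP
    have hHW : H ≤ tensorWreathSubgroup 2 k e P' := by
      intro h hh
      obtain ⟨g, hg, hhg⟩ := hHg h hh
      exact hmem h g hg hhg
    exact Cfsg.Agent.Lib.Helper37.SU8TW2F.TW2F (by omega) e P' L (hL.le.trans hHW) hc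
  have hm3 : 3 ≤ m := by omega
  obtain ⟨G, hG0, -, hGform, hGinv⟩ := TGu hF (by omega) P Q hPQ hQP
  have hPsL : ∀ i, Ps i ≤ L := fun i => by rw [hsup]; exact le_iSup Ps i
  have hfixx : ∀ x ∈ H, ∀ u v,
      Cfsg.hermForm n F q (x.1 *ᵥ u) (x.1 *ᵥ v) = Cfsg.hermForm n F q u v :=
    fun x hx u v => hH hx u v
  have hinv : ∀ i, ∀ A ∈ R i,
      (iota i A.1)ᵀ * G * (iota i A.1).map (fun x : F => x ^ q) = G := by
    intro i A hA
    obtain ⟨x, hx, hxA⟩ := hR1 i A hA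
    apply hGinv x.1 _ (hfixx x (hL.le (hPsL i hx)))
    rw [hxA]
    calc Q * (P * iota i A.1 * Q) * P = (Q * P) * iota i A.1 * (Q * P) := by
          simp only [Matrix.mul_assoc]
      _ = iota i A.1 := by rw [hQP, Matrix.one_mul, Matrix.mul_one]
  obtain ⟨c, Gs, hc0, hdet, hherm, hGprod⟩ := T2u hF G hG0 R hspan hinv
  have hconj : ∀ i j, ∃ (μ : F) (B : GL (Fin m) F), μ ≠ 0 ∧
      B.1ᵀ * Gs j * B.1.map (fun x : F => x ^ q) = μ • Gs i := by
    intro i j
    obtain ⟨h, hh, σ, cs, hσ, hdec⟩ := hHt i j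
    have hinv' := hGinv h.1 _ (hfixx h hh) hdec
    obtain ⟨μ, hμ, hμe⟩ := T3u hF c hc0 Gs hdet G hGprod cs σ hinv' i
    rw [hσ] at hμe
    exact ⟨μ, cs j, hμ, hμe⟩
  have hform : ∀ x y : (Fin k → Fin m) → F, Cfsg.hermForm n F q (P *ᵥ x) (P *ᵥ y) =
      ∑ a, ∑ b, x a * (c * ∏ i, Gs i (a i) (b i)) * (y b) ^ q := by
    intro x y
    rw [hGform]
    refine Finset.sum_congr rfl fun a _ => Finset.sum_congr rfl fun b _ => ?_
    rw [hGprod]
  by_cases hex : q = 2 ∧ m = 3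
  · exfalso
    obtain ⟨hq2, rfl⟩ := hex
    have hsol : ∀ i, Group.IsSolvable ↥(R i) := fun i =>
      SOLR hF hq2 (Gs i) (hdet i) (hherm i) (R i)
        (fun A hA => T2eu hF c hc0 Gs hdet G hGprod i A.1 (hinv i A hA))
    exact Q23 L hc k Ps hk hns hsup P Q hPQ hQP R hR2 hsol
  · left
    obtain ⟨e, P', f₁, hf₁, htp, hHW⟩ :=
      T4u hF H hm hk P Q hPQ hQP c hc0 Gs hdet hherm hconj hform hHg
    exact ⟨m, k, e, P', f₁, hm3, hk, hex, hf₁, htp, hHW⟩

end Cfsg.Agent.Lib.Helper36.UTIF
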