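import Mathlib
import Cfsg.Prelude.Def_GeometricClasses
import Cfsg.Prelude.Def_LieClassical
import Cfsg.Agent.Lib.Helper71.SPGTIF
import Cfsg.Agent.Lib.Helper97.U9NF3U
import Cfsg.Agent.Lib.Helper28.U9SOLG
import Cfsg.Agent.Lib.Helper89.U9SOL3

/-! Project SUG (S5663, architect helper49), sub-project UTIF (sub-architect helper36): the
tensor-induced branch for subgroups of `GU_n(q)`; unitary twin of `Helper71.SPGTIF`.
Piece SOLR (filled by helper69). -/

set_option autoImplicit false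
set_option linter.unusedSectionVars false

namespace Cfsg.Agent.Lib.Helper36.UTIF

open Matrix Cfsg.Geo Cfsg.Agent.Lib.Helper71.Asch
open Cfsg.Agent.Lib.Helper71.SPGTIF (permM)

variable {n : ℕ} {F : Type*} [Field F] [Fintype F] {q : ℕ}

/-- SOLR auxiliary: invariance of the Gram matrix gives invariance of the form. -/
theorem SOLR_form (hF : Fintype.card F = q ^ 2) (G A : Matrix (Fin 3) (Fin 3) F)
    (hA : Aᵀ * G * A.map (fun x : F => x ^ q) = G) (u v : Fin 3 → F) :
    formOfGram (fun c : F => c ^ q) G (A *ᵥ u) (A *ᵥ v) = formOfGram (fun c : F => c ^ q) G u v := by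
  have h1 : ∀ x y : Fin 3 → F, formOfGram (fun c : F => c ^ q) G x y
      = x ⬝ᵥ (G *ᵥ (fun b => (y b) ^ q)) := by
    intro x y
    simp only [formOfGram, dotProduct, Matrix.mulVec, Finset.mul_sum, mul_assoc]
  have h2 : (fun b => ((A *ᵥ v) b) ^ q)
      = (A.map (fun x : F => x ^ q)) *ᵥ (fun b => (v b) ^ q) := by
    funext b
    simp only [Matrix.mulVec, dotProduct, Matrix.map_apply]
    have h3 := map_sum (Cfsg.Agent.Lib.Helper44.U9.SOLG_sig hF) (fun j => A b j * v j) Finset.univ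
    simp only [Cfsg.Agent.Lib.Helper44.U9.SOLG_sig_apply, mul_pow] at h3
    exact h3
  rw [h1, h2, ← Matrix.vecMul_transpose A u, Matrix.mulVec_mulVec, Matrix.dotProduct_mulVec,
    Matrix.vecMul_vecMul, ← Matrix.mul_assoc, hA, h1, Matrix.dotProduct_mulVec]

/-- SOLR: over the field with four elements a group of isometries of a non-degenerate hermitian
form in dimension 3 is solvable.  Glue: `Helper44.U9.NF3U hF 1 G₀ ...` gives `A`, `c ≠ 0` with
`Aᵀ * G₀ * A.map σ = c • 1`; `Helper44.U9.SOLG hF hq (SOL3 ..) G₀ A c hc hA R hR'` where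
`hR'` is the invariance in `formOfGram` form (expand `formOfGram σ G₀ (y *ᵥ u) (y *ᵥ v)` and use
`yᵀ * G₀ * y.map σ = G₀`; `SOLG_form`-style computation, see `Helper28/U9SOLG.lean`);
`Helper44.U9.SOL3 : card F = 4 → IsSolvable (GU 3 F 2)`. -/
theorem SOLR (hF : Fintype.card F = q ^ 2) (hq : q = 2) (G₀ : Matrix (Fin 3) (Fin 3) F)
    (hdet : G₀.det ≠ 0) (hherm : ∀ a b, G₀ a b = (G₀ b a) ^ q) (R : Subgroup (GL (Fin 3) F))
    (hR : ∀ A ∈ R, A.1ᵀ * G₀ * A.1.map (fun x : F => x ^ q) = G₀) : Group.IsSolvable ↥R := by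
  have hF4 : Fintype.card F = 4 := by rw [hF, hq]; norm_num
  have hq0 : q ≠ 0 := by rw [hq]; norm_num
  have hone : ∀ a b : Fin 3, (1 : Matrix (Fin 3) (Fin 3) F) a b
      = ((1 : Matrix (Fin 3) (Fin 3) F) b a) ^ q := by
    intro a b
    by_cases hab : a = b
    · subst hab
      rw [Matrix.one_apply_eq, one_pow]
    · rw [Matrix.one_apply_ne hab, Matrix.one_apply_ne (Ne.symm hab), zero_pow hq0]
  obtain ⟨A, c, hc, hA⟩ := Cfsg.Agent.Lib.Helper44.U9.NF3U hF (1 : Matrix (Fin 3) (Fin 3) F) G₀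
    hone hherm (by rw [Matrix.det_one]; exact one_ne_zero) hdet
  exact Cfsg.Agent.Lib.Helper44.U9.SOLG hF hq (Cfsg.Agent.Lib.Helper44.U9.SOL3 hF4) G₀ A c hc hA R
    (fun y hy u v => SOLR_form hF G₀ y.1 (hR y hy) u v)

end Cfsg.Agent.Lib.Helper36.UTIF
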